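/-
Counting lemmas for a homomorphism from an abelian group into a group acting on a finite set.
-/
import Mathlib

set_option autoImplicit false

namespace Cfsg.Agent.MinIndex

variable {G : Type*} [Group G] {X : Type*} [MulAction G X] {A : Type*} [AddCommGroup A]

/-- The elements of `A` acting trivially at `x`. -/
def stabAdd (σ : Multiplicative A →* G) (x : X) : AddSubgroup A where
  carrier := {a | σ (Multiplicative.ofAdd a) • x = x}
  zero_mem' := by simp
  add_mem' {a b} (ha : σ _ • x = x) (hb : σ _ • x = x) := by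
    change σ _ • x = x
    rw [ofAdd_add, map_mul, mul_smul, hb, ha]
  neg_mem' {a} (ha : σ _ • x = x) := by
    change σ _ • x = x
    rw [ofAdd_neg, map_inv, inv_smul_eq_iff, ha]

variable (σ : Multiplicative A →* G)

theorem mem_stabAdd {x : X} {a : A} :
    a ∈ stabAdd σ x ↔ σ (Multiplicative.ofAdd a) • x = x := Iff.rfl

/-- The stabiliser is constant along an orbit. -/
theorem stabAdd_smul (x : X) (b : A) :
    stabAdd σ (σ (Multiplicative.ofAdd b) • x) = stabAdd σ x := by
  ext a
  simp only [mem_stabAdd]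
  rw [← mul_smul, ← map_mul, mul_comm, map_mul, mul_smul]
  exact (MulAction.injective _).eq_iff

theorem smul_eq_smul_iff_sub_mem (x : X) (a b : A) :
    σ (Multiplicative.ofAdd a) • x = σ (Multiplicative.ofAdd b) • x ↔ -b + a ∈ stabAdd σ x := by
  rw [mem_stabAdd, ofAdd_add, ofAdd_neg, map_mul, map_inv, mul_smul, inv_smul_eq_iff]

/-- The size of an orbit times the size of the stabiliser. -/
theorem card_range_mul_card_stabAdd (x : X) :
    Nat.card (Set.range fun a : A => σ (Multiplicative.ofAdd a) • x) * Nat.card (stabAdd σ x) =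
      Nat.card A := by
  let e : (A ⧸ stabAdd σ x) ≃ Set.range fun a : A => σ (Multiplicative.ofAdd a) • x :=
    Equiv.ofBijective
      (Quotient.lift (fun a : A => (⟨_, Set.mem_range_self a⟩ :
          Set.range fun a : A => σ (Multiplicative.ofAdd a) • x)) fun a b h => Subtype.ext <| by
        refine ((smul_eq_smul_iff_sub_mem σ x b a).2 ?_).symm
        exact QuotientAddGroup.leftRel_apply.1 h)
      ⟨fun a b => by
        induction a using QuotientAddGroup.induction_on
        induction b using QuotientAddGroup.induction_on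
        intro h
        refine QuotientAddGroup.eq.2 ?_
        exact (smul_eq_smul_iff_sub_mem σ x _ _).1 (congrArg Subtype.val h).symm,
       fun y => by
        obtain ⟨_, a, rfl⟩ := y
        exact ⟨QuotientAddGroup.mk a, rfl⟩⟩
  rw [← Nat.card_congr e, ← (stabAdd σ x).index_eq_card, AddSubgroup.index_mul_card]

/-- Stabiliser-disjoint orbits fit among the points with those stabilisers. -/
theorem card_mul_le_card_fibre [Finite X] [Finite A] {c : ℕ} (𝒦 : Set (AddSubgroup A))
    (h : ∀ K ∈ 𝒦, (∃ x : X, stabAdd σ x = K) ∧ c * Nat.card K ≤ Nat.card A) :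
    Nat.card 𝒦 * c ≤ Nat.card {x : X | stabAdd σ x ∈ 𝒦} := by
  classical
  choose pt hpt using fun K : 𝒦 => (h K.1 K.2).1
  have hfin : Finite 𝒦 := inferInstance
  let orb : 𝒦 → Set X := fun K => Set.range fun a : A => σ (Multiplicative.ofAdd a) • pt K
  have hc : ∀ K : 𝒦, c ≤ Nat.card (orb K) := fun K => by
    refine Nat.le_of_mul_le_mul_right ?_ (Nat.card_pos : 0 < Nat.card (K.1 : AddSubgroup A))
    have := card_range_mul_card_stabAdd σ (pt K)
    rw [hpt K] at this
    exact (h K.1 K.2).2.trans this.symm.le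
  have hinj : Function.Injective fun y : Σ K : 𝒦, orb K => (y.2 : X) := by
    rintro ⟨K, _, a, rfl⟩ ⟨L, _, b, rfl⟩ hy
    have hKL : K = L := by
      refine Subtype.ext ?_
      rw [← hpt K, ← hpt L, ← stabAdd_smul σ (pt K) a, ← stabAdd_smul σ (pt L) b]
      exact congrArg _ hy
    subst hKL
    exact congrArg _ (Subtype.ext hy)
  have hfinK : Fintype 𝒦 := Fintype.ofFinite _
  calc Nat.card 𝒦 * c = ∑ _K : 𝒦, c := by simp [Nat.card_eq_fintype_card]
    _ ≤ ∑ K : 𝒦, Nat.card (orb K) := Finset.sum_le_sum fun K _ => hc K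
    _ = Nat.card (Σ K : 𝒦, orb K) := Nat.card_sigma.symm
    _ ≤ Nat.card {x : X | stabAdd σ x ∈ 𝒦} := by
        refine Nat.card_le_card_of_injective
          (fun y : Σ K : 𝒦, orb K => (⟨y.2.1, ?_⟩ : {x : X | stabAdd σ x ∈ 𝒦}))
          (fun y z hy => hinj (congrArg Subtype.val hy))
        obtain ⟨a, ha⟩ := y.2.2
        change stabAdd σ _ ∈ 𝒦
        rw [← ha, stabAdd_smul, hpt]
        exact y.1.2

/-- Stabiliser-disjoint orbits fit in `X`. -/
theorem card_mul_le_card [Finite X] [Finite A] {c : ℕ} (𝒦 : Set (AddSubgroup A))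
    (h : ∀ K ∈ 𝒦, (∃ x : X, stabAdd σ x = K) ∧ c * Nat.card K ≤ Nat.card A) :
    Nat.card 𝒦 * c ≤ Nat.card X :=
  (card_mul_le_card_fibre σ 𝒦 h).trans
    (Nat.card_le_card_of_injective _ Subtype.val_injective)

/-- Conjugation moves stabilisers along. -/
theorem mem_stabAdd_smul_iff {g : G} {f : A → A}
    (hf : ∀ a, g * σ (Multiplicative.ofAdd a) * g⁻¹ = σ (Multiplicative.ofAdd (f a)))
    (x : X) (a : A) : f a ∈ stabAdd σ (g • x) ↔ a ∈ stabAdd σ x := by
  rw [mem_stabAdd, mem_stabAdd, ← hf, mul_smul, mul_smul, inv_smul_smul]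
  exact (MulAction.injective g).eq_iff

end Cfsg.Agent.MinIndex
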