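/-
Duality between additive subgroups of a finite vector space with a non-degenerate bilinear form.
-/
import Mathlib

set_option autoImplicit false

namespace Cfsg.Agent.MinIndex

open LinearMap (BilinForm)

variable {F : Type*} [Field F] [Finite F] {V : Type*} [AddCommGroup V] [Module F V]

/-- A fixed non-zero additive map from a finite field to its prime field. -/
noncomputable def psi (F : Type*) [Field F] [Finite F] : F →+ ZMod (ringChar F) :=
  haveI : Fact (ringChar F).Prime := ⟨CharP.char_is_prime F _⟩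
  letI := ZMod.algebra F (ringChar F)
  (Algebra.trace (ZMod (ringChar F)) F).toAddMonoidHom

theorem exists_psi_ne_zero {a : F} (ha : a ≠ 0) : ∃ b, psi F (a * b) ≠ 0 := by
  haveI : Fact (ringChar F).Prime := ⟨CharP.char_is_prime F _⟩
  letI := ZMod.algebra F (ringChar F)
  exact FiniteField.trace_to_zmod_nondegenerate F ha

/-- The elements paired to zero, through `psi`, with an additive subgroup. -/
def orthG (B : BilinForm F V) (K : AddSubgroup V) : AddSubgroup V where
  carrier := {y | ∀ a ∈ K, psi F (B a y) = 0}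
  zero_mem' a _ := by simp
  add_mem' {x y} hx hy a ha := by simp [hx a ha, hy a ha]
  neg_mem' {x} hx a ha := by simp [hx a ha]

theorem mem_orthG {B : BilinForm F V} {K : AddSubgroup V} {y : V} :
    y ∈ orthG B K ↔ ∀ a ∈ K, psi F (B a y) = 0 := Iff.rfl

theorem orthG_le {B : BilinForm F V} {K L : AddSubgroup V} (h : K ≤ L) : orthG B L ≤ orthG B K :=
  fun _ hy a ha => hy a (h ha)

/-- Against a subspace, the pairing through `psi` and the form agree. -/
theorem mem_orthG_of_smul_mem {B : BilinForm F V} {K : AddSubgroup V} {a y : V}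
    (h : ∀ c : F, c • a ∈ K) (hy : y ∈ orthG B K) : B a y = 0 := by
  by_contra hne
  obtain ⟨b, hb⟩ := exists_psi_ne_zero hne
  refine hb ?_
  have := hy _ (h b)
  rwa [map_smul, LinearMap.smul_apply, smul_eq_mul, mul_comm] at this

theorem orthG_submodule (B : BilinForm F V) (U : Submodule F V) :
    (orthG B U.toAddSubgroup : Set V) = (B.orthogonal U : Submodule F V) := by
  ext y
  exact ⟨fun h a ha => mem_orthG_of_smul_mem (fun c => U.smul_mem c ha) h,
    fun h a ha => by rw [show B a y = 0 from h a ha, map_zero]⟩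

section Core

/-- Duality for a module over a prime field. -/
theorem orth_core {p : ℕ} [Fact p.Prime] {M : Type*} [AddCommGroup M] [Module (ZMod p) M]
    [Finite M] (β : BilinForm (ZMod p) M) (hsep : ∀ x, (∀ y, β x y = 0) → x = 0)
    (hsym : ∀ x y, β x y = β y x) (S : Submodule (ZMod p) M) :
    Nat.card S * Nat.card (β.orthogonal S) = Nat.card M ∧
      β.orthogonal (β.orthogonal S) = S := by
  haveI : FiniteDimensional (ZMod p) M := Module.Finite.of_finite
  have hβ : β.Nondegenerate := ⟨hsep, fun x hx => hsep x fun y => (hsym x y).trans (hx y)⟩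
  have hβr : β.IsRefl := fun x y h => (hsym y x).trans h
  refine ⟨?_, LinearMap.BilinForm.orthogonal_orthogonal hβ hβr S⟩
  have h1 := LinearMap.BilinForm.finrank_orthogonal hβ S
  have h2 := Submodule.finrank_le S
  rw [Module.natCard_eq_pow_finrank (K := ZMod p) (V := S),
    Module.natCard_eq_pow_finrank (K := ZMod p) (V := β.orthogonal S), h1, ← pow_add,
    Module.natCard_eq_pow_finrank (K := ZMod p) (V := M)]
  congr 1
  omega

end Core

section Finite

variable [Finite V] (B : BilinForm F V)

/-- Both facts about `orthG` for a symmetric non-degenerate form. -/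
theorem orthG_facts (hB : ∀ x, (∀ y, B x y = 0) → x = 0) (hs : ∀ x y, B x y = B y x) :
    (∀ K : AddSubgroup V, Nat.card K * Nat.card (orthG B K) = Nat.card V) ∧
      ∀ K : AddSubgroup V, orthG B (orthG B K) = K := by
  have hpF : (ringChar F).Prime := CharP.char_is_prime F _
  have hpx : ∀ x : V, ringChar F • x = 0 := fun x => by
    rw [← Nat.cast_smul_eq_nsmul F, ringChar.Nat.cast_ringChar, zero_smul]
  have key : ∀ (p : ℕ) [Fact p.Prime] [Module (ZMod p) V] (φ : F →+ ZMod p),
      (∀ a : F, a ≠ 0 → ∃ b, φ (a * b) ≠ 0) → ∀ K : AddSubgroup V,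
      ∀ (Ko Koo : AddSubgroup V), (∀ y, y ∈ Ko ↔ ∀ a ∈ K, φ (B a y) = 0) →
      (∀ y, y ∈ Koo ↔ ∀ a ∈ Ko, φ (B a y) = 0) →
      Nat.card K * Nat.card Ko = Nat.card V ∧ Koo = K := by
    intro p _ _ φ hφ K Ko Koo hKo hKoo
    let β : BilinForm (ZMod p) V := LinearMap.mk₂ (ZMod p) (fun a y => φ (B a y))
      (fun a b y => by simp)
      (fun c a y => by
        simpa using ZMod.map_smul ((φ.comp (B.flip y).toAddMonoidHom)) c a)
      (fun a b y => by simp)
      (fun c a y => by
        simpa using ZMod.map_smul ((φ.comp (B a).toAddMonoidHom)) c y)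
    have hsep : ∀ x, (∀ y, β x y = 0) → x = 0 := by
      intro x hx
      refine hB x fun y => ?_
      by_contra hne
      obtain ⟨b, hb⟩ := hφ _ hne
      refine hb ?_
      have h' : φ (B x (b • y)) = 0 := hx (b • y)
      rwa [map_smul, smul_eq_mul, mul_comm] at h'
    have hsym : ∀ x y, β x y = β y x := fun x y => congrArg φ (hs x y)
    let S : AddSubgroup V ≃o Submodule (ZMod p) V := AddSubgroup.toZModSubmodule p
    obtain ⟨h1, h2⟩ := orth_core β hsep hsym (S K)
    have e1 : S Ko = β.orthogonal (S K) := by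
      ext y
      exact hKo y
    have e2 : S Koo = β.orthogonal (S Ko) := by
      ext y
      exact hKoo y
    refine ⟨?_, S.injective ?_⟩
    · rw [← h1, ← e1]; rfl
    · rw [e2, e1, h2]
  haveI : Fact (ringChar F).Prime := ⟨hpF⟩
  letI : Module (ZMod (ringChar F)) V := AddCommGroup.zmodModule hpx
  exact ⟨fun K => (key _ (psi F) (fun a ha => exists_psi_ne_zero ha) K (orthG B K)
      (orthG B (orthG B K)) (fun _ => Iff.rfl) (fun _ => Iff.rfl)).1,
    fun K => (key _ (psi F) (fun a ha => exists_psi_ne_zero ha) K (orthG B K)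
      (orthG B (orthG B K)) (fun _ => Iff.rfl) (fun _ => Iff.rfl)).2⟩

/-- The cardinality of a subgroup and of the subgroup paired to zero with it. -/
theorem card_mul_orthG (hB : ∀ x, (∀ y, B x y = 0) → x = 0) (hs : ∀ x y, B x y = B y x)
    (K : AddSubgroup V) : Nat.card K * Nat.card (orthG B K) = Nat.card V :=
  (orthG_facts B hB hs).1 K

theorem orthG_orthG (hB : ∀ x, (∀ y, B x y = 0) → x = 0) (hs : ∀ x y, B x y = B y x)
    (K : AddSubgroup V) : orthG B (orthG B K) = K :=
  (orthG_facts B hB hs).2 K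

theorem orthG_eq_bot_iff (hB : ∀ x, (∀ y, B x y = 0) → x = 0) (hs : ∀ x y, B x y = B y x)
    (K : AddSubgroup V) : orthG B K = ⊥ ↔ K = ⊤ := by
  have hbot : orthG B (⊥ : AddSubgroup V) = ⊤ := by
    rw [eq_top_iff]
    intro y _ a ha
    rw [AddSubgroup.mem_bot.1 ha]
    simp
  constructor
  · intro h
    rw [← orthG_orthG B hB hs K, h, hbot]
  · rintro rfl
    rw [← hbot, orthG_orthG B hB hs]

theorem orthG_eq_top_iff (hB : ∀ x, (∀ y, B x y = 0) → x = 0) (hs : ∀ x y, B x y = B y x)
    (K : AddSubgroup V) : orthG B K = ⊤ ↔ K = ⊥ := by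
  rw [← orthG_eq_bot_iff B hB hs (orthG B K), orthG_orthG B hB hs]

end Finite

end Cfsg.Agent.MinIndex
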