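/-
Orthogonal complements of a few vectors, and singular vectors outside a subspace.
-/
import Mathlib
import Cfsg.Prelude.Def_Classical
import Cfsg.Agent.Forms.Quadratic
import Cfsg.Agent.Classical.OrthBasic
import Cfsg.Agent.Classical.OrthEichler

set_option autoImplicit false

namespace Cfsg.Agent.MinIndex

open QuadraticMap Cfsg.Agent.Classical Module

universe u v

variable {F : Type u} [Field F] {V : Type v} [AddCommGroup V] [Module F V] {R : QuadraticForm F V}
  {k : ℕ}

theorem polarBilin_nondegenerate (hR : BNondeg R) : (polarBilin R).Nondegenerate :=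
  ⟨fun x h => hR x fun y => by simpa using h y, fun y h => hR y fun x => by
    rw [polar_comm]; simpa using h x⟩

theorem polarBilin_isRefl (R : QuadraticForm F V) : (polarBilin R).IsRefl := fun x y h => by
  simpa [polar_comm R y x] using h

variable (R) in
/-- The vectors orthogonal to all members of a family. -/
def perpF (f : Fin k → V) : Submodule F V :=
  LinearMap.BilinForm.orthogonal (polarBilin R) (Submodule.span F (Set.range f))

theorem mem_perpF {f : Fin k → V} {x : V} : x ∈ perpF R f ↔ ∀ i, polar R (f i) x = 0 := by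
  constructor
  · intro h i
    exact h (f i) (Submodule.subset_span (Set.mem_range_self i))
  · intro h y hy
    change polar R y x = 0
    induction hy using Submodule.span_induction with
    | mem z hz => obtain ⟨i, rfl⟩ := hz; exact h i
    | zero => exact polar_zero_left _ x
    | add a b _ _ ha hb => rw [polar_add_left, ha, hb, add_zero]
    | smul c a _ ha => rw [polar_smul_left, ha, smul_zero]

theorem mem_perp_one {a x : V} : x ∈ perpF R ![a] ↔ polar R a x = 0 := by
  simp [mem_perpF]

theorem mem_perp_two {a b x : V} :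
    x ∈ perpF R ![a, b] ↔ polar R a x = 0 ∧ polar R b x = 0 := by
  simp [mem_perpF, Fin.forall_fin_two]

theorem mem_perp_three {a b c x : V} :
    x ∈ perpF R ![a, b, c] ↔ polar R a x = 0 ∧ polar R b x = 0 ∧ polar R c x = 0 := by
  simp [mem_perpF, Fin.forall_fin_succ, and_assoc]

theorem mem_perp_four {a b c d x : V} : x ∈ perpF R ![a, b, c, d] ↔
    polar R a x = 0 ∧ polar R b x = 0 ∧ polar R c x = 0 ∧ polar R d x = 0 := by
  simp [mem_perpF, Fin.forall_fin_succ, and_assoc]

theorem finrank_span_range_le (f : Fin k → V) :
    finrank F (Submodule.span F (Set.range f)) ≤ k := by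
  have := finrank_range_le_card (R := F) f
  rwa [Fintype.card_fin] at this

variable [FiniteDimensional F V]

theorem finrank_le_perpF (hR : BNondeg R) (f : Fin k → V) :
    finrank F V ≤ finrank F (perpF R f) + k := by
  have h1 := LinearMap.BilinForm.finrank_orthogonal (polarBilin_nondegenerate hR)
    (Submodule.span F (Set.range f))
  have h2 := finrank_span_range_le (F := F) f
  rw [perpF, h1]
  omega

theorem mem_span_of_perp (hR : BNondeg R) (f : Fin k → V) {z : V}
    (h : ∀ x ∈ perpF R f, polar R x z = 0) : z ∈ Submodule.span F (Set.range f) := by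
  rw [← LinearMap.BilinForm.orthogonal_orthogonal (polarBilin_nondegenerate hR)
    (polarBilin_isRefl R) (Submodule.span F (Set.range f))]
  exact h

/-- A singular vector of a large subspace, outside a small one. -/
theorem exists_singular_notin [Finite F] (R : QuadraticForm F V) {P S : Submodule F V}
    (h : finrank F S + 3 ≤ finrank F P) : ∃ a ∈ P, a ∉ S ∧ R a = 0 := by
  obtain ⟨C, hC⟩ := Submodule.exists_isCompl S
  have h1 := Submodule.finrank_add_eq_of_isCompl hC
  have h2 := Submodule.finrank_sup_add_finrank_inf_eq P C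
  have h3 := Submodule.finrank_le (P ⊔ C)
  obtain ⟨a, ha, ha0, hRa⟩ :=
    Cfsg.Agent.Forms.exists_singular_vector_of_three_le R (S := P ⊓ C) (by omega)
  refine ⟨a, ha.1, fun haS => ha0 ?_, hRa⟩
  exact Submodule.disjoint_def.1 hC.disjoint a haS ha.2

/-- A singular vector orthogonal to a family, outside its span and that of another. -/
theorem exists_singular_perp [Finite F] (hR : BNondeg R) (f : Fin k → V) {l : ℕ} (g : Fin l → V)
    (h : k + l + 3 ≤ finrank F V) :
    ∃ a ∈ perpF R f, a ∉ Submodule.span F (Set.range g) ∧ R a = 0 := by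
  have h1 := finrank_le_perpF hR f
  have h2 := finrank_span_range_le (F := F) g
  exact exists_singular_notin R (by omega)

/-- A vector outside two proper subspaces. -/
theorem exists_not_mem_two {P A B : Submodule F V} (hA : ¬ P ≤ A) (hB : ¬ P ≤ B) :
    ∃ x ∈ P, x ∉ A ∧ x ∉ B := by
  obtain ⟨a, haP, haA⟩ := SetLike.not_le_iff_exists.1 hA
  obtain ⟨b, hbP, hbB⟩ := SetLike.not_le_iff_exists.1 hB
  by_cases haB : a ∈ B
  · by_cases hbA : b ∈ A
    · exact ⟨a + b, P.add_mem haP hbP, fun h => haA ((A.add_mem_iff_left hbA).1 h),
        fun h => hbB ((B.add_mem_iff_right haB).1 h)⟩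
    · exact ⟨b, hbP, hbA, hbB⟩
  · exact ⟨a, haP, haA, haB⟩

end Cfsg.Agent.MinIndex
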