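/-
From small actions of Eichler groups to the index of subgroups of the Prelude's `POmega`.
-/
import Mathlib
import Cfsg.Prelude.Def_Classical
import Cfsg.Agent.Classical.OrthBasic
import Cfsg.Agent.Classical.OrthCount
import Cfsg.Agent.Classical.OrthForms
import Cfsg.Agent.Classical.OrthEichler
import Cfsg.Agent.Classical.OrthSimple
import Cfsg.Agent.Classical.OrthIndex
import Cfsg.Agent.Classical.OrthOrder
import Cfsg.Agent.Classical.OrthFinal
import Cfsg.Agent.MinIndex.OrthMain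

set_option autoImplicit false

namespace Cfsg.Agent.MinIndex

open QuadraticMap Cfsg.Agent.Classical Module

universe u w

variable {F : Type u} [Field F]

section Witt

variable {W : Type w} [AddCommGroup W] [Module F W] [FiniteDimensional F W]

/-- A hyperbolic plane raises the Witt index by one at most. -/
theorem finrank_ts_hypAdd {Q : QuadraticForm F W} {k : ℕ}
    (h : ∀ U : Submodule F W, (∀ y ∈ U, Q y = 0) → finrank F U ≤ k)
    (U : Submodule F ((F × F) × W)) (hU : ∀ y ∈ U, hypAdd Q y = 0) : finrank F U ≤ k + 1 := by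
  let pb : (F × F) × W →ₗ[F] F := (LinearMap.snd F F F).comp (LinearMap.fst F (F × F) W)
  set U₀ : Submodule F ((F × F) × W) := U ⊓ LinearMap.ker pb with hU₀
  let π : U₀ →ₗ[F] W := (LinearMap.snd F (F × F) W).comp U₀.subtype
  have hmem : ∀ u : U₀, (u : (F × F) × W).1.2 = 0 := fun u => LinearMap.mem_ker.1 u.2.2
  have hrange : finrank F (LinearMap.range π) ≤ k := h _ fun y ⟨u, hu⟩ => by
    have h0 := hU _ u.2.1
    rw [hypAdd_apply, hmem u, mul_zero, zero_add] at h0
    rw [← hu]; exact h0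
  have h2 := LinearMap.finrank_range_add_finrank_ker π
  have h1 : finrank F U ≤ finrank F U₀ + 1 := by
    have e1 := Submodule.finrank_sup_add_finrank_inf_eq U (LinearMap.ker pb)
    have e2 := Submodule.finrank_le (U ⊔ LinearMap.ker pb)
    have e3 := LinearMap.finrank_range_add_finrank_ker pb
    have e4 := Submodule.finrank_le (LinearMap.range pb)
    rw [finrank_self] at e4
    rw [← hU₀] at e1
    omega
  let κ : LinearMap.ker π →ₗ[F] F :=
    ((LinearMap.fst F F F).comp (LinearMap.fst F (F × F) W)).comp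
      (U₀.subtype.comp (LinearMap.ker π).subtype)
  have hκ : Function.Injective κ := fun a b hab => by
    have ha := LinearMap.mem_ker.1 a.2
    have hb := LinearMap.mem_ker.1 b.2
    refine Subtype.ext (Subtype.ext (Prod.ext (Prod.ext hab ?_) ?_))
    · rw [hmem a.1, hmem b.1]
    · exact ha.trans hb.symm
  have h4 := LinearMap.finrank_le_finrank_of_injective hκ
  rw [finrank_self] at h4
  rcases Nat.eq_zero_or_pos (finrank F (LinearMap.ker π)) with hk | hk
  · omega
  have : Nontrivial (LinearMap.ker π) := Module.finrank_pos_iff.1 hk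
  obtain ⟨⟨u, huk⟩, hune⟩ := exists_ne (0 : LinearMap.ker π)
  have hu2 : (u : (F × F) × W).2 = 0 := LinearMap.mem_ker.1 huk
  have hu1 : (u : (F × F) × W).1.1 ≠ 0 := fun h0 => hune
    (Subtype.ext (Subtype.ext (Prod.ext (Prod.ext h0 (hmem u)) hu2)))
  have heq : U₀ = U := by
    rw [hU₀, inf_eq_left]
    intro v hv
    have h0 : polar (hypAdd Q) (u : (F × F) × W) v = 0 := by
      rw [polar, hU _ (U.add_mem u.2.1 hv), hU _ u.2.1, hU _ hv, sub_zero, sub_zero]
    have e : polar (hypAdd Q) (u : (F × F) × W) v = (u : (F × F) × W).1.1 * v.1.2 := by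
      simp [hmem u, hu2]
    rw [e] at h0
    exact LinearMap.mem_ker.2 ((mul_eq_zero.1 h0).resolve_left hu1)
  have : finrank F U₀ = finrank F U := by rw [heq]
  omega

omit [FiniteDimensional F W] in
theorem finrank_ts_congr {V : Type*} [AddCommGroup V] [Module F V] {Q : QuadraticForm F W}
    {R : QuadraticForm F V} (e : W ≃ₗ[F] V) (he : ∀ x, R (e x) = Q x) {k : ℕ}
    (h : ∀ U : Submodule F V, (∀ y ∈ U, R y = 0) → finrank F U ≤ k)
    (U : Submodule F W) (hU : ∀ y ∈ U, Q y = 0) : finrank F U ≤ k := by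
  rw [← LinearEquiv.finrank_map_eq e U]
  refine h _ ?_
  rintro _ ⟨x, hx, rfl⟩
  rw [LinearEquiv.coe_coe, he]
  exact hU x hx

/-- The Witt index of a sum of hyperbolic planes and an anisotropic core. -/
theorem finrank_ts_hypExt {Q₀ : QuadraticForm F W} (hA : Q₀.Anisotropic) (m : ℕ) :
    ∀ U : Submodule F (HypSpace F m W), (∀ y ∈ U, hypExt m Q₀ y = 0) → finrank F U ≤ m := by
  induction m with
  | zero =>
    refine finrank_ts_congr (R := Q₀) hypSpaceZero (fun x => by simp [hypSpaceZero, hypExt_apply])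
      fun U hU => ?_
    rw [show U = ⊥ from (Submodule.eq_bot_iff U).2 fun y hy => hA y (hU y hy), finrank_bot]
  | succ m ih =>
    exact fun U hU => finrank_ts_congr (hypSplit m) (hypSplit_spec m Q₀)
      (fun U' hU' => finrank_ts_hypAdd ih U' hU') U hU

end Witt

section Shape

variable {W₀ : Type w} [AddCommGroup W₀] [Module F W₀]

/-- Two steps of splitting off a plane. -/
def hypSplitTwo (j : ℕ) :
    HypSpace F (j + 2) W₀ ≃ₗ[F] (F × F) × ((F × F) × HypSpace F j W₀) :=
  (hypSplit (j + 1)).trans (hypAddEquiv (hypSplit j))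

theorem hypSplitTwo_spec (j : ℕ) (Q₀ : QuadraticForm F W₀) (x : HypSpace F (j + 2) W₀) :
    hypAdd (hypAdd (hypExt j Q₀)) (hypSplitTwo j x) = hypExt (j + 2) Q₀ x := by
  rw [hypSplitTwo, LinearEquiv.trans_apply, hypAddEquiv_spec (Q := hypExt (j + 1) Q₀) _
    (hypSplit_spec j Q₀), hypSplit_spec]

/-- The inner space is as assumed. -/
theorem innerSpace_hypExt [Finite F] [Finite W₀] [FiniteDimensional F W₀] {Q₀ : QuadraticForm F W₀}
    (h : GoodCore Q₀) {j : ℕ} (hj : 1 ≤ j) (h3 : 3 ≤ 2 * j + finrank F W₀) :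
    InnerSpace (hypExt j Q₀) := by
  have hp : ∃ e f, IsPair (hypExt j Q₀) e f := by
    obtain ⟨i, rfl⟩ := Nat.exists_eq_add_of_le' hj
    have hsp := hypSplit_spec i Q₀
    refine ⟨(hypSplit i).symm (hE F (HypSpace F i W₀)), (hypSplit i).symm (hF F (HypSpace F i W₀)),
      ?_, ?_, ?_⟩
    · rw [← hsp, LinearEquiv.apply_symm_apply]; simp
    · rw [← hsp, LinearEquiv.apply_symm_apply]; simp
    · rw [polar, ← hsp, ← hsp, ← hsp, ← map_add, LinearEquiv.apply_symm_apply,
        LinearEquiv.apply_symm_apply, LinearEquiv.apply_symm_apply]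
      simp
  refine ⟨bNondeg_hypExt j h.nondeg, by rwa [Cfsg.Agent.Classical.finrank_HypSpace], hp, ?_⟩
  obtain ⟨e, f, hef⟩ := hp
  exact ⟨_, _, _, _, hef.hypAdd⟩

end Shape

section Index

variable [Finite F] {W₁ : Type w} [AddCommGroup W₁] [Module F W₁] [Finite W₁]
  [FiniteDimensional F W₁] {Q₁ : QuadraticForm F W₁} {ι : Type} [Fintype ι] [DecidableEq ι]
  {f : (ι → F) → F} {Qf : QuadraticForm F (ι → F)}

theorem exists_POmega_equiv (h : InnerSpace Q₁) (hgen : EQ Q₁ ⊔ RQ Q₁ = ⊤)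
    (hQf : ∀ v, Qf v = f v) (e : (ι → F) ≃ₗ[F] (F × F) × ((F × F) × W₁))
    (he : ∀ v, hypAdd (hypAdd Q₁) (e v) = Qf v) :
    Nonempty (Cfsg.POmega F f ≃*
      EG (hypAdd Q₁) ⧸ Subgroup.center (EG (hypAdd Q₁))) :=
  nonempty_POmega_equiv f Qf hQf e he h.bNondeg h.two
    (sup_eq_top_hypAdd h.nondeg.qNondeg hgen)

set_option synthInstance.maxHeartbeats 200000 in
/-- Every proper subgroup has large index. -/
theorem index_bound (h : InnerSpace Q₁) (hgen : EQ Q₁ ⊔ RQ Q₁ = ⊤) (hQf : ∀ v, Qf v = f v)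
    (e : (ι → F) ≃ₗ[F] (F × F) × ((F × F) × W₁))
    (he : ∀ v, hypAdd (hypAdd Q₁) (e v) = Qf v) {r T : ℕ}
    (hsmall : ∀ n, n < T → SmallAct Q₁ r n) :
    ∀ H : Subgroup (Cfsg.POmega F f), H ≠ ⊤ → T ≤ H.index := by
  intro H hH
  by_contra hlt
  push Not at hlt
  obtain ⟨φ⟩ := exists_POmega_equiv h hgen hQf e he
  let π : EG (hypAdd Q₁) →* Cfsg.POmega F f :=
    φ.symm.toMonoidHom.comp (QuotientGroup.mk' _)
  have hπ : Function.Surjective π := φ.symm.surjective.comp (QuotientGroup.mk'_surjective _)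
  set K := H.comap π
  have : Finite (((F × F) × ((F × F) × W₁)) ≃ₗ[F] ((F × F) × ((F × F) × W₁))) :=
    Finite.of_injective (fun g : ((F × F) × ((F × F) × W₁)) ≃ₗ[F] _ => (g : _ → _))
      DFunLike.coe_injective
  have hidx : K.index = H.index := Subgroup.index_comap_of_surjective H hπ
  have hcard : Nat.card (EG (hypAdd Q₁) ⧸ K) = H.index := by
    rw [← hidx]; exact (Subgroup.index_eq_card K).symm
  obtain ⟨y, hy⟩ := exists_fixed_of_small (X := EG (hypAdd Q₁) ⧸ K) h
    (r := r) (by rw [hcard]; exact hsmall _ hlt)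
  have : Subsingleton (EG (hypAdd Q₁) ⧸ K) := ⟨fun a b => by
    obtain ⟨g, rfl⟩ := MulAction.exists_smul_eq (EG (hypAdd Q₁)) y a
    obtain ⟨g', rfl⟩ := MulAction.exists_smul_eq (EG (hypAdd Q₁)) y b
    rw [hy, hy]⟩
  refine hH (Subgroup.index_eq_one.1 ?_)
  rw [← hcard]
  exact Nat.card_eq_one_iff_unique.2 ⟨inferInstance, inferInstance⟩

set_option synthInstance.maxHeartbeats 200000 in
/-- The line of a vector gives a subgroup of known index. -/
theorem exists_index_line (h : InnerSpace Q₁) (hgen : EQ Q₁ ⊔ RQ Q₁ = ⊤) (hQf : ∀ v, Qf v = f v)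
    (e : (ι → F) ≃ₗ[F] (F × F) × ((F × F) × W₁))
    (he : ∀ v, hypAdd (hypAdd Q₁) (e v) = Qf v) {v : (F × F) × ((F × F) × W₁)} (hv : v ≠ 0) :
    ∃ H : Subgroup (Cfsg.POmega F f),
      H.index * Nat.card {t : F // t ≠ 0 ∧ t * t * hypAdd (hypAdd Q₁) v = hypAdd (hypAdd Q₁) v} =
        Nat.card {s // s ≠ 0 ∧ hypAdd (hypAdd Q₁) s = hypAdd (hypAdd Q₁) v} := by
  classical
  obtain ⟨φ⟩ := exists_POmega_equiv h hgen hQf e he
  set G := EG (hypAdd Q₁)
  have htwo : HasTwoPairs (hypAdd (hypAdd Q₁)) := by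
    obtain ⟨a, b, _, _, hp⟩ := h.two
    exact ⟨_, _, _, _, hp.1.hypAdd⟩
  have hV := bNondeg_hypAdd h.bNondeg
  letI : MulAction G (Submodule F ((F × F) × ((F × F) × W₁))) :=
    { smul := fun g L => L.map g.1.1.toLinearMap
      one_smul := fun L => Submodule.map_id L
      mul_smul := fun g g' L =>
        Submodule.map_comp g'.1.1.toLinearMap g.1.1.toLinearMap L }
  have hsmul : ∀ (g : G) (s : (F × F) × ((F × F) × W₁)), g • (F ∙ s) = F ∙ g.1.1 s := fun g s => by
    change Submodule.map g.1.1.toLinearMap (F ∙ s) = _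
    rw [Submodule.map_span, Set.image_singleton]
    rfl
  set O := MulAction.orbit G (F ∙ v)
  set S := {s // s ≠ 0 ∧ hypAdd (hypAdd Q₁) s = hypAdd (hypAdd Q₁) v}
  set Tt := {t : F // t ≠ 0 ∧ t * t * hypAdd (hypAdd Q₁) v = hypAdd (hypAdd Q₁) v}
  have hrep : ∀ L : O, ∃ s : S, L.1 = F ∙ s.1 := by
    rintro ⟨_, g, rfl⟩
    exact ⟨⟨g.1.1 v, fun h0 => hv (g.1.1.injective (h0.trans (map_zero _).symm)),
      OQ_map_app _ _⟩, hsmul g v⟩
  choose rep hrep using hrep
  let ψ : O × Tt → S := fun p => ⟨p.2.1 • (rep p.1).1, smul_ne_zero p.2.2.1 (rep p.1).2.1, by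
    rw [QuadraticMap.map_smul, (rep p.1).2.2, smul_eq_mul]
    exact p.2.2.2⟩
  have hψ : Function.Bijective ψ := by
    refine ⟨fun p p' hp => ?_, fun s => ?_⟩
    · have e1 : p.2.1 • (rep p.1).1 = p'.2.1 • (rep p'.1).1 := congrArg Subtype.val hp
      have hL : p.1 = p'.1 := by
        refine Subtype.ext ?_
        rw [hrep, hrep]
        conv_lhs => rw [← Submodule.span_singleton_smul_eq (IsUnit.mk0 _ p.2.2.1)]
        rw [e1, Submodule.span_singleton_smul_eq (IsUnit.mk0 _ p'.2.2.1)]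
      refine Prod.ext hL (Subtype.ext ?_)
      rw [hL] at e1
      exact smul_left_injective F (rep p'.1).2.1 e1
    · obtain ⟨g, hg, hgs⟩ : ∃ g ∈ EQ (hypAdd (hypAdd Q₁)), g.1 v = s.1 := by
        rcases eq_or_ne (hypAdd (hypAdd Q₁) v) 0 with h0 | h0
        · exact EQ_transitive_singular hV.qNondeg htwo hv h0 s.2.1 (s.2.2.trans h0)
        · exact EQ_transitive_level hV htwo s.2.2.symm h0
      set L : O := ⟨(⟨g, hg⟩ : G) • (F ∙ v), MulAction.mem_orbit _ _⟩
      have hs : s.1 ∈ F ∙ (rep L).1 := by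
        rw [← hrep L]
        change s.1 ∈ (⟨g, hg⟩ : G) • (F ∙ v)
        rw [hsmul]
        exact Submodule.mem_span_singleton.2 ⟨1, by rw [one_smul]; exact hgs⟩
      obtain ⟨t, ht⟩ := Submodule.mem_span_singleton.1 hs
      have ht0 : t ≠ 0 := fun h0 => s.2.1 (by rw [← ht, h0, zero_smul])
      refine ⟨(L, ⟨t, ht0, ?_⟩), Subtype.ext ht⟩
      have := s.2.2
      rw [← ht, QuadraticMap.map_smul, (rep L).2.2, smul_eq_mul] at this
      exact this
  have hcard := Nat.card_congr (Equiv.ofBijective ψ hψ)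
  rw [Nat.card_prod, show Nat.card O = (MulAction.stabilizer G (F ∙ v)).index by
    rw [MulAction.index_stabilizer, ← Nat.card_coe_set_eq]] at hcard
  set Hs := MulAction.stabilizer G (F ∙ v)
  have hcen : Subgroup.center G ≤ Hs := fun g hg => by
    obtain ⟨c, hc⟩ := center_scalar h.bNondeg h.two g hg
    rw [MulAction.mem_stabilizer_iff, hsmul, hc]
    have hc0 : c ≠ 0 := fun h0 => hv (g.1.1.injective (by rw [hc, h0, zero_smul, map_zero]))
    exact Submodule.span_singleton_smul_eq (IsUnit.mk0 _ hc0) v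
  refine ⟨(Hs.map (QuotientGroup.mk' (Subgroup.center G))).comap φ.toMonoidHom, ?_⟩
  rw [Subgroup.index_comap_of_surjective _ φ.surjective,
    Subgroup.index_map_eq _ (QuotientGroup.mk'_surjective _) (by
      rw [QuotientGroup.ker_mk']; exact hcen)]
  exact hcard

end Index

end Cfsg.Agent.MinIndex
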