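/-
The Eichler subgroup of `hypAdd Q`: the root subgroup at the standard singular vector, the elements
normalizing it, and the resulting invariants of an action.
-/
import Mathlib
import Cfsg.Prelude.Def_Classical
import Cfsg.Agent.Classical.OrthBasic
import Cfsg.Agent.Classical.OrthCount
import Cfsg.Agent.Classical.OrthEichler
import Cfsg.Agent.Classical.OrthSimple
import Cfsg.Agent.Classical.OrthIndex
import Cfsg.Agent.Classical.OrthOrder
import Cfsg.Agent.MinIndex.Duality
import Cfsg.Agent.MinIndex.Count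

set_option autoImplicit false

namespace Cfsg.Agent.MinIndex

open QuadraticMap Cfsg.Agent.Classical

universe u w

variable {F : Type u} [Field F] {W : Type w} [AddCommGroup W] [Module F W]

/-- The group acting: the Eichler subgroup of `hypAdd Q`. -/
abbrev EG (Q : QuadraticForm F W) := ↥(EQ (hypAdd Q))

variable (Q : QuadraticForm F W)

theorem hE_singular : hypAdd Q (hE F W) = 0 := by simp

theorem hE_orth (a : W) : polar (hypAdd Q) (hE F W) (((0, 0), a) : (F × F) × W) = 0 := by simp

/-- The root subgroup at the standard singular vector. -/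
def tau : Multiplicative W →* EG Q where
  toFun a := ⟨siegel (hypAdd Q) (hE_singular Q) (hE_orth Q a.toAdd), siegel_mem_EQ _ _ _⟩
  map_one' := Subtype.ext <| by
    change siegel (hypAdd Q) (hE_singular Q) (hE_orth Q 0) = 1
    ext v <;> simp
  map_mul' a b := Subtype.ext <| by
    change siegel (hypAdd Q) (hE_singular Q) (hE_orth Q (a.toAdd + b.toAdd)) =
      siegel (hypAdd Q) (hE_singular Q) (hE_orth Q a.toAdd) *
      siegel (hypAdd Q) (hE_singular Q) (hE_orth Q b.toAdd)
    rw [siegel_mul]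
    exact siegel_congr _ _ _ _ _ rfl (by simp)

theorem tau_coe (a : W) :
    (tau Q (Multiplicative.ofAdd a) : OQ (hypAdd Q)) =
      siegel (hypAdd Q) (hE_singular Q) (hE_orth Q a) := rfl

/-- Elements of the smaller Eichler group, acting trivially on the plane. -/
def lift : ↥(EQ Q) →* EG Q :=
  ((hypLift Q).comp (EQ Q).subtype).codRestrict _ fun g => EQ_hypLift_mem g.2

theorem lift_apply (g : ↥(EQ Q)) (v : (F × F) × W) :
    (lift Q g).1.1 v = (v.1, g.1.1 v.2) := rfl

variable {Q}

/-- Conjugation of the root subgroup by an element fixing the standard line. -/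
theorem conj_tau {g : EG Q} {c : F} {r : W → W} (hu : g.1.1 (hE F W) = c • hE F W)
    (hw : ∀ a, g.1.1 ((0, 0), a) = ((0, 0), r a)) (a : W) :
    g * tau Q (Multiplicative.ofAdd a) * g⁻¹ = tau Q (Multiplicative.ofAdd (c • r a)) := by
  refine Subtype.ext ?_
  rw [Subgroup.coe_mul, Subgroup.coe_mul, Subgroup.coe_inv, tau_coe, tau_coe, siegel_conj]
  have h1 : hypAdd Q (c • hE F W) = 0 := by simp
  have h2 : polar (hypAdd Q) (c • hE F W) (((0, 0), r a) : (F × F) × W) = 0 := by simp
  have h3 : polar (hypAdd Q) (hE F W) (c • (((0, 0), r a) : (F × F) × W)) = 0 := by simp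
  rw [siegel_congr (hypAdd Q) _ _ h1 h2 hu (hw a),
    siegel_smul_left (hypAdd Q) c (hE_singular Q) (u := hE F W) (a := ((0, 0), r a)) (by simp) h1 h3]
  exact siegel_congr _ _ _ _ _ rfl (by simp)

theorem conj_lift_tau (g : ↥(EQ Q)) (a : W) :
    lift Q g * tau Q (Multiplicative.ofAdd a) * (lift Q g)⁻¹ =
      tau Q (Multiplicative.ofAdd (g.1.1 a)) := by
  have := conj_tau (g := lift Q g) (c := 1) (r := g.1.1) (by simp [lift_apply])
    (fun b => by simp [lift_apply]) a
  simpa using this

theorem reflQ_commute {V : Type*} [AddCommGroup V] [Module F V] {R : QuadraticForm F V} {x y : V}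
    (hx : R x ≠ 0) (hy : R y ≠ 0) (h : polar R x y = 0) :
    Commute (reflQ R x hx) (reflQ R y hy) := by
  have e : (reflQ R x hx : V ≃ₗ[F] V) y = y := by rw [reflQ_apply, h]; simp
  have := reflQ_conj R (reflQ R x hx) y hy (by rw [e]; exact hy)
  rw [mul_inv_eq_iff_eq_mul] at this
  refine this.trans ?_
  congr 1
  ext v
  simp [reflQ_apply, e]

/-- A torus element of the outer plane, compensated by two reflections inside. -/
theorem exists_torus_elt (hQ : BNondeg Q) (h : HasTwoPairs Q) {c : F} (hc : c ≠ 0) {x y : W}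
    (hx : Q x = -1) (hy : Q y = -c) :
    ∃ (g : EG Q) (hx0 : Q x ≠ 0) (hy0 : Q y ≠ 0),
      g.1.1 (hE F W) = c • hE F W ∧ g.1.1 (hF F W) = c⁻¹ • hF F W ∧
      ∀ a, g.1.1 ((0, 0), a) = ((0, 0), (reflQ Q x hx0 * reflQ Q y hy0).1 a) := by
  have hx0 : Q x ≠ 0 := by rw [hx]; exact neg_ne_zero.2 one_ne_zero
  have hy0 : Q y ≠ 0 := by rw [hy]; exact neg_ne_zero.2 hc
  set R := hypAdd Q
  obtain ⟨hX', eX⟩ := hypLift_reflQ (Q := Q) hx0
  obtain ⟨hY', eY⟩ := hypLift_reflQ (Q := Q) hy0
  have h1 : R (hX W (1 : F)) ≠ 0 := by simp [R]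
  have h2 : R (hX W (c : F)) ≠ 0 := by simp [R, hc]
  have hV : BNondeg R := bNondeg_hypAdd hQ
  have htwo : HasTwoPairs R := by
    obtain ⟨e, f, _, _, hp⟩ := h
    exact ⟨_, _, _, _, hp.1.hypAdd⟩
  have hcom : Commute (reflQ R (hX W (c : F)) h2) (reflQ R ((0, 0), x) hX') :=
    reflQ_commute h2 hX' (by simp [R])
  have hmem : torusQ Q (Units.mk0 c hc) * hypLift Q (reflQ Q x hx0 * reflQ Q y hy0) ∈ EQ R := by
    rw [← reflQ_mul_eq_torusQ Q (Units.mk0 c hc) h1 h2, map_mul, eX, eY]
    simp only [Units.val_mk0]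
    rw [show reflQ R (hX W (1 : F)) h1 * reflQ R (hX W c) h2 *
          (reflQ R ((0, 0), x) hX' * reflQ R ((0, 0), y) hY') =
        (reflQ R (hX W (1 : F)) h1 * reflQ R ((0, 0), x) hX') *
          (reflQ R (hX W c) h2 * reflQ R ((0, 0), y) hY') by
      simp only [mul_assoc]
      congr 1
      rw [← mul_assoc, hcom.eq, mul_assoc]]
    exact mul_mem (reflQ_mul_mem_EQ hV htwo h1 hX' (by simp [R, hx]))
      (reflQ_mul_mem_EQ hV htwo h2 hY' (by simp [R, hy]))
  refine ⟨⟨_, hmem⟩, hx0, hy0, ?_, ?_, fun a => ?_⟩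
  · ext <;> simp [reflQ_apply]
  · ext <;> simp [reflQ_apply]
  · ext <;> simp [reflQ_apply]

section Action

variable {X : Type*} [MulAction (EG Q) X]

variable (Q) in
/-- The elements whose root element fixes the point. -/
abbrev Kof (x : X) : AddSubgroup W := stabAdd (tau Q) x

variable [Finite F]

variable (Q) in
/-- The subgroup paired to zero with `Kof`. -/
noncomputable abbrev Aof (x : X) : AddSubgroup W := orthG (polarBilin Q) (Kof Q x)

theorem polarBilin_sep (hQ : BNondeg Q) :
    ∀ x, (∀ y, polarBilin Q x y = 0) → x = 0 := fun x h => hQ x fun y => by simpa using h y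

theorem polarBilin_symm (Q : QuadraticForm F W) :
    ∀ x y, polarBilin Q x y = polarBilin Q y x := fun x y => by
  simp [polar_comm Q x y]

variable [Finite W]

theorem card_Kof_mul_card_Aof (hQ : BNondeg Q) (x : X) :
    Nat.card (Kof Q x) * Nat.card (Aof Q x) = Nat.card W :=
  card_mul_orthG _ (polarBilin_sep hQ) (polarBilin_symm Q) _

theorem card_orbit_eq (hQ : BNondeg Q) (x : X) :
    Nat.card (Set.range fun a : W => tau Q (Multiplicative.ofAdd a) • x) =
      Nat.card (Aof Q x) := by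
  have h1 := card_range_mul_card_stabAdd (tau Q) x
  rw [← card_Kof_mul_card_Aof hQ x, mul_comm] at h1
  exact Nat.eq_of_mul_eq_mul_left Nat.card_pos h1

/-- How the dual subgroup moves. -/
theorem mem_Aof_smul {g : EG Q} {c : F} (hc : c ≠ 0) {r : OQ Q}
    (hu : g.1.1 (hE F W) = c • hE F W)
    (hw : ∀ a, g.1.1 ((0, 0), a) = ((0, 0), r.1 a)) {x : X} {y : W} (hy : y ∈ Aof Q x) :
    c⁻¹ • r.1 y ∈ Aof Q (g • x) := by
  intro b hb
  have hb' : b = c • r.1 (r.1.symm (c⁻¹ • b)) := by simp [smul_smul, hc]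
  rw [hb'] at hb ⊢
  have ha := (mem_stabAdd_smul_iff (tau Q) (g := g) (f := fun a => c • r.1 a)
    (conj_tau hu hw) x _).1 hb
  have := hy _ ha
  simp only [polarBilin_apply_apply, polar_smul_left, polar_smul_right, OQ_polar, smul_eq_mul]
  rw [← mul_assoc, inv_mul_cancel₀ hc, one_mul] at *
  exact this

theorem mem_Aof_smul_lift (g : ↥(EQ Q)) {x : X} {y : W} (hy : y ∈ Aof Q x) :
    g.1.1 y ∈ Aof Q (lift Q g • x) := by
  have := mem_Aof_smul (g := lift Q g) (c := 1) one_ne_zero (r := g.1) (by simp [lift_apply])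
    (fun b => by simp [lift_apply]) hy
  simpa using this

theorem Aof_tau_smul (a : W) (x : X) :
    Aof Q (tau Q (Multiplicative.ofAdd a) • x) = Aof Q x := by
  rw [Aof, Kof, stabAdd_smul]

end Action

end Cfsg.Agent.MinIndex
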