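/-
Tools on quadratic spaces: transitivity in dimension three and more, a product of three Eichler
transformations as two reflections, and the triviality of small actions of the group it generates.
-/
import Mathlib
import Cfsg.Prelude.Def_Classical
import Cfsg.Agent.Classical.OrthBasic
import Cfsg.Agent.Classical.OrthEichler
import Cfsg.Agent.OrthGen.Basic

set_option autoImplicit false

namespace Cfsg.Agent.MinIndex

open QuadraticMap Cfsg.Agent.Classical Module

universe u v

variable {F : Type u} [Field F] {V : Type v} [AddCommGroup V] [Module F V] {R : QuadraticForm F V}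

/-- In dimension at least three, two non-orthogonal singular vectors have a non-singular common
orthogonal vector. -/
theorem exists_common_perp_three [FiniteDimensional F V] (hR : QNondeg R)
    (h3 : 3 ≤ finrank F V) {u z : V} (hu : R u = 0) (hz : R z = 0) (huz : polar R u z ≠ 0) :
    ∃ x, polar R u x = 0 ∧ polar R z x = 0 ∧ R x ≠ 0 := by
  by_contra hcon
  push Not at hcon
  have huu : polar R u u = 0 := by rw [polar_self, hu, smul_zero]
  have hzz : polar R z z = 0 := by rw [polar_self, hz, smul_zero]
  let π : V → V := fun y => y - (polar R z y / polar R u z) • u - (polar R u y / polar R u z) • z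
  have hπ1 : ∀ y, polar R u (π y) = 0 := fun y => by
    simp only [π, polar_sub_right, polar_smul_right, huu, smul_eq_mul]; field_simp; ring
  have hπ2 : ∀ y, polar R z (π y) = 0 := fun y => by
    simp only [π, polar_sub_right, polar_smul_right, hzz, polar_comm R z u, smul_eq_mul]
    field_simp; ring
  have hQ0 : ∀ x, polar R u x = 0 → polar R z x = 0 → R x = 0 := hcon
  have hπ0 : ∀ y, π y = 0 := by
    intro y
    refine hR _ (fun w => ?_) (hQ0 _ (hπ1 y) (hπ2 y))
    have hw : w = π w + ((polar R z w / polar R u z) • u + (polar R u w / polar R u z) • z) := by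
      simp only [π]; module
    rw [hw, polar_add_right, polar_add_right, polar_smul_right, polar_smul_right,
      polar_comm R (π y) u, polar_comm R (π y) z, hπ1, hπ2]
    have := hQ0 (π y + π w) (by rw [polar_add_right, hπ1, hπ1, add_zero])
      (by rw [polar_add_right, hπ2, hπ2, add_zero])
    rw [qf_add, hQ0 _ (hπ1 y) (hπ2 y), hQ0 _ (hπ1 w) (hπ2 w)] at this
    simpa using this
  have htop : (⊤ : Submodule F V) ≤ Submodule.span F {u, z} := fun y _ => by
    have := hπ0 y
    simp only [π, sub_sub, sub_eq_zero] at this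
    rw [this]
    exact add_mem (Submodule.smul_mem _ _ (Submodule.subset_span (by simp)))
      (Submodule.smul_mem _ _ (Submodule.subset_span (by simp)))
  classical
  have h2 : finrank F ↥(Submodule.span F ({u, z} : Set V)) ≤ 2 := by
    have := finrank_span_finset_le_card (R := F) ({u, z} : Finset V)
    simp only [Finset.coe_insert, Finset.coe_singleton] at this
    exact le_trans this ((Finset.card_insert_le _ _).trans (by simp))
  rw [top_le_iff.1 htop, finrank_top] at h2
  omega

/-- A singular vector orthogonal to neither of two given ones, in dimension at least three. -/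
theorem exists_singular_not_orth_three [FiniteDimensional F V] (hR : QNondeg R)
    (h3 : 3 ≤ finrank F V) {u z : V}
    (hu : u ≠ 0) (hu0 : R u = 0) (hz : z ≠ 0) (hz0 : R z = 0) :
    ∃ y, R y = 0 ∧ polar R u y ≠ 0 ∧ polar R z y ≠ 0 := by
  by_cases huz : polar R u z = 0
  · exact exists_singular_not_orth hR hu hu0 hz hz0 huz
  obtain ⟨x, hx1, hx2, hx⟩ := exists_common_perp_three hR h3 hu0 hz0 huz
  have huu : polar R u u = 0 := by rw [polar_self, hu0, smul_zero]
  have hzz : polar R z z = 0 := by rw [polar_self, hz0, smul_zero]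
  refine ⟨u + (-R x / polar R u z) • z + x, ?_, ?_, ?_⟩
  · simp only [qf_add, QuadraticMap.map_smul, polar_add_left, polar_smul_left, polar_smul_right,
      hu0, hz0, hx1, hx2, smul_eq_mul]
    field_simp; ring
  · simp only [polar_add_right, polar_smul_right, huu, hx1, smul_eq_mul]
    field_simp; simpa using hx
  · simp only [polar_add_right, polar_smul_right, hzz, hx2, polar_comm R z u, smul_eq_mul]
    simpa using huz

/-- Transitivity on singular lines, in dimension at least three. -/
theorem EQ_transitive_lines_three [FiniteDimensional F V] (hR : QNondeg R)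
    (h3 : 3 ≤ finrank F V) {u z : V}
    (hu : u ≠ 0) (hu0 : R u = 0) (hz : z ≠ 0) (hz0 : R z = 0) :
    ∃ g ∈ EQ R, ∃ c : F, c ≠ 0 ∧ g.1 u = c • z := by
  obtain ⟨y, hy, h1, h2⟩ := exists_singular_not_orth_three hR h3 hu hu0 hz hz0
  obtain ⟨ha, -, hg⟩ := siegel_move hy (y := (polar R u y)⁻¹ • u) (z := (polar R z y)⁻¹ • z)
    (by simp [QuadraticMap.map_smul, hu0, hz0])
    (by rw [polar_smul_right, polar_comm R y u, smul_eq_mul, inv_mul_cancel₀ h1])
    (by rw [polar_smul_right, polar_comm R y z, smul_eq_mul, inv_mul_cancel₀ h2])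
  refine ⟨_, siegel_mem_EQ R hy ha, polar R u y * (polar R z y)⁻¹,
    mul_ne_zero h1 (inv_ne_zero h2), ?_⟩
  set g := siegel R hy ha
  rw [map_smul] at hg
  calc g.1 u = polar R u y • ((polar R u y)⁻¹ • g.1 u) := by
        rw [smul_smul, mul_inv_cancel₀ h1, one_smul]
    _ = _ := by rw [hg, smul_smul]

/-- Three Eichler transformations of a pair make a product of two reflections. -/
theorem siegel_triple {a b x : V} (ha : R a = 0) (hb : R b = 0) (hab : polar R a b = 1)
    (hxa : polar R a x = 0) (hxb : polar R b x = 0) (hx : R x ≠ 0) :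
    ∃ (h1 : polar R b ((R x)⁻¹ • x) = 0) (hd : R (R x • a + b) ≠ 0),
      siegel R ha hxa * siegel R hb h1 * siegel R ha hxa =
        reflQ R x hx * reflQ R (R x • a + b) hd := by
  have haa : polar R a a = 0 := by rw [polar_self, ha, smul_zero]
  have hbb : polar R b b = 0 := by rw [polar_self, hb, smul_zero]
  have hba : polar R b a = 1 := by rw [polar_comm, hab]
  have hax : polar R x a = 0 := by rw [polar_comm, hxa]
  have hbx : polar R x b = 0 := by rw [polar_comm, hxb]
  have hxx : polar R x x = 2 * R x := by rw [polar_self, two_smul]; ring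
  have hd0 : R (R x • a + b) = R x := by
    rw [qf_add, QuadraticMap.map_smul, ha, hb, polar_smul_left, hab]; simp
  refine ⟨by rw [polar_smul_right, hxb, smul_zero], by rw [hd0]; exact hx, ?_⟩
  ext v
  simp only [Subgroup.coe_mul, LinearEquiv.mul_apply, siegel_apply, reflQ_apply, map_add, map_sub,
    map_smul, polar_add_right, polar_sub_right, polar_smul_right, polar_add_left, polar_smul_left,
    QuadraticMap.map_smul, hd0, haa, hbb, hab, hba, hax, hbx, hxa, hxb, hxx, smul_eq_mul]
  match_scalars <;> field_simp <;> ring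

theorem perm_four_key1 : ∀ a b : Equiv.Perm (Fin 4),
    Equiv.Perm.sign (a * b * a⁻¹ * b⁻¹) = 1 := fun a b => by
  simp only [map_mul, map_inv]
  rw [mul_right_comm _ _ (Equiv.Perm.sign a)⁻¹, mul_inv_cancel, one_mul, mul_inv_cancel]

theorem perm_four_key2 : ∀ a b : Equiv.Perm (Fin 4), Equiv.Perm.sign a = 1 →
    Equiv.Perm.sign b = 1 → (a * b * a⁻¹ * b⁻¹) * (a * b * a⁻¹ * b⁻¹) = 1 := by
  decide +kernel

theorem perm_four_key3 : ∀ a b : Equiv.Perm (Fin 4), Equiv.Perm.sign a = 1 →
    Equiv.Perm.sign b = 1 → a * a = 1 → b * b = 1 → a * b = b * a := by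
  decide +kernel

open scoped commutatorElement in
/-- A subgroup of the symmetric group on at most four points generated by commutators of its own
elements is trivial. -/
theorem eq_bot_of_le_commutator {α : Type*} [Finite α] (hα : Nat.card α ≤ 4)
    (P : Subgroup (Equiv.Perm α)) (h : P ≤ ⁅P, P⁆) : P = ⊥ := by
  obtain ⟨n, ⟨e⟩⟩ := Finite.exists_equiv_fin α
  have hn : n ≤ 4 := by rwa [Nat.card_congr e, Nat.card_fin] at hα
  let φ : Equiv.Perm α →* Equiv.Perm (Fin 4) :=
    Equiv.Perm.viaEmbeddingHom (e.toEmbedding.trans (Fin.castLEEmb hn))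
  have hφ : Function.Injective φ := Equiv.Perm.viaEmbeddingHom_injective _
  set P' := P.map φ with hP'
  have h' : P' ≤ ⁅P', P'⁆ := by rw [hP', ← Subgroup.map_commutator]; exact Subgroup.map_mono h
  let A4 : Subgroup (Equiv.Perm (Fin 4)) := (Equiv.Perm.sign).ker
  have e1 : P' ≤ A4 := h'.trans (Subgroup.commutator_le.2 fun a _ b _ => perm_four_key1 a b)
  have e2 : ∀ a ∈ P', Equiv.Perm.sign a = 1 ∧ a * a = 1 := by
    intro a ha
    have := h' ha
    rw [Subgroup.commutator_def] at this
    induction this using Subgroup.closure_induction with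
    | mem y hy =>
      obtain ⟨p, hp, q, hq, rfl⟩ := hy
      exact ⟨perm_four_key1 p q, perm_four_key2 p q (e1 hp) (e1 hq)⟩
    | one => simp
    | mul y z hy' hz' hy hz =>
      have hy2 := hy (Subgroup.commutator_le_self _ hy')
      have hz2 := hz (Subgroup.commutator_le_self _ hz')
      refine ⟨by rw [map_mul, hy2.1, hz2.1, mul_one], ?_⟩
      calc y * z * (y * z) = y * (z * y) * z := by group
        _ = y * (y * z) * z := by rw [perm_four_key3 z y hz2.1 hy2.1 hz2.2 hy2.2]
        _ = (y * y) * (z * z) := by group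
        _ = 1 := by rw [hy2.2, hz2.2, one_mul]
    | inv y hy' hy =>
      have hy2 := hy (Subgroup.commutator_le_self _ hy')
      exact ⟨by rw [map_inv, hy2.1, inv_one], by rw [← mul_inv_rev, hy2.2, inv_one]⟩
  have e3 : P' = ⊥ := le_bot_iff.1 (h'.trans (Subgroup.commutator_le.2 fun a ha b hb => by
    rw [Subgroup.mem_bot, commutatorElement_eq_one_iff_mul_comm]
    exact perm_four_key3 a b (e2 a ha).1 (e2 b hb).1 (e2 a ha).2 (e2 b hb).2))
  exact (Subgroup.map_eq_bot_iff_of_injective P hφ).1 e3

/-- The Eichler transformations of a pair along a good plane act trivially on at most four points. -/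
theorem perfect_plane [FiniteDimensional F V] {M : Type*} [Group M] (ι : M →* OQ R)
    (hι : Function.Injective ι) {α : Type*} [Finite α] (hα : Nat.card α ≤ 4)
    (ρ : M →* Equiv.Perm α) {a b c z : V} (ha : R a = 0) (hb : R b = 0) (hab : polar R a b = 1)
    (hac : polar R a c = 0) (hbc : polar R b c = 0) (haz : polar R a z = 0)
    (hbz : polar R b z = 0) (hc : R c ≠ 0) (hz : R z ≠ 0) (hB : polar R c z ≠ 0)
    (hdisc : polar R c z * polar R c z - 4 * R c * R z ≠ 0)
    (hA : ∀ x ∈ Submodule.span F {c, z}, ∀ hax : polar R a x = 0, ∃ m, ι m = siegel R ha hax)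
    (hB' : ∀ x ∈ Submodule.span F {c, z}, ∀ hbx : polar R b x = 0, ∃ m, ι m = siegel R hb hbx) :
    ∀ x ∈ Submodule.span F {c, z}, ∀ (hax : polar R a x = 0) (m : M),
      ι m = siegel R ha hax → ρ m = 1 := by
  set Pl := Submodule.span F ({c, z} : Set V)
  have hcP : c ∈ Pl := Submodule.subset_span (by simp)
  have hzP : z ∈ Pl := Submodule.subset_span (by simp)
  have perpA : ∀ x ∈ Pl, polar R a x = 0 := fun x hx => by
    obtain ⟨s, t, rfl⟩ := Submodule.mem_span_pair.1 hx
    rw [polar_add_right, polar_smul_right, polar_smul_right, hac, haz]; simp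
  have perpB : ∀ x ∈ Pl, polar R b x = 0 := fun x hx => by
    obtain ⟨s, t, rfl⟩ := Submodule.mem_span_pair.1 hx
    rw [polar_add_right, polar_smul_right, polar_smul_right, hbc, hbz]; simp
  choose mA hmA using fun x : Pl => hA x.1 x.2 (perpA x.1 x.2)
  choose mB hmB using fun x : Pl => hB' x.1 x.2 (perpB x.1 x.2)
  set y : V := c - ((R z)⁻¹ * polar R z c) • z with hy
  have hy1 : (reflQ R z hz).1 c = y := reflQ_apply R z hz c
  have hyP : y ∈ Pl := Pl.sub_mem hcP (Pl.smul_mem _ hzP)
  have hRy : R y = R c := by rw [← hy1]; exact OQ_map_app _ _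
  have hy0 : R y ≠ 0 := by rw [hRy]; exact hc
  let cP : Pl := ⟨c, hcP⟩
  let cP' : Pl := ⟨(R c)⁻¹ • c, Pl.smul_mem _ hcP⟩
  let yP : Pl := ⟨y, hyP⟩
  let yP' : Pl := ⟨(R y)⁻¹ • y, Pl.smul_mem _ hyP⟩
  let h := mA cP * mB cP' * mA cP * (mA yP * mB yP' * mA yP)
  have hι' : ι h = reflQ R c hc * reflQ R y hy0 := by
    obtain ⟨q1, d1, e1⟩ := siegel_triple ha hb hab (perpA c hcP) (perpB c hcP) hc
    obtain ⟨q2, d2, e2⟩ := siegel_triple ha hb hab (perpA y hyP) (perpB y hyP) hy0
    simp only [h, map_mul, hmA, hmB]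
    rw [e1, e2]
    have ed : reflQ R (R y • a + b) d2 = reflQ R (R c • a + b) d1 :=
      OrthGen.reflQ_congr R (by rw [hRy]) d2 d1
    rw [ed]
    have hcy : Commute (reflQ R (R c • a + b) d1) (reflQ R y hy0) := by
      have e : (reflQ R (R c • a + b) d1 : V ≃ₗ[F] V) y = y := by
        rw [reflQ_apply, polar_add_left, polar_smul_left, perpA y hyP, perpB y hyP]; simp
      have := reflQ_conj R (reflQ R (R c • a + b) d1) y hy0 (by rw [e]; exact hy0)
      rw [mul_inv_eq_iff_eq_mul] at this
      rwa [OrthGen.reflQ_congr R e _ hy0] at this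
    rw [mul_assoc, ← mul_assoc (reflQ R (R c • a + b) d1) (reflQ R y hy0), hcy.eq,
      mul_assoc (reflQ R y hy0), reflQ_mul_self, mul_one]
  have hfixv : ∀ v : V, polar R c v = 0 → polar R z v = 0 → (ι h).1 v = v := fun v h1 h2 => by
    have h3 : polar R y v = 0 := by rw [hy, polar_sub_left, polar_smul_left, h1, h2]; simp
    rw [hι', Subgroup.coe_mul, LinearEquiv.mul_apply, OrthGen.reflQ_fix R hy0 h3,
      OrthGen.reflQ_fix R hc h1]
  have hha : (ι h).1 a = a := hfixv a (by rw [polar_comm, hac]) (by rw [polar_comm, haz])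
  have hhb : (ι h).1 b = b := hfixv b (by rw [polar_comm, hbc]) (by rw [polar_comm, hbz])
  have hhP : ∀ v ∈ Pl, (ι h).1 v - v ∈ Pl := fun v hv => by
    rw [hι', Subgroup.coe_mul, LinearEquiv.mul_apply, reflQ_apply R c hc, reflQ_apply R y hy0]
    exact Pl.sub_mem (Pl.sub_mem (Pl.sub_mem hv (Pl.smul_mem _ hyP)) (Pl.smul_mem _ hcP)) hv
  let φ : Pl →ₗ[F] Pl :=
    { toFun := fun v => ⟨(ι h).1 v - v, hhP v v.2⟩
      map_add' := fun v w => Subtype.ext (by
        simp only [Submodule.coe_add, map_add]; abel)
      map_smul' := fun s v => Subtype.ext (by simp [smul_sub]) }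
  have hφ : Function.Injective φ := by
    rw [← LinearMap.ker_eq_bot, LinearMap.ker_eq_bot']
    rintro ⟨v, hv⟩ hv0
    have he : (ι h).1 v = v := sub_eq_zero.1 (congrArg Subtype.val hv0)
    rw [hι', Subgroup.coe_mul, LinearEquiv.mul_apply] at he
    have he2 : (reflQ R y hy0).1 v = (reflQ R c hc).1 v := by
      have := congrArg (reflQ R c hc).1 he
      rw [← LinearEquiv.mul_apply, ← Subgroup.coe_mul, reflQ_mul_self] at this
      simpa using this
    rw [reflQ_apply, reflQ_apply, sub_right_inj, hRy] at he2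
    set s := polar R z c with hs
    have hzc : s ≠ 0 := by rw [hs, polar_comm]; exact hB
    have e1 : ((R c)⁻¹ * polar R y v - (R c)⁻¹ * polar R c v) • c =
        ((R c)⁻¹ * polar R y v * ((R z)⁻¹ * s)) • z := by
      rw [hy] at he2 ⊢
      rw [smul_sub, smul_smul] at he2
      rw [sub_smul, eq_comm, eq_sub_iff_add_eq]
      rw [sub_eq_iff_eq_add] at he2
      exact (he2.trans (add_comm _ _)).symm
    have hind : ∀ s' t' : F, s' • c = t' • z → s' = 0 := by
      intro s' t' he'
      by_contra hs'
      have hcz : c = (s'⁻¹ * t') • z := by rw [mul_smul, ← he', smul_smul, inv_mul_cancel₀ hs', one_smul]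
      apply hdisc
      rw [hcz, QuadraticMap.map_smul, polar_smul_left, polar_self, two_smul, smul_eq_mul,
        smul_eq_mul]
      ring
    have k1 := hind _ _ e1
    rw [k1, zero_smul, eq_comm, smul_eq_zero] at e1
    have k2 : polar R y v = 0 := by
      rcases e1 with e1 | e1
      · simpa [hc, hz, hzc] using e1
      · exact absurd e1 (fun h0 => hz (by rw [h0, map_zero]))
    have k3 : polar R c v = 0 := by simpa [k2, hc] using k1
    have k4 : polar R z v = 0 := by
      rw [hy, polar_sub_left, polar_smul_left, k3] at k2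
      simpa [hz, hzc] using k2
    obtain ⟨s1, t1, rfl⟩ := Submodule.mem_span_pair.1 hv
    simp only [polar_add_right, polar_smul_right, polar_self, two_smul, smul_eq_mul] at k3 k4
    rw [polar_comm R z c] at k4
    have hs1 : s1 * (polar R c z * polar R c z - 4 * R c * R z) = 0 := by
      linear_combination polar R c z * k4 - 2 * R z * k3
    have ht1 : t1 * (polar R c z * polar R c z - 4 * R c * R z) = 0 := by
      linear_combination polar R c z * k3 - 2 * R c * k4
    refine Subtype.ext ?_
    simp [(mul_eq_zero.1 hs1).resolve_right hdisc, (mul_eq_zero.1 ht1).resolve_right hdisc]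
  have hsurj : Function.Surjective φ := LinearMap.injective_iff_surjective.1 hφ
  let S : Set M := Set.range mA ∪ Set.range mB
  let P := Subgroup.closure (ρ '' S)
  have hAP : ∀ x, ρ (mA x) ∈ P := fun x =>
    Subgroup.subset_closure (Set.mem_image_of_mem _ (Or.inl (Set.mem_range_self x)))
  have hBP : ∀ x, ρ (mB x) ∈ P := fun x =>
    Subgroup.subset_closure (Set.mem_image_of_mem _ (Or.inr (Set.mem_range_self x)))
  have hhM : ρ h ∈ P := by
    simp only [h, map_mul]
    exact mul_mem (mul_mem (mul_mem (hAP _) (hBP _)) (hAP _))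
      (mul_mem (mul_mem (hAP _) (hBP _)) (hAP _))
  have key : ∀ {e : V} (he : R e = 0) (_ : (ι h).1 e = e) (me : Pl → M)
      (hpe : ∀ x ∈ Pl, polar R e x = 0)
      (_ : ∀ x : Pl, ι (me x) = siegel R he (hpe x.1 x.2)) (v : Pl),
      me (φ v) = h * me v * h⁻¹ * (me v)⁻¹ := by
    intro e he hhe me hpe hme v
    apply hι
    simp only [map_mul, map_inv, hme]
    rw [siegel_conj, siegel_inv, siegel_congr R _ _ he
      (show polar R e ((ι h).1 v.1) = 0 by rw [← hhe, OQ_polar]; exact hpe v.1 v.2) hhe rfl,
      siegel_mul]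
    exact siegel_congr R _ _ _ _ rfl (sub_eq_add_neg _ _)
  have hP : P ≤ ⁅P, P⁆ := by
    rw [Subgroup.closure_le]
    rintro _ ⟨_, ⟨x, rfl⟩ | ⟨x, rfl⟩, rfl⟩
    · obtain ⟨v, rfl⟩ := hsurj x
      rw [key ha hha mA perpA hmA v, map_mul, map_mul, map_mul, map_inv, map_inv]
      exact Subgroup.commutator_mem_commutator hhM (hAP v)
    · obtain ⟨v, rfl⟩ := hsurj x
      rw [key hb hhb mB perpB hmB v, map_mul, map_mul, map_mul, map_inv, map_inv]
      exact Subgroup.commutator_mem_commutator hhM (hBP v)
  have hbot := eq_bot_of_le_commutator hα P hP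
  intro x hx hax m hm
  have hm' : m = mA ⟨x, hx⟩ := hι (by rw [hm, hmA])
  have := hAP ⟨x, hx⟩
  rw [hbot, Subgroup.mem_bot] at this
  rw [hm', this]

end Cfsg.Agent.MinIndex
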