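/-
The elements normalizing the standard root subgroup: their action on the invariants of a point and
the counting consequences.
-/
import Mathlib
import Cfsg.Prelude.Def_Classical
import Cfsg.Agent.Classical.OrthBasic
import Cfsg.Agent.Classical.OrthEichler
import Cfsg.Agent.Classical.OrthSimple
import Cfsg.Agent.MinIndex.Duality
import Cfsg.Agent.MinIndex.Count
import Cfsg.Agent.MinIndex.OrthStd
import Cfsg.Agent.MinIndex.OrthTools

set_option autoImplicit false

namespace Cfsg.Agent.MinIndex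

open QuadraticMap Cfsg.Agent.Classical Module

universe u w

variable {F : Type u} [Field F] {W : Type w} [AddCommGroup W] [Module F W] {Q : QuadraticForm F W}

/-- An element mapping the standard vector to `c` times itself and inducing `r` on the
orthogonal complement of the standard pair. -/
def IsMove (g : EG Q) (c : F) (r : OQ Q) : Prop :=
  c ≠ 0 ∧ g.1.1 (hE F W) = c • hE F W ∧ ∀ a, g.1.1 ((0, 0), a) = ((0, 0), r.1 a)

theorem isMove_one : IsMove (1 : EG Q) 1 1 :=
  ⟨one_ne_zero, by simp, fun a => by simp⟩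

theorem isMove_lift (g : ↥(EQ Q)) : IsMove (lift Q g) 1 g.1 :=
  ⟨one_ne_zero, by simp [lift_apply], fun a => by simp [lift_apply]⟩

theorem IsMove.mul {g h : EG Q} {c d : F} {r s : OQ Q} (hg : IsMove g c r) (hh : IsMove h d s) :
    IsMove (g * h) (d * c) (r * s) := by
  refine ⟨mul_ne_zero hh.1 hg.1, ?_, fun a => ?_⟩
  · rw [Subgroup.coe_mul, Subgroup.coe_mul, LinearEquiv.mul_apply, hh.2.1, map_smul, hg.2.1,
      smul_smul]
  · rw [Subgroup.coe_mul, Subgroup.coe_mul, LinearEquiv.mul_apply, hh.2.2, hg.2.2]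
    rfl

/-- The map induced on the root subgroup. -/
def moveMap (c : F) (r : OQ Q) : W →+ W :=
  (c • (r.1 : W →ₗ[F] W)).toAddMonoidHom

@[simp] theorem moveMap_apply (c : F) (r : OQ Q) (a : W) : moveMap c r a = c • r.1 a := rfl

theorem moveMap_injective {c : F} (hc : c ≠ 0) (r : OQ Q) : Function.Injective (moveMap c r) :=
  fun _ _ h => r.1.injective (smul_right_injective _ hc h)

/-- The action of a move on the root subgroup's subgroups. -/
def moveK (c : F) (r : OQ Q) (K : AddSubgroup W) : AddSubgroup W := K.map (moveMap c r)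

theorem mem_moveK {c : F} {r : OQ Q} {K : AddSubgroup W} {b : W} :
    b ∈ moveK c r K ↔ ∃ a ∈ K, c • r.1 a = b := Iff.rfl

theorem card_moveK {c : F} (hc : c ≠ 0) (r : OQ Q) (K : AddSubgroup W) :
    Nat.card (moveK c r K) = Nat.card K :=
  (Nat.card_congr (K.equivMapOfInjective _ (moveMap_injective hc r)).toEquiv).symm

theorem moveK_moveK (c d : F) (r s : OQ Q) (K : AddSubgroup W) :
    moveK c r (moveK d s K) = moveK (d * c) (r * s) K := by
  rw [moveK, moveK, moveK, AddSubgroup.map_map]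
  congr 1
  ext a
  simp [smul_smul, mul_comm]

theorem moveK_one_one (K : AddSubgroup W) : moveK (1 : F) (1 : OQ Q) K = K := by
  ext a; simp [mem_moveK]

theorem moveK_injective {c : F} (hc : c ≠ 0) (r : OQ Q) : Function.Injective (moveK c r) :=
  AddSubgroup.map_injective (moveMap_injective hc r)

section

variable {X : Type*} [MulAction (EG Q) X]

theorem Kof_move {g : EG Q} {c : F} {r : OQ Q} (hg : IsMove g c r) (x : X) :
    Kof Q (g • x) = moveK c r (Kof Q x) := by
  ext b
  have hb : b = c • r.1 (r.1.symm (c⁻¹ • b)) := by simp [smul_smul, hg.1]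
  have := mem_stabAdd_smul_iff (tau Q) (g := g) (f := fun a => c • r.1 a)
    (conj_tau hg.2.1 hg.2.2) x (r.1.symm (c⁻¹ • b))
  constructor
  · intro h
    rw [hb] at h
    exact ⟨_, this.1 h, hb.symm⟩
  · rintro ⟨a, ha, rfl⟩
    exact (mem_stabAdd_smul_iff (tau Q) (g := g) (f := fun a => c • r.1 a)
      (conj_tau hg.2.1 hg.2.2) x a).2 ha

variable (Q) in
/-- The subgroups obtained from the one at `x` by moves. -/
def moveSet (x : X) : Set (AddSubgroup W) :=
  {K | ∃ (g : EG Q) (c : F) (r : OQ Q), IsMove g c r ∧ K = moveK c r (Kof Q x)}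

theorem Kof_mem_moveSet (x : X) : Kof Q x ∈ moveSet Q x :=
  ⟨1, 1, 1, isMove_one, (moveK_one_one _).symm⟩

theorem moveK_mem_moveSet {g : EG Q} {c : F} {r : OQ Q} (hg : IsMove g c r) {x : X}
    {K : AddSubgroup W} (hK : K ∈ moveSet Q x) : moveK c r K ∈ moveSet Q x := by
  obtain ⟨h, d, s, hh, rfl⟩ := hK
  exact ⟨g * h, d * c, r * s, hg.mul hh, moveK_moveK c d r s _⟩

theorem card_of_mem_moveSet {x : X} {K : AddSubgroup W} (hK : K ∈ moveSet Q x) :
    Nat.card K = Nat.card (Kof Q x) := by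
  obtain ⟨h, d, s, hh, rfl⟩ := hK
  exact card_moveK hh.1 s _

variable [Finite F] [Finite W]

/-- The duals of the translates fit disjointly into `X`. -/
theorem card_moveSet_mul_le [Finite X] (hQ : BNondeg Q) (x : X) :
    Nat.card (moveSet Q x) * Nat.card (Aof Q x) ≤ Nat.card X := by
  refine card_mul_le_card (tau Q) _ fun K hK => ⟨?_, ?_⟩
  · obtain ⟨g, c, r, hg, rfl⟩ := hK
    exact ⟨g • x, Kof_move hg x⟩
  · rw [card_of_mem_moveSet hK, mul_comm, card_Kof_mul_card_Aof hQ]

/-- How a move carries the dual. -/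
theorem mem_orth_moveK {c : F} (hc : c ≠ 0) {r : OQ Q} {K : AddSubgroup W} {y : W}
    (hy : y ∈ orthG (polarBilin Q) K) : c⁻¹ • r.1 y ∈ orthG (polarBilin Q) (moveK c r K) := by
  rintro _ ⟨a, ha, rfl⟩
  have := hy a ha
  simp only [moveMap_apply, polarBilin_apply_apply, polar_smul_left, polar_smul_right,
    OQ_polar, smul_eq_mul] at this ⊢
  rw [← mul_assoc, inv_mul_cancel₀ hc, one_mul] at *
  exact this

theorem card_orth_of_mem_moveSet (hQ : BNondeg Q) {x : X} {K : AddSubgroup W}
    (hK : K ∈ moveSet Q x) : Nat.card (orthG (polarBilin Q) K) = Nat.card (Aof Q x) := by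
  refine Nat.eq_of_mul_eq_mul_left (Nat.card_pos : 0 < Nat.card (Kof Q x)) ?_
  rw [card_Kof_mul_card_Aof hQ, ← card_of_mem_moveSet hK]
  exact card_mul_orthG _ (polarBilin_sep hQ) (polarBilin_symm Q) K

/-- Counting a set covered by the duals of the translates. -/
theorem card_le_of_cover {β : Type*} [Finite β] (S : Set β) (x : X)
    (T : AddSubgroup W → Set β) {b : ℕ}
    (hcov : ∀ s ∈ S, ∃ K ∈ moveSet Q x, s ∈ T K)
    (hb : ∀ K ∈ moveSet Q x, Nat.card (T K) ≤ b) :
    Nat.card S ≤ Nat.card (moveSet Q x) * b := by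
  classical
  choose f hf hmem using hcov
  let φ : S → Σ K : moveSet Q x, T K.1 := fun s => ⟨⟨f s.1 s.2, hf s.1 s.2⟩, ⟨s.1, hmem s.1 s.2⟩⟩
  have hφ : Function.Injective φ := fun s t h =>
    Subtype.ext (congrArg (fun z : Σ K : moveSet Q x, T K.1 => (z.2 : β)) h)
  have : Fintype (moveSet Q x) := Fintype.ofFinite _
  calc Nat.card S ≤ Nat.card (Σ K : moveSet Q x, T K.1) := Nat.card_le_card_of_injective φ hφ
    _ = ∑ K : moveSet Q x, Nat.card (T K.1) := Nat.card_sigma
    _ ≤ ∑ _K : moveSet Q x, b := Finset.sum_le_sum fun K _ => hb K.1 K.2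
    _ = Nat.card (moveSet Q x) * b := by simp [Nat.card_eq_fintype_card]

/-- The translates whose dual contains a given vector, against an orbit of that vector. -/
theorem card_through_mul_le (hQ : BNondeg Q) (x : X) (w : W) (S : Set W) (h0 : (0 : W) ∉ S)
    (hS : ∀ s ∈ S, ∃ (g : EG Q) (c : F) (r : OQ Q), IsMove g c r ∧ c⁻¹ • r.1 w = s) :
    Nat.card {K : moveSet Q x // w ∈ orthG (polarBilin Q) K.1} * Nat.card S ≤
      Nat.card (moveSet Q x) * (Nat.card (Aof Q x) - 1) := by
  classical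
  choose g c r hg hgs using hS
  let φ : {K : moveSet Q x // w ∈ orthG (polarBilin Q) K.1} × S →
      Σ K : moveSet Q x, {y : orthG (polarBilin Q) K.1 // y ≠ 0} := fun p =>
    ⟨⟨moveK (c p.2.1 p.2.2) (r p.2.1 p.2.2) p.1.1.1,
        moveK_mem_moveSet (hg p.2.1 p.2.2) p.1.1.2⟩,
      ⟨⟨p.2.1, by
        have := mem_orth_moveK (r := r p.2.1 p.2.2) (hg p.2.1 p.2.2).1 p.1.2
        rwa [hgs] at this⟩, fun h => h0 (by
          have h' : p.2.1 = 0 := congrArg Subtype.val h
          rw [← h']; exact p.2.2)⟩⟩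
  have hφ : Function.Injective φ := by
    rintro ⟨K, s⟩ ⟨L, t⟩ h
    have hst : s = t := Subtype.ext
      (congrArg (fun z : Σ K : moveSet Q x, {y : orthG (polarBilin Q) K.1 // y ≠ 0} =>
        ((z.2.1 : orthG (polarBilin Q) z.1.1) : W)) h)
    subst hst
    have hK := congrArg
      (fun z : Σ K : moveSet Q x, {y : orthG (polarBilin Q) K.1 // y ≠ 0} => z.1.1) h
    exact congrArg₂ Prod.mk (Subtype.ext (Subtype.ext
      (moveK_injective (hg s.1 s.2).1 _ hK))) rfl
  have : Fintype (moveSet Q x) := Fintype.ofFinite _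
  have hle := Nat.card_le_card_of_injective φ hφ
  rw [Nat.card_prod] at hle
  refine hle.trans (le_of_eq ?_)
  rw [Nat.card_sigma]
  have hone : ∀ K : moveSet Q x,
      Nat.card {y : orthG (polarBilin Q) K.1 // y ≠ 0} = Nat.card (Aof Q x) - 1 := fun K => by
    rw [← card_orth_of_mem_moveSet hQ K.2]
    have : Fintype (orthG (polarBilin Q) K.1) := Fintype.ofFinite _
    simp [Nat.card_eq_fintype_card, Fintype.card_subtype_compl]
  simp [hone, Nat.card_eq_fintype_card]

end

end Cfsg.Agent.MinIndex
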