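/-
The possible invariants of a point of a small action: a line, nothing, or a maximal totally
singular subspace.
-/
import Mathlib
import Cfsg.Prelude.Def_Classical
import Cfsg.Agent.Classical.OrthBasic
import Cfsg.Agent.Classical.OrthEichler
import Cfsg.Agent.Classical.OrthSimple
import Cfsg.Agent.MinIndex.Duality
import Cfsg.Agent.MinIndex.Count
import Cfsg.Agent.MinIndex.OrthStd
import Cfsg.Agent.MinIndex.OrthTools
import Cfsg.Agent.MinIndex.OrthMoves
import Cfsg.Agent.MinIndex.OrthOrbits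

set_option autoImplicit false

namespace Cfsg.Agent.MinIndex

open QuadraticMap Cfsg.Agent.Classical Module

universe u w

variable {F : Type u} [Field F] {W₁ : Type w} [AddCommGroup W₁] [Module F W₁]

/-- The vectors whose value is a non-zero square times `c`. -/
def levelSet (Q₁ : QuadraticForm F W₁) (c : F) : Set ((F × F) × W₁) :=
  {s | ∃ t : F, t ≠ 0 ∧ hypAdd Q₁ s = t * t * c}

/-- The pairs of independent orthogonal singular vectors. -/
def pairSet (Q₁ : QuadraticForm F W₁) : Set (((F × F) × W₁) × ((F × F) × W₁)) :=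
  {p | p.1 ≠ 0 ∧ hypAdd Q₁ p.1 = 0 ∧ hypAdd Q₁ p.2 = 0 ∧ polar (hypAdd Q₁) p.1 p.2 = 0 ∧
    ∀ α : F, p.2 ≠ α • p.1}

/-- Every hyperbolic pair has, in odd characteristic, an orthogonal vector of value neither zero
nor `c`. -/
def GoodVal (Q₁ : QuadraticForm F W₁) (c : F) : Prop :=
  ∀ a b, IsPair Q₁ a b → (2 : F) ≠ 0 →
    ∃ g, polar Q₁ a g = 0 ∧ polar Q₁ b g = 0 ∧ Q₁ g ≠ 0 ∧ Q₁ g ≠ c

variable [Finite F] [Finite W₁] [FiniteDimensional F W₁] {Q₁ : QuadraticForm F W₁}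
  {X : Type*} [MulAction (EG (hypAdd Q₁)) X] [Finite X]

/-- A conjugate of a translate fixing the standard vector again contains it. -/
theorem through_smul (l : ↥(EQ (hypAdd Q₁))) {c₀ : F} (hl : l.1.1 (w0 W₁ c₀) = w0 W₁ c₀)
    {K : AddSubgroup ((F × F) × W₁)} (hK : w0 W₁ c₀ ∈ orthG (polarBilin (hypAdd Q₁)) K) :
    w0 W₁ c₀ ∈ orthG (polarBilin (hypAdd Q₁)) (moveK (1 : F) l.1 K) := by
  have := mem_orth_moveK (r := l.1) one_ne_zero hK
  rwa [inv_one, one_smul, hl] at this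

/-- At most four translates contain a given non-singular vector. -/
theorem card_through_le_four (h : InnerSpace Q₁) (x : X) {c₀ : F} (hc₀ : c₀ ≠ 0)
    (hn : Nat.card X < 5 * Nat.card (levelSet Q₁ c₀)) :
    Nat.card {K : moveSet (hypAdd Q₁) x //
      w0 W₁ c₀ ∈ orthG (polarBilin (hypAdd Q₁)) K.1} ≤ 4 := by
  have h0 : (0 : (F × F) × W₁) ∉ levelSet Q₁ c₀ := by
    rintro ⟨t, ht, h0⟩
    rw [QuadraticMap.map_zero] at h0
    exact mul_ne_zero (mul_ne_zero ht ht) hc₀ h0.symm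
  have hm := card_through_mul_le h.bNondeg x (w0 W₁ c₀) (levelSet Q₁ c₀) h0
    (fun s ⟨t, ht, hs⟩ => exists_move_level h hc₀ ht hs)
  have hk := card_moveSet_mul_le h.bNondeg x
  by_contra hm4
  push Not at hm4
  have : 5 * Nat.card (levelSet Q₁ c₀) ≤
      Nat.card (moveSet (hypAdd Q₁) x) * (Nat.card (Aof (hypAdd Q₁) x) - 1) :=
    le_trans (Nat.mul_le_mul_right _ hm4) hm
  have h2 : Nat.card (moveSet (hypAdd Q₁) x) * (Nat.card (Aof (hypAdd Q₁) x) - 1) ≤
      Nat.card (moveSet (hypAdd Q₁) x) * Nat.card (Aof (hypAdd Q₁) x) :=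
    Nat.mul_le_mul_left _ (Nat.sub_le _ _)
  omega

/-- The transformations of a good plane leave the dual invariant. -/
theorem siegel_invariant (x : X) {c₀ : F}
    (hmem : w0 W₁ c₀ ∈ Aof (hypAdd Q₁) x)
    (h4 : Nat.card {K : moveSet (hypAdd Q₁) x //
      w0 W₁ c₀ ∈ orthG (polarBilin (hypAdd Q₁)) K.1} ≤ 4)
    {a b c z : (F × F) × W₁} (ha : hypAdd Q₁ a = 0) (hb : hypAdd Q₁ b = 0)
    (hab : polar (hypAdd Q₁) a b = 1)
    (hac : polar (hypAdd Q₁) a c = 0) (hbc : polar (hypAdd Q₁) b c = 0)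
    (haz : polar (hypAdd Q₁) a z = 0) (hbz : polar (hypAdd Q₁) b z = 0)
    (haw : polar (hypAdd Q₁) a (w0 W₁ c₀) = 0) (hbw : polar (hypAdd Q₁) b (w0 W₁ c₀) = 0)
    (hcw : polar (hypAdd Q₁) c (w0 W₁ c₀) = 0) (hzw : polar (hypAdd Q₁) z (w0 W₁ c₀) = 0)
    (hc : hypAdd Q₁ c ≠ 0) (hz : hypAdd Q₁ z ≠ 0) (hB : polar (hypAdd Q₁) c z ≠ 0)
    (hd : polar (hypAdd Q₁) c z * polar (hypAdd Q₁) c z -
      4 * hypAdd Q₁ c * hypAdd Q₁ z ≠ 0) :
    ∀ v ∈ Submodule.span F ({c, z} : Set _), ∀ (hav : polar (hypAdd Q₁) a v = 0),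
      ∀ y ∈ Aof (hypAdd Q₁) x,
        (siegel (hypAdd Q₁) ha hav).1 y ∈ Aof (hypAdd Q₁) x := by
  let M : Subgroup ↥(EQ (hypAdd Q₁)) :=
    { carrier := {l | l.1.1 (w0 W₁ c₀) = w0 W₁ c₀}
      one_mem' := rfl
      mul_mem' := fun {l m} (hl : l.1.1 _ = _) (hm : m.1.1 _ = _) => by
        change (l * m).1.1 (w0 W₁ c₀) = w0 W₁ c₀
        rw [Subgroup.coe_mul, Subgroup.coe_mul, LinearEquiv.mul_apply, hm, hl]
      inv_mem' := fun {l} (hl : l.1.1 _ = _) => by
        change (l⁻¹).1.1 (w0 W₁ c₀) = w0 W₁ c₀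
        conv_lhs => rw [← hl]
        rw [← LinearEquiv.mul_apply, ← Subgroup.coe_mul, ← Subgroup.coe_mul, inv_mul_cancel]
        rfl }
  let T := {K : moveSet (hypAdd Q₁) x // w0 W₁ c₀ ∈ orthG (polarBilin (hypAdd Q₁)) K.1}
  let act : M → T → T := fun l K =>
    ⟨⟨moveK (1 : F) l.1.1 K.1.1, moveK_mem_moveSet (isMove_lift l.1) K.1.2⟩,
      through_smul l.1 l.2 K.2⟩
  have act_one : ∀ K, act 1 K = K := fun K => Subtype.ext (Subtype.ext (moveK_one_one _))
  have act_mul : ∀ l m K, act (l * m) K = act l (act m K) := fun l m K =>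
    Subtype.ext (Subtype.ext (by
      change _ = moveK (1 : F) l.1.1 (moveK (1 : F) m.1.1 K.1.1)
      rw [moveK_moveK, mul_one]
      rfl))
  let ρ : M →* Equiv.Perm T :=
    { toFun := fun l => ⟨act l, act l⁻¹,
        fun K => by rw [← act_mul, inv_mul_cancel, act_one],
        fun K => by rw [← act_mul, mul_inv_cancel, act_one]⟩
      map_one' := Equiv.ext act_one
      map_mul' := fun l m => Equiv.ext (act_mul l m) }
  have perp : ∀ v ∈ Submodule.span F ({c, z} : Set _), polar (hypAdd Q₁) v (w0 W₁ c₀) = 0 := fun v hv => by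
    obtain ⟨s, t, rfl⟩ := Submodule.mem_span_pair.1 hv
    rw [polar_add_left, polar_smul_left, polar_smul_left, hcw, hzw]; simp
  have memM : ∀ {e v} (he : (hypAdd Q₁) e = 0) (hev : polar (hypAdd Q₁) e v = 0),
      polar (hypAdd Q₁) e (w0 W₁ c₀) = 0 → polar (hypAdd Q₁) v (w0 W₁ c₀) = 0 →
      (⟨siegel (hypAdd Q₁) he hev, siegel_mem_EQ (hypAdd Q₁) he hev⟩ : ↥(EQ (hypAdd Q₁))) ∈ M :=
    fun he hev h1 h2 => siegel_fix (hypAdd Q₁) he hev h1 h2
  intro v hv hav y hy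
  have hρ := perfect_plane (R := hypAdd Q₁) ((EQ (hypAdd Q₁)).subtype.comp M.subtype)
    (Subtype.val_injective.comp Subtype.val_injective) h4 ρ ha hb hab hac hbc haz hbz hc hz hB hd
    (fun v' hv' h' => ⟨⟨_, memM ha h' haw (perp v' hv')⟩, rfl⟩)
    (fun v' hv' h' => ⟨⟨_, memM hb h' hbw (perp v' hv')⟩, rfl⟩)
    v hv hav ⟨_, memM ha hav haw (perp v hv)⟩ rfl
  have hK := congrArg (fun K : T => K.1.1)
    (Equiv.ext_iff.1 hρ ⟨⟨Kof (hypAdd Q₁) x, Kof_mem_moveSet x⟩, hmem⟩)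
  change moveK (1 : F) (siegel (hypAdd Q₁) ha hav) (Kof (hypAdd Q₁) x) = Kof (hypAdd Q₁) x at hK
  have := mem_orth_moveK (r := siegel (hypAdd Q₁) ha hav) (one_ne_zero : (1 : F) ≠ 0) hy
  rwa [hK, inv_one, one_smul] at this

/-- A vector of the dual not orthogonal to `a` brings the multiples of `a` and of the plane in. -/
theorem smul_mem_of_invariant {A : AddSubgroup ((F × F) × W₁)} {a c z y : (F × F) × W₁}
    (ha : hypAdd Q₁ a = 0) (hac : polar (hypAdd Q₁) a c = 0) (haz : polar (hypAdd Q₁) a z = 0)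
    (hB : polar (hypAdd Q₁) c z ≠ 0)
    (hinv : ∀ v ∈ Submodule.span F ({c, z} : Set _), ∀ (hav : polar (hypAdd Q₁) a v = 0),
      ∀ y ∈ A, (siegel (hypAdd Q₁) ha hav).1 y ∈ A)
    (hy : y ∈ A) (hay : polar (hypAdd Q₁) a y ≠ 0) :
    (∀ t : F, t • a ∈ A) ∧ ∀ v ∈ Submodule.span F ({c, z} : Set _), v ∈ A := by
  set Pl := Submodule.span F ({c, z} : Set ((F × F) × W₁))
  have hcP : c ∈ Pl := Submodule.subset_span (by simp)
  have hzP : z ∈ Pl := Submodule.subset_span (by simp)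
  have perp : ∀ v ∈ Pl, polar (hypAdd Q₁) a v = 0 := fun v hv => by
    obtain ⟨s, t, rfl⟩ := Submodule.mem_span_pair.1 hv
    rw [polar_add_right, polar_smul_right, polar_smul_right, hac, haz]; simp
  have hD : ∀ v ∈ Pl, polar (hypAdd Q₁) a y • v - (polar (hypAdd Q₁) v y + (hypAdd Q₁) v * polar (hypAdd Q₁) a y) • a ∈ A := by
    intro v hv
    have h := A.sub_mem (hinv v hv (perp v hv) y hy) hy
    rw [siegel_apply] at h
    convert h using 1
    module
  have hline : ∀ t : F, t • a ∈ A := by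
    intro t
    set μ := t / (polar (hypAdd Q₁) a y * polar (hypAdd Q₁) c z)
    have h1 := hD c hcP
    have h2 := hD (μ • z) (Pl.smul_mem μ hzP)
    have h3 := hD (c + μ • z) (Pl.add_mem hcP (Pl.smul_mem μ hzP))
    have hμ : μ * (polar (hypAdd Q₁) a y * polar (hypAdd Q₁) c z) = t := by
      rw [div_mul_cancel₀ _ (mul_ne_zero hay hB)]
    convert A.sub_mem (A.add_mem h1 h2) h3 using 1
    rw [qf_add, polar_add_left, polar_smul_right, smul_eq_mul, ← hμ]
    module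
  refine ⟨hline, fun v hv => ?_⟩
  have h := A.add_mem (hD ((polar (hypAdd Q₁) a y)⁻¹ • v) (Pl.smul_mem _ hv))
    (hline (polar (hypAdd Q₁) ((polar (hypAdd Q₁) a y)⁻¹ • v) y + (hypAdd Q₁) ((polar (hypAdd Q₁) a y)⁻¹ • v) * polar (hypAdd Q₁) a y))
  rwa [sub_add_cancel, smul_smul, mul_inv_cancel₀ hay, one_smul] at h

omit [Finite F] [Finite W₁] in
/-- Two non-orthogonal vectors orthogonal to a given pair. -/
theorem exists_perp_pair (h : InnerSpace Q₁) {a b : W₁} (hab : IsPair Q₁ a b) :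
    ∃ g g', polar Q₁ a g = 0 ∧ polar Q₁ b g = 0 ∧ polar Q₁ a g' = 0 ∧ polar Q₁ b g' = 0 ∧
      polar Q₁ g g' = 1 := by
  obtain ⟨ha, hb, hab1⟩ := hab
  let π : W₁ → W₁ := fun y => y - polar Q₁ b y • a - polar Q₁ a y • b
  have h1 : ∀ y, polar Q₁ a (π y) = 0 := fun y => by
    simp [π, polar_sub_right, polar_smul_right, polar_self, ha, hab1]
  have h2 : ∀ y, polar Q₁ b (π y) = 0 := fun y => by
    simp [π, polar_sub_right, polar_smul_right, polar_self, hb, polar_comm Q₁ b a, hab1]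
  obtain ⟨y, hy⟩ : ∃ y, π y ≠ 0 := by
    by_contra hno
    push Not at hno
    classical
    have htop : (⊤ : Submodule F W₁) ≤ Submodule.span F {a, b} := fun y _ => by
      have := hno y
      simp only [π, sub_sub, sub_eq_zero] at this
      rw [this]
      exact add_mem (Submodule.smul_mem _ _ (Submodule.subset_span (by simp)))
        (Submodule.smul_mem _ _ (Submodule.subset_span (by simp)))
    have h2 : finrank F ↥(Submodule.span F ({a, b} : Set W₁)) ≤ 2 := by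
      have := finrank_span_finset_le_card (R := F) ({a, b} : Finset W₁)
      simp only [Finset.coe_insert, Finset.coe_singleton] at this
      exact le_trans this ((Finset.card_insert_le _ _).trans (by simp))
    rw [top_le_iff.1 htop, finrank_top] at h2
    have := h.three
    omega
  obtain ⟨w, hw⟩ : ∃ w, polar Q₁ (π y) w ≠ 0 := by
    by_contra hno
    push Not at hno
    exact hy (h.nondeg _ hno)
  refine ⟨π y, (polar Q₁ (π y) w)⁻¹ • π w, h1 y, h2 y, ?_, ?_, ?_⟩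
  · rw [polar_smul_right, h1, smul_zero]
  · rw [polar_smul_right, h2, smul_zero]
  · have : polar Q₁ (π y) (π w) = polar Q₁ (π y) w := by
      simp [π, polar_sub_right, polar_smul_right, polar_comm Q₁ _ a, polar_comm Q₁ _ b, h1, h2,
        ha, hb, hab1, polar_self]
    rw [polar_smul_right, this, smul_eq_mul, inv_mul_cancel₀ hw]

/-- At one singular vector: everything a good plane gives. -/
theorem line_plane_mem (h : InnerSpace Q₁) (x : X) {c₀ : F} (hc₀ : c₀ ≠ 0)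
    (hgood : GoodVal Q₁ c₀) (hmem : w0 W₁ c₀ ∈ Aof (hypAdd Q₁) x)
    (h4 : Nat.card {K : moveSet (hypAdd Q₁) x //
      w0 W₁ c₀ ∈ orthG (polarBilin (hypAdd Q₁)) K.1} ≤ 4)
    {a : W₁} (ha0 : a ≠ 0) (ha : Q₁ a = 0) {y : (F × F) × W₁} (hy : y ∈ Aof (hypAdd Q₁) x)
    (hay : polar Q₁ a y.2 ≠ 0) :
    (∀ t : F, (((0, 0), t • a) : (F × F) × W₁) ∈ Aof (hypAdd Q₁) x) ∧
      ((2 : F) ≠ 0 → ∀ t : F, t • (((1 : F), -c₀), (0 : W₁)) ∈ Aof (hypAdd Q₁) x) ∧
      ((2 : F) = 0 → ∃ g : W₁, ∀ t : F,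
        t • ((((0, 0), g) : (F × F) × W₁)) + t • (((1 : F), c₀), (0 : W₁)) ∈ Aof (hypAdd Q₁) x ∨
          ∀ s : F, s = 0 ∨ s = 1) := by
  obtain ⟨b, hb, hab⟩ : ∃ b, Q₁ b = 0 ∧ polar Q₁ a b = 1 := by
    obtain ⟨b₀, hb₀⟩ := exists_polar_one h.nondeg.qNondeg ha0 ha
    refine ⟨b₀ - Q₁ b₀ • a, ?_, ?_⟩
    · simp [qf_sub, QuadraticMap.map_smul, ha, polar_smul_right, polar_comm Q₁ b₀ a, hb₀]
    · simp [polar_sub_right, polar_smul_right, polar_self, ha, hb₀]
  let A' : (F × F) × W₁ := ((0, 0), a)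
  let B' : (F × F) × W₁ := ((0, 0), b)
  have hA : (hypAdd Q₁) A' = 0 := by simp [A', ha]
  have hB : (hypAdd Q₁) B' = 0 := by simp [B', hb]
  have hAB : polar (hypAdd Q₁) A' B' = 1 := by simp [A', B', hab]
  have hAy : polar (hypAdd Q₁) A' y ≠ 0 := by simpa [A'] using hay
  have hAw : polar (hypAdd Q₁) A' (w0 W₁ c₀) = 0 := by simp [A']
  have hBw : polar (hypAdd Q₁) B' (w0 W₁ c₀) = 0 := by simp [B']
  have core : ∀ {c z : (F × F) × W₁}, polar (hypAdd Q₁) A' c = 0 → polar (hypAdd Q₁) B' c = 0 → polar (hypAdd Q₁) A' z = 0 →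
      polar (hypAdd Q₁) B' z = 0 → polar (hypAdd Q₁) c (w0 W₁ c₀) = 0 → polar (hypAdd Q₁) z (w0 W₁ c₀) = 0 → (hypAdd Q₁) c ≠ 0 → (hypAdd Q₁) z ≠ 0 →
      polar (hypAdd Q₁) c z ≠ 0 → polar (hypAdd Q₁) c z * polar (hypAdd Q₁) c z - 4 * (hypAdd Q₁) c * (hypAdd Q₁) z ≠ 0 →
      (∀ t : F, (((0, 0), t • a) : (F × F) × W₁) ∈ Aof (hypAdd Q₁) x) ∧
        ∀ t : F, t • c ∈ Aof (hypAdd Q₁) x := by
    intro c z h1 h2 h3 h4' h5 h6 h7 h8 h9 h10
    obtain ⟨k1, k2⟩ := smul_mem_of_invariant (A := Aof (hypAdd Q₁) x) hA h1 h3 h9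
      (siegel_invariant x hmem h4 hA hB hAB h1 h2 h3 h4' hAw hBw h5 h6 h7 h8 h9 h10) hy hAy
    refine ⟨fun t => ?_, fun t => k2 _ (Submodule.smul_mem _ t (Submodule.subset_span (by simp)))⟩
    have := k1 t
    simpa [A'] using this
  by_cases h2 : (2 : F) = 0
  · -- characteristic two
    have hneg : ∀ s : F, -s = s := fun s => by linear_combination -s * h2
    haveI : CharP F 2 := CharTwo.of_one_ne_zero_of_two_eq_zero one_ne_zero h2
    obtain ⟨g, g', hg1, hg2, hg1', hg2', hgg⟩ := exists_perp_pair h ⟨ha, hb, hab⟩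
    have hsq : ∀ s : F, ∃ l : F, l * l * c₀ = s := fun s => by
      obtain ⟨l, hl⟩ := FiniteField.isSquare_of_char_two (ringChar.eq F 2) (s * c₀⁻¹)
      exact ⟨l, by rw [← hl, mul_assoc, inv_mul_cancel₀ hc₀, mul_one]⟩
    obtain ⟨s, hs0, hs⟩ : ∃ s : F, s ≠ 0 ∧ (s * s * Q₁ g ≠ 1 ∨ ∀ r : F, r = 0 ∨ r = 1) := by
      by_cases hF : ∀ r : F, r = 0 ∨ r = 1
      · exact ⟨1, one_ne_zero, Or.inr hF⟩
      push Not at hF
      obtain ⟨r, hr0, hr1⟩ := hF
      by_cases hg : Q₁ g = 1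
      · refine ⟨r, hr0, Or.inl ?_⟩
        rw [hg, mul_one]
        intro hrr
        refine hr1 ?_
        have : (r - 1) * (r - 1) = 0 := by linear_combination hrr + (1 - r) * h2
        exact sub_eq_zero.1 (mul_self_eq_zero.1 this)
      · exact ⟨1, one_ne_zero, Or.inl (by simpa using hg)⟩
    obtain ⟨l, hl⟩ := hsq (1 - s * s * Q₁ g)
    obtain ⟨l', hl'⟩ := hsq (1 - s⁻¹ * s⁻¹ * Q₁ g')
    set c : (F × F) × W₁ := ((0, 0), s • g) + l • w0 W₁ c₀ with hc
    set z : (F × F) × W₁ := ((0, 0), s⁻¹ • g') + l' • w0 W₁ c₀ with hz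
    have hwperp : ∀ (v : W₁) (t : F), polar (hypAdd Q₁) ((((0, 0), v) : (F × F) × W₁) + t • w0 W₁ c₀)
        (w0 W₁ c₀) = 0 := fun v t => by
      simp
      linear_combination t * c₀ * h2
    have hRc : (hypAdd Q₁) c = 1 := by
      simp [hc, QuadraticMap.map_smul]
      linear_combination hl
    have hRz : (hypAdd Q₁) z = 1 := by
      simp [hz, QuadraticMap.map_smul]
      linear_combination hl'
    have hcz : polar (hypAdd Q₁) c z = 1 := by
      simp [hc, hz, polar_smul_left, polar_smul_right, hgg]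
      rw [inv_mul_cancel₀ hs0]
      linear_combination l * l' * c₀ * h2
    obtain ⟨k1, k2⟩ := core (c := c) (z := z) (by simp [A', hc, hg1, polar_smul_right])
      (by simp [B', hc, hg2, polar_smul_right]) (by simp [A', hz, hg1', polar_smul_right])
      (by simp [B', hz, hg2', polar_smul_right]) (hwperp _ _) (hwperp _ _)
      (by rw [hRc]; exact one_ne_zero) (by rw [hRz]; exact one_ne_zero)
      (by rw [hcz]; exact one_ne_zero)
      (by rw [hcz, hRc, hRz, show (4 : F) = 0 by linear_combination 2 * h2]; simp)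
    refine ⟨k1, fun hne => absurd h2 hne, fun _ => ?_⟩
    rcases hs with hs | hs
    · have hl0 : l ≠ 0 := by
        rintro rfl
        exact hs (by linear_combination hl)
      refine ⟨(l⁻¹ * s) • g, fun t => Or.inl ?_⟩
      have := k2 (t * l⁻¹)
      convert this using 1
      rw [hc, smul_add, smul_smul, mul_assoc, inv_mul_cancel₀ hl0, mul_one]
      congr 1
      simp [smul_smul, mul_assoc]
    · exact ⟨0, fun t => Or.inr hs⟩
  · obtain ⟨g, hg1, hg2, hg, hgc⟩ := hgood a b ⟨ha, hb, hab⟩ h2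
    set e : (F × F) × W₁ := (((1 : F), -c₀), (0 : W₁)) with he
    set z : (F × F) × W₁ := (((1 : F), -c₀), g) with hz
    have hcz : polar (hypAdd Q₁) e z = -(2 * c₀) := by simp [he, hz]; ring
    obtain ⟨k1, k2⟩ := core (c := e) (z := z) (by simp [A', he]) (by simp [B', he])
      (by simp [A', hz, hg1]) (by simp [B', hz, hg2])
      (by simp [he]) (by simp [hz])
      (by simp [he, hc₀]) (by simp [hz]; exact fun hh => hgc (by linear_combination hh))
      (by rw [hcz]; exact neg_ne_zero.2 (mul_ne_zero h2 hc₀))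
      (by
        rw [hcz]
        simp only [he, hz, hypAdd_apply, QuadraticMap.map_zero, add_zero]
        intro hh
        have : (2 : F) * 2 * c₀ * Q₁ g = 0 := by linear_combination hh
        exact mul_ne_zero (mul_ne_zero (mul_ne_zero h2 h2) hc₀) hg this)
    exact ⟨k1, fun _ => k2, fun h2' => absurd h2' h2⟩

/-- A dual leaving the plane contains the inner space, hence its partner is tiny. -/
theorem Kof_le_line_of_inner (h : InnerSpace Q₁) (x : X) {c₀ : F} (hc₀ : c₀ ≠ 0)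
    (hgood : GoodVal Q₁ c₀) (hmem : w0 W₁ c₀ ∈ Aof (hypAdd Q₁) x)
    (h4 : Nat.card {K : moveSet (hypAdd Q₁) x //
      w0 W₁ c₀ ∈ orthG (polarBilin (hypAdd Q₁)) K.1} ≤ 4)
    {y : (F × F) × W₁} (hy : y ∈ Aof (hypAdd Q₁) x) (hy2 : y.2 ≠ 0) :
    ∀ k ∈ Kof (hypAdd Q₁) x, ∃ t : F, k = t • w0 W₁ c₀ := by
  obtain ⟨e, f, hef⟩ := h.pair
  have hQn := h.nondeg.qNondeg
  obtain ⟨a, ha, ha0, hay⟩ :=
    exists_singular_polar_ne hef (fun hall => hy2 (h.nondeg _ hall))
  obtain ⟨hline, hodd, htwo⟩ := line_plane_mem h x hc₀ hgood hmem h4 ha0 ha hy hay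
  -- every singular inner vector is in
  have step : ∀ b : W₁, Q₁ b = 0 → polar Q₁ a b ≠ 0 →
      ∀ t : F, (((0, 0), t • b) : (F × F) × W₁) ∈ Aof (hypAdd Q₁) x := by
    intro b hb hab
    have hb0 : b ≠ 0 := by rintro rfl; simp at hab
    exact (line_plane_mem h x hc₀ hgood hmem h4 hb0 hb (y := ((0, 0), a))
      (by simpa using hline 1) (by rw [polar_comm]; exact hab)).1
  have hall : ∀ b : W₁, Q₁ b = 0 → ∀ t : F, (((0, 0), t • b) : (F × F) × W₁) ∈ Aof (hypAdd Q₁) x := by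
    intro b hb
    rcases eq_or_ne b 0 with rfl | hb0
    · intro t; simp; exact (Aof (hypAdd Q₁) x).zero_mem
    obtain ⟨b', hb', h1, h2⟩ := exists_singular_not_orth_three hQn h.three ha0 ha hb0 hb
    have hmem' := step b' hb' h1 1
    rw [one_smul] at hmem'
    exact (line_plane_mem h x hc₀ hgood hmem h4 hb0 hb (y := ((0, 0), b')) hmem'
      (by exact h2)).1
  have hW : ∀ b : W₁, ∀ t : F, (((0, 0), t • b) : (F × F) × W₁) ∈ Aof (hypAdd Q₁) x :=
    singular_induction hef (P := fun b => ∀ t : F, (((0, 0), t • b) : (F × F) × W₁) ∈ Aof (hypAdd Q₁) x)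
      (fun u v hu hv t => by
        have := (Aof (hypAdd Q₁) x).add_mem (hu t) (hv t)
        simpa [smul_add] using this) hall
  intro k hk
  have hkA : k ∈ orthG (polarBilin (hypAdd Q₁)) (Aof (hypAdd Q₁) x) := by
    rw [Aof, orthG_orthG _ (polarBilin_sep h.bNondeg) (polarBilin_symm (hypAdd Q₁))]
    exact hk
  have hk2 : k.2 = 0 := by
    refine h.nondeg _ fun b => ?_
    have := mem_orthG_of_smul_mem (B := polarBilin (hypAdd Q₁)) (a := (((0, 0), b) : (F × F) × W₁))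
      (K := Aof (hypAdd Q₁) x) (fun t => by simpa using hW b t) hkA
    rw [polar_comm]
    simpa [] using this
  refine ⟨k.1.1, ?_⟩
  suffices hk1 : k.1.2 = k.1.1 * c₀ by
    refine Prod.ext (Prod.ext (by simp) (by simp [hk1])) (by simp [hk2])
  by_cases h2 : (2 : F) = 0
  · obtain ⟨g, hg⟩ := htwo h2
    have key : ∀ t : F, t • (((1 : F), c₀), (0 : W₁)) ∈ Aof (hypAdd Q₁) x := fun t => by
      rcases hg t with ht | hF
      · have := (Aof (hypAdd Q₁) x).sub_mem ht (hW g t)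
        simpa [Prod.smul_mk] using this
      · rcases hF t with rfl | rfl
        · rw [zero_smul]; exact (Aof (hypAdd Q₁) x).zero_mem
        · rw [one_smul]; exact hmem
    have := mem_orthG_of_smul_mem (B := polarBilin (hypAdd Q₁)) key hkA
    simp [hk2] at this
    linear_combination this - k.1.1 * c₀ * h2
  · have := mem_orthG_of_smul_mem (B := polarBilin (hypAdd Q₁)) (hodd h2) hkA
    simp [hk2] at this
    linear_combination this

/-- A standard non-singular vector in the dual: the dual is a line or everything. -/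
theorem class_nonsingular_std (h : InnerSpace Q₁) (x : X) {c₀ : F} (hc₀ : c₀ ≠ 0)
    (hgood : GoodVal Q₁ c₀) (hmem : w0 W₁ c₀ ∈ Aof (hypAdd Q₁) x)
    (hn : Nat.card X < 5 * Nat.card (levelSet Q₁ c₀))
    (hn' : Nat.card X < Nat.card W₁ * Nat.card {s // hypAdd Q₁ s = c₀}) :
    (∀ y ∈ Aof (hypAdd Q₁) x, ∃ t : F, y = t • w0 W₁ c₀) ∨ Kof (hypAdd Q₁) x = ⊥ := by
  by_cases hline : ∀ y ∈ Aof (hypAdd Q₁) x, ∃ t : F, y = t • w0 W₁ c₀
  · exact Or.inl hline
  push Not at hline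
  obtain ⟨y, hy, hyw⟩ := hline
  -- a translate with a vector leaving the plane
  obtain ⟨g, l, hgl, hl0, y', hy', hy'2⟩ : ∃ (g : EG (hypAdd Q₁)) (l : ↥(EQ (hypAdd Q₁))), IsMove g 1 l.1 ∧
      l.1.1 (w0 W₁ c₀) = w0 W₁ c₀ ∧ ∃ y' ∈ Aof (hypAdd Q₁) (g • x), y'.2 ≠ 0 := by
    by_cases hy2 : y.2 = 0
    · have hne : y.1.2 ≠ y.1.1 * c₀ := fun heq =>
        hyw y.1.1 (Prod.ext (Prod.ext (by simp) (by simp [heq])) (by simp [hy2]))
      obtain ⟨e, f, he, hf, hef⟩ := h.pair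
      have he0 : e ≠ 0 := by rintro rfl; simp at hef
      have hs1 : (hypAdd Q₁) (((0, 0), e) : (F × F) × W₁) = 0 := by simp [he]
      have hs2 : polar (hypAdd Q₁) (((0, 0), e) : (F × F) × W₁) (((1 : F), -c₀), 0) = 0 := by simp
      set l : ↥(EQ (hypAdd Q₁)) := ⟨siegel (hypAdd Q₁) hs1 hs2, siegel_mem_EQ (hypAdd Q₁) hs1 hs2⟩
      have hlw : l.1.1 (w0 W₁ c₀) = w0 W₁ c₀ := siegel_fix (hypAdd Q₁) hs1 hs2 (by simp) (by simp)
      refine ⟨lift (hypAdd Q₁) l, l, isMove_lift l, hlw, l.1.1 y, mem_Aof_smul_lift l hy, ?_⟩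
      have : (l.1.1 y).2 = -(y.1.2 + -c₀ * y.1.1) • e := by
        change ((siegel (hypAdd Q₁) hs1 hs2).1 y).2 = _
        rw [siegel_apply]
        simp [hy2]
        module
      rw [this]
      exact smul_ne_zero (neg_ne_zero.2 fun h0 => hne (by linear_combination h0)) he0
    · exact ⟨1, 1, isMove_one, rfl, y, by rwa [one_smul], hy2⟩
  have hKx : Kof (hypAdd Q₁) (g • x) = moveK (1 : F) l.1 (Kof (hypAdd Q₁) x) := Kof_move hgl x
  have hmem' : w0 W₁ c₀ ∈ Aof (hypAdd Q₁) (g • x) := by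
    have h' := through_smul (Q₁ := Q₁) l hl0 hmem
    rw [← hKx] at h'
    exact h'
  have h4' := card_through_le_four h (g • x) hc₀ hn
  have hK := Kof_le_line_of_inner h (g • x) hc₀ hgood hmem' h4' hy' hy'2
  by_cases hbot : Kof (hypAdd Q₁) x = ⊥
  · exact Or.inr hbot
  exfalso
  have hbot' : Kof (hypAdd Q₁) (g • x) ≠ ⊥ := by
    intro h0
    refine hbot ((AddSubgroup.map_eq_bot_iff_of_injective _
      (moveMap_injective (one_ne_zero) l.1)).1 ?_)
    rwa [hKx] at h0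
  obtain ⟨k, hk, hk0⟩ := (AddSubgroup.bot_or_exists_ne_zero _).resolve_left hbot'
  obtain ⟨lam, hlam⟩ := hK k hk
  have hlam0 : lam ≠ 0 := by rintro rfl; exact hk0 (by rw [hlam, zero_smul])
  have hKcard : Nat.card (Kof (hypAdd Q₁) (g • x)) ≤ Nat.card F := by
    let φ : Kof (hypAdd Q₁) (g • x) → F := fun v => v.1.1.1
    refine Nat.card_le_card_of_injective φ fun u v huv => ?_
    obtain ⟨s, hs⟩ := hK u u.2
    obtain ⟨t, ht⟩ := hK v v.2
    refine Subtype.ext ?_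
    simp only [φ, hs, ht] at huv
    rw [hs, ht]
    simp at huv
    rw [huv]
  -- the translates cover the level of `c₀` after scaling
  have hcov := card_le_of_cover (Q := hypAdd Q₁) (β := (F × F) × W₁) {s | (hypAdd Q₁) s = c₀} (g • x)
    (fun K => {s | lam • s ∈ K}) (b := Nat.card F) ?_ ?_
  · have hk := card_moveSet_mul_le h.bNondeg (g • x)
    have hKA := card_Kof_mul_card_Aof h.bNondeg (g • x)
    have hW : Nat.card ((F × F) × W₁) = Nat.card F * Nat.card F * Nat.card W₁ := by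
      rw [Nat.card_prod, Nat.card_prod]
    have hA : Nat.card F * Nat.card W₁ ≤ Nat.card (Aof (hypAdd Q₁) (g • x)) := by
      refine Nat.le_of_mul_le_mul_left ?_ (Finite.card_pos : 0 < Nat.card F)
      calc Nat.card F * (Nat.card F * Nat.card W₁)
          = Nat.card (Kof (hypAdd Q₁) (g • x)) * Nat.card (Aof (hypAdd Q₁) (g • x)) := by rw [hKA, hW, mul_assoc]
        _ ≤ Nat.card F * Nat.card (Aof (hypAdd Q₁) (g • x)) := Nat.mul_le_mul_right _ hKcard
    have := calc Nat.card {s | (hypAdd Q₁) s = c₀} * (Nat.card F * Nat.card W₁)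
          ≤ (Nat.card (moveSet (hypAdd Q₁) (g • x)) * Nat.card F) * Nat.card (Aof (hypAdd Q₁) (g • x)) :=
            Nat.mul_le_mul hcov hA
        _ = Nat.card (moveSet (hypAdd Q₁) (g • x)) * Nat.card (Aof (hypAdd Q₁) (g • x)) * Nat.card F := by ring
        _ ≤ Nat.card X * Nat.card F := Nat.mul_le_mul_right _ hk
    have h2 := Nat.le_of_mul_le_mul_right
      (show Nat.card {s | (hypAdd Q₁) s = c₀} * Nat.card W₁ * Nat.card F ≤ Nat.card X * Nat.card F by
        calc _ = Nat.card {s | (hypAdd Q₁) s = c₀} * (Nat.card F * Nat.card W₁) := by ring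
          _ ≤ _ := this) Finite.card_pos
    rw [mul_comm] at h2
    exact absurd h2 (not_le.2 hn')
  · intro s hs
    obtain ⟨g', c, r, hg', hgs⟩ := exists_move_level h hc₀ (one_ne_zero) (s := s)
      (by rw [one_mul, one_mul]; exact hs)
    refine ⟨moveK c r (Kof (hypAdd Q₁) (g • x)), moveK_mem_moveSet hg' (Kof_mem_moveSet _), ?_⟩
    refine ⟨k, hk, ?_⟩
    have hc2 : c * c = 1 := by
      have h1 := congrArg (hypAdd Q₁) hgs
      rw [QuadraticMap.map_smul, OQ_map_app, hypAdd_w0, show (hypAdd Q₁) s = c₀ from hs, smul_eq_mul] at h1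
      have := mul_right_cancel₀ hc₀ (h1.trans (one_mul c₀).symm)
      rw [← mul_inv, inv_eq_one] at this
      exact this
    have hcc : c = c⁻¹ := eq_inv_of_mul_eq_one_left hc2
    rw [moveMap_apply, hlam, map_smul, smul_comm, hcc, hgs]
  · intro K hK'
    calc Nat.card {s : (F × F) × W₁ | lam • s ∈ K} ≤ Nat.card K :=
          Nat.card_le_card_of_injective (fun s => (⟨lam • s.1, s.2⟩ : K)) fun u v huv =>
            Subtype.ext (smul_right_injective _ hlam0 (congrArg Subtype.val huv))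
      _ = Nat.card (Kof (hypAdd Q₁) (g • x)) := card_of_mem_moveSet hK'
      _ ≤ Nat.card F := hKcard

/-- A non-singular vector in the dual: the dual is a line or everything. -/
theorem class_nonsingular (h : InnerSpace Q₁) (x : X) {w : (F × F) × W₁}
    (hw : hypAdd Q₁ w ≠ 0) (hmem : w ∈ Aof (hypAdd Q₁) x)
    (hgood : GoodVal Q₁ (hypAdd Q₁ w))
    (hn : Nat.card X < 5 * Nat.card (levelSet Q₁ (hypAdd Q₁ w)))
    (hn' : Nat.card X < Nat.card W₁ * Nat.card {s // hypAdd Q₁ s = hypAdd Q₁ w}) :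
    (∀ y ∈ Aof (hypAdd Q₁) x, ∃ t : F, y = t • w) ∨ Kof (hypAdd Q₁) x = ⊥ := by
  obtain ⟨l, hl, hlw⟩ := EQ_transitive_level h.bNondeg h.two
    (show (hypAdd Q₁) w = (hypAdd Q₁) (w0 W₁ ((hypAdd Q₁) w)) by rw [hypAdd_w0]) hw
  have hmem' : w0 W₁ ((hypAdd Q₁) w) ∈ Aof (hypAdd Q₁) (lift (hypAdd Q₁) ⟨l, hl⟩ • x) := by
    rw [← hlw]; exact mem_Aof_smul_lift ⟨l, hl⟩ hmem
  rcases class_nonsingular_std h _ hw hgood hmem' hn hn' with h1 | h1
  · refine Or.inl fun y hy => ?_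
    obtain ⟨t, ht⟩ := h1 _ (mem_Aof_smul_lift ⟨l, hl⟩ hy)
    refine ⟨t, l.1.injective ?_⟩
    rw [map_smul, hlw]
    exact ht
  · refine Or.inr ?_
    rw [Kof_move (isMove_lift ⟨l, hl⟩)] at h1
    exact (AddSubgroup.map_eq_bot_iff_of_injective _ (moveMap_injective one_ne_zero l)).1 h1

/-- A totally singular dual is a line, or as large as its span can be. -/
theorem class_singular (h : InnerSpace Q₁) (x : X) (hs : ∀ y ∈ Aof (hypAdd Q₁) x, hypAdd Q₁ y = 0)
    {r : ℕ} (hr : ∀ U : Submodule F ((F × F) × W₁),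
      (∀ y ∈ U, hypAdd Q₁ y = 0) → finrank F U ≤ r)
    (hP : ∀ a, 3 ≤ a → 2 * a ≤ Nat.card F ^ r →
      Nat.card X * ((a - 1) * (a - 2)) < Nat.card (pairSet Q₁) * a) :
    (∃ w, ∀ y ∈ Aof (hypAdd Q₁) x, ∃ t : F, y = t • w) ∨
      ∃ U : Submodule F ((F × F) × W₁), finrank F U = r ∧ (∀ y ∈ U, hypAdd Q₁ y = 0) ∧
        Aof (hypAdd Q₁) x = U.toAddSubgroup := by
  classical
  set A := Aof (hypAdd Q₁) x with hA
  have horth : ∀ y ∈ A, ∀ z ∈ A, polar (hypAdd Q₁) y z = 0 := fun y hy z hz => by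
    rw [polar, hs _ (A.add_mem hy hz), hs _ hy, hs _ hz, sub_zero, sub_zero]
  by_cases hline : ∃ w, ∀ y ∈ A, ∃ t : F, y = t • w
  · exact Or.inl hline
  push Not at hline
  obtain ⟨w, hw, hw0⟩ := hline 0
  replace hw0 : w ≠ 0 := fun h0 => hw0 0 (by rw [h0, zero_smul])
  obtain ⟨z, hz, hzw⟩ := hline w
  have hz2 : ∀ α : F, z ≠ α • w := hzw
  let U : Submodule F ((F × F) × W₁) := Submodule.span F (A : Set _)
  have hU : ∀ y ∈ U, (hypAdd Q₁) y = 0 := by
    intro y hy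
    have key : (hypAdd Q₁) y = 0 ∧ ∀ a ∈ A, polar (hypAdd Q₁) a y = 0 := by
      induction hy using Submodule.span_induction with
      | mem v hv => exact ⟨hs v hv, fun a ha => horth a ha v hv⟩
      | zero => exact ⟨QuadraticMap.map_zero _, fun a _ => polar_zero_right _ _⟩
      | add u v hu hv hu' hv' =>
        refine ⟨?_, fun a ha => by rw [polar_add_right, hu'.2 a ha, hv'.2 a ha, add_zero]⟩
        have : polar (hypAdd Q₁) u v = 0 := by
          clear hu'
          induction hu using Submodule.span_induction with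
          | mem s hs' => exact hv'.2 s hs'
          | zero => exact polar_zero_left _ _
          | add s t _ _ hs' ht' => rw [polar_add_left, hs', ht', add_zero]
          | smul c s _ hs' => rw [polar_smul_left, hs', smul_zero]
        rw [qf_add, hu'.1, hv'.1, this, add_zero, add_zero]
      | smul c v _ hv' =>
        exact ⟨by rw [QuadraticMap.map_smul, hv'.1, smul_zero],
          fun a ha => by rw [polar_smul_right, hv'.2 a ha, smul_zero]⟩
    exact key.1
  have hUr := hr U hU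
  have hAU : A ≤ U.toAddSubgroup := fun y hy => Submodule.subset_span hy
  have hUc : Nat.card U.toAddSubgroup = Nat.card F ^ finrank F U :=
    Module.natCard_eq_pow_finrank (K := F) (V := U)
  by_cases hfull : finrank F U = r ∧ A = U.toAddSubgroup
  · exact Or.inr ⟨U, hfull.1, hU, hfull.2⟩
  exfalso
  have hq : 2 ≤ Nat.card F := Finite.one_lt_card
  have hsmall : 2 * Nat.card A ≤ Nat.card F ^ r := by
    rcases lt_or_eq_of_le hUr with hlt | heq
    · calc 2 * Nat.card A ≤ 2 * Nat.card F ^ finrank F U := Nat.mul_le_mul_left 2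
            (hUc ▸ Nat.card_le_card_of_injective (Set.inclusion hAU) (Set.inclusion_injective hAU))
        _ ≤ Nat.card F ^ (finrank F U + 1) := by rw [pow_succ']; exact Nat.mul_le_mul_right _ hq
        _ ≤ Nat.card F ^ r := Nat.pow_le_pow_right (by omega) hlt
    · have hne : A ≠ U.toAddSubgroup := fun h' => hfull ⟨heq, h'⟩
      obtain ⟨k, hk⟩ := AddSubgroup.card_dvd_of_le hAU
      rw [← heq, ← hUc, hk, mul_comm 2]
      refine Nat.mul_le_mul_left _ ?_
      rcases k with _ | _ | k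
      · rw [mul_zero] at hk; exact absurd hk Nat.card_pos.ne'
      · rw [zero_add, mul_one] at hk
        exact absurd (AddSubgroup.eq_of_le_of_card_ge hAU hk.le) hne
      · omega
  have h3 : 3 ≤ Nat.card A := by
    let φ : Fin 3 → A := ![0, ⟨w, hw⟩, ⟨z, hz⟩]
    have hφ : Function.Injective φ := by
      intro i j hij
      have h1 : (0 : (F × F) × W₁) ≠ z := fun h0 => hz2 0 (by rw [zero_smul, h0])
      have h2 : w ≠ z := fun h0 => hz2 1 (by rw [one_smul, h0])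
      have hij' := congrArg Subtype.val hij
      fin_cases i <;> fin_cases j <;>
        simp [φ, hw0, h1, h2, hw0.symm, h1.symm, h2.symm] at hij' ⊢
    simpa using Nat.card_le_card_of_injective φ hφ
  have hcov := card_le_of_cover (Q := hypAdd Q₁) (β := ((F × F) × W₁) × ((F × F) × W₁)) (pairSet Q₁) x
    (fun K => {p | p ∈ pairSet Q₁ ∧ p.1 ∈ orthG (polarBilin (hypAdd Q₁)) K ∧ p.2 ∈ orthG (polarBilin (hypAdd Q₁)) K})
    (b := (Nat.card A - 1) * (Nat.card A - 2)) ?_ ?_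
  · have hk := card_moveSet_mul_le h.bNondeg x
    have := calc Nat.card (pairSet Q₁) * Nat.card A
          ≤ Nat.card (moveSet (hypAdd Q₁) x) * ((Nat.card A - 1) * (Nat.card A - 2)) * Nat.card A :=
            Nat.mul_le_mul_right _ hcov
        _ = Nat.card (moveSet (hypAdd Q₁) x) * Nat.card A * ((Nat.card A - 1) * (Nat.card A - 2)) := by ring
        _ ≤ Nat.card X * ((Nat.card A - 1) * (Nat.card A - 2)) := Nat.mul_le_mul_right _ hk
    exact absurd this (not_le.2 (hP _ h3 hsmall))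
  · rintro ⟨s, t⟩ hst
    obtain ⟨hs1, hs2, ht2, hst', hind⟩ := hst
    -- carry `w, z` to the standard pair and on to `s, t`
    obtain ⟨e, f, he, -, hef⟩ := h.pair
    have he0 : e ≠ 0 := by rintro rfl; simp at hef
    obtain ⟨g₁, c₁, r₁, hg₁, e1, e2⟩ :=
      exists_move_pair h he0 he hw0 (hs w hw) (hs z hz) (horth w hw z hz) hz2
    obtain ⟨g₂, c₂, r₂, hg₂, e3, e4⟩ := exists_move_pair h he0 he hs1 hs2 ht2 hst' hind
    have hg₁' : IsMove g₁⁻¹ c₁⁻¹ r₁⁻¹ := by
      refine ⟨inv_ne_zero hg₁.1, ?_, fun a => ?_⟩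
      · apply g₁.1.1.injective
        rw [← LinearEquiv.mul_apply, ← Subgroup.coe_mul, ← Subgroup.coe_mul, mul_inv_cancel,
          map_smul, hg₁.2.1, smul_smul, inv_mul_cancel₀ hg₁.1, one_smul]
        rfl
      · apply g₁.1.1.injective
        rw [← LinearEquiv.mul_apply, ← Subgroup.coe_mul, ← Subgroup.coe_mul, mul_inv_cancel,
          hg₁.2.2, ← LinearEquiv.mul_apply, ← Subgroup.coe_mul, mul_inv_cancel]
        rfl
    refine ⟨_, moveK_mem_moveSet (hg₂.mul hg₁') (Kof_mem_moveSet x),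
      ⟨hs1, hs2, ht2, hst', hind⟩, ?_⟩
    have key : ∀ v v' : (F × F) × W₁, ∀ d, c₁⁻¹ • r₁.1 d = v → c₂⁻¹ • r₂.1 d = v' → v ∈ A →
        v' ∈ orthG (polarBilin (hypAdd Q₁)) (moveK (c₁⁻¹ * c₂) (r₂ * r₁⁻¹) (Kof (hypAdd Q₁) x)) := by
      intro v v' d h1 h2 hv
      have := mem_orth_moveK (r := r₂ * r₁⁻¹) (mul_ne_zero (inv_ne_zero hg₁.1) hg₂.1) hv
      convert this using 1
      rw [← h1, ← h2, Subgroup.coe_mul, LinearEquiv.mul_apply, map_smul, map_smul, smul_smul,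
        Subgroup.coe_inv, show (r₁.1)⁻¹ (r₁.1 d) = d from r₁.1.symm_apply_apply d, mul_inv,
        inv_inv, mul_right_comm, mul_inv_cancel₀ hg₁.1, one_mul]
    exact ⟨key w s _ e1 e3 hw, key z t _ e2 e4 hz⟩
  · intro K hK
    have hcard : Nat.card (orthG (polarBilin (hypAdd Q₁)) K) = Nat.card A :=
      card_orth_of_mem_moveSet h.bNondeg hK
    let B := orthG (polarBilin (hypAdd Q₁)) K
    have : Fintype B := Fintype.ofFinite _
    let φ : {p | p ∈ pairSet Q₁ ∧ p.1 ∈ B ∧ p.2 ∈ B} →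
        Σ y : {y : B // y ≠ 0}, {z : B // z ≠ 0 ∧ z ≠ y.1} := fun p =>
      ⟨⟨⟨p.1.1, p.2.2.1⟩, fun h0 => p.2.1.1 (congrArg Subtype.val h0)⟩,
        ⟨⟨p.1.2, p.2.2.2⟩, fun h0 => p.2.1.2.2.2.2 0
            (by rw [zero_smul]; exact congrArg Subtype.val h0),
          fun h0 => p.2.1.2.2.2.2 1 (by rw [one_smul]; exact congrArg Subtype.val h0)⟩⟩
    have hφ : Function.Injective φ := fun p p' hp => by
      refine Subtype.ext (Prod.ext ?_ ?_)
      · exact congrArg (fun v : Σ y : {y : B // y ≠ 0}, {z : B // z ≠ 0 ∧ z ≠ y.1} =>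
          (v.1.1 : (F × F) × W₁)) hp
      · exact congrArg (fun v : Σ y : {y : B // y ≠ 0}, {z : B // z ≠ 0 ∧ z ≠ y.1} =>
          (v.2.1 : (F × F) × W₁)) hp
    refine (Nat.card_le_card_of_injective φ hφ).trans ?_
    rw [Nat.card_sigma]
    have h2 : ∀ y : {y : B // y ≠ 0},
        Nat.card {z : B // z ≠ 0 ∧ z ≠ y.1} = Nat.card A - 2 := fun y => by
      rw [← hcard, Nat.card_eq_fintype_card, Nat.card_eq_fintype_card, Fintype.card_subtype]
      have : (Finset.univ.filter fun z : B => z ≠ 0 ∧ z ≠ y.1) =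
          Finset.univ \ {(0 : B), y.1} := by ext; simp
      rw [this, Finset.card_univ_sdiff, Finset.card_pair y.2.symm]
    simp only [h2, Finset.sum_const, Finset.card_univ, smul_eq_mul]
    rw [← hcard, Nat.card_eq_fintype_card, Fintype.card_subtype_compl, Fintype.card_subtype_eq]

/-- The possible invariants at the standard vector in a small action. -/
theorem class_std (h : InnerSpace Q₁) (x : X) {r : ℕ}
    (hr : ∀ U : Submodule F ((F × F) × W₁), (∀ y ∈ U, hypAdd Q₁ y = 0) → finrank F U ≤ r)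
    (hP : ∀ a, 3 ≤ a → 2 * a ≤ Nat.card F ^ r →
      Nat.card X * ((a - 1) * (a - 2)) < Nat.card (pairSet Q₁) * a)
    (hn : ∀ c : F, c ≠ 0 → Nat.card X < 5 * Nat.card (levelSet Q₁ c))
    (hn' : ∀ c : F, c ≠ 0 → Nat.card X < Nat.card W₁ * Nat.card {s // hypAdd Q₁ s = c})
    (hbad : ∀ w ∈ Aof (hypAdd Q₁) x, hypAdd Q₁ w ≠ 0 → ¬ GoodVal Q₁ (hypAdd Q₁ w) →
      (∀ y ∈ Aof (hypAdd Q₁) x, ∃ t : F, y = t • w) ∨ Kof (hypAdd Q₁) x = ⊥) :
    Kof (hypAdd Q₁) x = ⊥ ∨ (∃ w, ∀ y ∈ Aof (hypAdd Q₁) x, ∃ t : F, y = t • w) ∨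
      ∃ U : Submodule F ((F × F) × W₁), finrank F U = r ∧ (∀ y ∈ U, hypAdd Q₁ y = 0) ∧
        Aof (hypAdd Q₁) x = U.toAddSubgroup := by
  by_cases hs : ∀ y ∈ Aof (hypAdd Q₁) x, hypAdd Q₁ y = 0
  · exact Or.inr (class_singular h x hs hr hP)
  push Not at hs
  obtain ⟨w, hw, hw0⟩ := hs
  have key : (∀ y ∈ Aof (hypAdd Q₁) x, ∃ t : F, y = t • w) ∨ Kof (hypAdd Q₁) x = ⊥ := by
    by_cases hg : GoodVal Q₁ (hypAdd Q₁ w)
    · exact class_nonsingular h x hw0 hw hg (hn _ hw0) (hn' _ hw0)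
    · exact hbad w hw hw0 hg
  rcases key with k | k
  · exact Or.inr (Or.inl ⟨w, k⟩)
  · exact Or.inl k

end Cfsg.Agent.MinIndex
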