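/-
Moves carrying a standard vector, or a standard pair of orthogonal singular vectors, to given ones.
-/
import Mathlib
import Cfsg.Prelude.Def_Classical
import Cfsg.Agent.Classical.OrthBasic
import Cfsg.Agent.Classical.OrthEichler
import Cfsg.Agent.Classical.OrthSimple
import Cfsg.Agent.MinIndex.OrthStd
import Cfsg.Agent.MinIndex.OrthTools
import Cfsg.Agent.MinIndex.OrthMoves

set_option autoImplicit false

namespace Cfsg.Agent.MinIndex

open QuadraticMap Cfsg.Agent.Classical Module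

universe u w

variable {F : Type u} [Field F] {W₁ : Type w} [AddCommGroup W₁] [Module F W₁]
  {Q₁ : QuadraticForm F W₁}

/-- The standard vector of value `c` of the inner plane. -/
abbrev w0 (W₁ : Type w) [AddCommGroup W₁] (c : F) : (F × F) × W₁ := (((1 : F), c), (0 : W₁))

theorem hypAdd_w0 (c : F) : hypAdd Q₁ (w0 W₁ c) = c := by simp

/-- What is assumed of the inner space. -/
structure InnerSpace (Q₁ : QuadraticForm F W₁) : Prop where
  nondeg : BNondeg Q₁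
  three : 3 ≤ finrank F W₁
  pair : ∃ e f, IsPair Q₁ e f
  two : HasTwoPairs (hypAdd Q₁)

theorem InnerSpace.bNondeg (h : InnerSpace Q₁) : BNondeg (hypAdd Q₁) := bNondeg_hypAdd h.nondeg

/-- Scaling by the torus, composed with an inner isometry. -/
theorem exists_move_level (h : InnerSpace Q₁) {c₀ t : F} (hc₀ : c₀ ≠ 0) (ht : t ≠ 0)
    {s : (F × F) × W₁} (hs : hypAdd Q₁ s = t * t * c₀) :
    ∃ (g : EG (hypAdd Q₁)) (c : F) (r : OQ (hypAdd Q₁)),
      IsMove g c r ∧ c⁻¹ • r.1 (w0 W₁ c₀) = s := by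
  obtain ⟨e, f, he, hf, hef⟩ := h.pair
  set x : (F × F) × W₁ := ((0, 0), e - f) with hx'
  set y : (F × F) × W₁ := ((0, 0), e - t⁻¹ • f) with hy'
  have hx : hypAdd Q₁ x = -1 := by simp [hx', qf_sub, he, hf, hef]
  have hy : hypAdd Q₁ y = -t⁻¹ := by
    simp [hy', qf_sub, he, hf, hef, QuadraticMap.map_smul, polar_smul_right]
  obtain ⟨g, hx0, hy0, hu, -, hw⟩ :=
    exists_torus_elt h.bNondeg h.two (inv_ne_zero ht) hx hy
  have hfix : (reflQ (hypAdd Q₁) x hx0 * reflQ (hypAdd Q₁) y hy0).1 (w0 W₁ c₀) = w0 W₁ c₀ := by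
    rw [Subgroup.coe_mul, LinearEquiv.mul_apply, OrthGen.reflQ_fix _ hy0 (by simp [hy']),
      OrthGen.reflQ_fix _ hx0 (by simp [hx'])]
  have hval : hypAdd Q₁ (t • w0 W₁ c₀) = hypAdd Q₁ s := by
    rw [QuadraticMap.map_smul, hypAdd_w0, hs, smul_eq_mul]
  obtain ⟨l, hl, hls⟩ := EQ_transitive_level h.bNondeg h.two hval
    (by rw [QuadraticMap.map_smul, hypAdd_w0, smul_eq_mul]; exact mul_ne_zero (mul_ne_zero ht ht) hc₀)
  refine ⟨lift _ ⟨l, hl⟩ * g, t⁻¹ * 1, l * (reflQ _ x hx0 * reflQ _ y hy0),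
    (isMove_lift ⟨l, hl⟩).mul ⟨inv_ne_zero ht, hu, hw⟩, ?_⟩
  rw [mul_one, inv_inv, Subgroup.coe_mul, LinearEquiv.mul_apply, hfix, ← map_smul, hls]

/-- Every pair of independent orthogonal singular vectors comes from a standard one. -/
theorem exists_move_pair [FiniteDimensional F W₁] (h : InnerSpace Q₁) {z₁ : W₁} (hz₁ : z₁ ≠ 0)
    (hz₁0 : Q₁ z₁ = 0) {s t : (F × F) × W₁} (hs : s ≠ 0) (hs0 : hypAdd Q₁ s = 0)
    (ht0 : hypAdd Q₁ t = 0) (hst : polar (hypAdd Q₁) s t = 0) (hind : ∀ α : F, t ≠ α • s) :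
    ∃ (g : EG (hypAdd Q₁)) (c : F) (r : OQ (hypAdd Q₁)), IsMove g c r ∧
      c⁻¹ • r.1 (hE F W₁) = s ∧ c⁻¹ • r.1 ((0, 0), z₁) = t := by
  set R := hypAdd Q₁ with hR
  have hQn : QNondeg Q₁ := h.nondeg.qNondeg
  obtain ⟨l₁, hl₁, hl₁s⟩ := EQ_transitive_singular h.bNondeg.qNondeg h.two
    (isPair_hypAdd Q₁).ne_zero (isPair_hypAdd Q₁).1 hs hs0
  set t' := l₁.1.symm t with ht'
  have e1 : l₁.1 t' = t := by rw [ht', LinearEquiv.apply_symm_apply]
  have ht'0 : R t' = 0 := by rw [← OQ_map_app (Q := R) l₁, e1, ht0]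
  have hb : t'.1.2 = 0 := by
    have := hst
    rw [← hl₁s, ← e1, OQ_polar] at this
    simpa [hR] using this
  have hQt : Q₁ t'.2 = 0 := by simpa [hR, hb] using ht'0
  have ht2 : t'.2 ≠ 0 := by
    intro h2
    refine hind t'.1.1 ?_
    rw [← e1, ← hl₁s, ← map_smul]
    congr 1
    exact Prod.ext (Prod.ext (by simp) (by simp [hb])) (by simp [h2])
  obtain ⟨l₂, hl₂, d, hd, hd2⟩ := EQ_transitive_lines_three hQn h.three hz₁ hz₁0 ht2 hQt
  obtain ⟨y₀, hy₀⟩ := exists_polar_one hQn ht2 hQt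
  -- an inner translation adding a multiple of the first standard vector
  have ha : polar R (hE F W₁) ((0, 0), (-t'.1.1) • y₀) = 0 := by simp [hR]
  set l₃ := siegel R (hE_singular Q₁) ha
  have h3t : l₃.1 (((0, 0), t'.2) : (F × F) × W₁) = t' := by
    rw [siegel_apply]
    refine Prod.ext (Prod.ext ?_ ?_) ?_ <;>
      simp [hR, hb, polar_comm Q₁ y₀ t'.2, hy₀]
  have h3e : l₃.1 (hE F W₁) = hE F W₁ := siegel_fix R _ ha (by simp [hR]) (by simp [hR])
  -- scaling fixing the first standard vector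
  set x : (F × F) × W₁ := hX W₁ (1 : F)
  set y : (F × F) × W₁ := hX W₁ d
  obtain ⟨g, hx0, hy0, hu, -, hw⟩ := exists_torus_elt h.bNondeg h.two hd (x := x) (y := y)
    (by simp [x]) (by simp [y])
  set r₀ := reflQ R x hx0 * reflQ R y hy0 with hr₀
  have hr : r₀ = torusQ Q₁ (Units.mk0 d hd) := by
    rw [hr₀, ← reflQ_mul_eq_torusQ Q₁ (Units.mk0 d hd) hx0 hy0]
    rfl
  set l := l₁ * (l₃ * hypLift Q₁ l₂) with hl
  have hlm : l ∈ EQ R := mul_mem hl₁ (mul_mem (siegel_mem_EQ _ _ _) (EQ_hypLift_mem hl₂))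
  have r0e : r₀.1 (hE F W₁) = d • hE F W₁ := by rw [hr]; ext <;> simp
  have r0z : r₀.1 (((0, 0), z₁) : (F × F) × W₁) = ((0, 0), z₁) := by rw [hr]; ext <;> simp
  refine ⟨lift _ ⟨l, hlm⟩ * g, d * 1, l * r₀, (isMove_lift ⟨l, hlm⟩).mul ⟨hd, hu, hw⟩, ?_, ?_⟩
  · rw [mul_one, Subgroup.coe_mul, LinearEquiv.mul_apply, r0e, map_smul, smul_smul,
      inv_mul_cancel₀ hd, one_smul, hl]
    simp only [Subgroup.coe_mul, LinearEquiv.mul_apply, hypLift_apply, map_zero]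
    rw [show (((1 : F), (0 : F)), (0 : W₁)) = hE F W₁ from rfl, h3e, hl₁s]
  · rw [mul_one, Subgroup.coe_mul, LinearEquiv.mul_apply, r0z, hl]
    simp only [Subgroup.coe_mul, LinearEquiv.mul_apply, hypLift_apply]
    rw [hd2, ← map_smul, ← map_smul, Prod.smul_mk, Prod.smul_mk, smul_zero, smul_smul,
      inv_mul_cancel₀ hd, one_smul, h3t, e1]

end Cfsg.Agent.MinIndex
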