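/-
Fixed points of Eichler transformations at arbitrary singular vectors, and their translation to
the standard vector.
-/
import Mathlib
import Cfsg.Prelude.Def_Classical
import Cfsg.Agent.Classical.OrthBasic
import Cfsg.Agent.Classical.OrthEichler
import Cfsg.Agent.MinIndex.Duality
import Cfsg.Agent.MinIndex.Count
import Cfsg.Agent.MinIndex.OrthStd
import Cfsg.Agent.MinIndex.OrthMoves

set_option autoImplicit false

namespace Cfsg.Agent.MinIndex

open QuadraticMap Cfsg.Agent.Classical Module

universe u w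

variable {F : Type u} [Field F] {W : Type w} [AddCommGroup W] [Module F W] (Q : QuadraticForm F W)
  {X : Type*} [MulAction (EG Q) X]

/-- The Eichler transformation of `u` and `a` fixes `x`. -/
def RootFix (x : X) (u a : (F × F) × W) : Prop :=
  ∃ (hu : hypAdd Q u = 0) (ha : polar (hypAdd Q) u a = 0),
    (⟨siegel (hypAdd Q) hu ha, siegel_mem_EQ _ hu ha⟩ : EG Q) • x = x

/-- All transformations at `u` fix `x`. -/
def FullAt (x : X) (u : (F × F) × W) : Prop :=
  ∀ a, polar (hypAdd Q) u a = 0 → RootFix Q x u a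

/-- No non-trivial transformation at `u` fixes `x`. -/
def RegularAt (x : X) (u : (F × F) × W) : Prop :=
  ∀ a, RootFix Q x u a → ∃ k : F, a = k • u

/-- The transformations at `u` of vectors orthogonal to `z` fix `x`. -/
def LineAt (x : X) (u z : (F × F) × W) : Prop :=
  polar (hypAdd Q) u z = 0 ∧ (∀ k : F, z ≠ k • u) ∧
    ∀ a, polar (hypAdd Q) u a = 0 → polar (hypAdd Q) z a = 0 → RootFix Q x u a

variable {Q}

theorem RootFix.orth {x : X} {u a : (F × F) × W} (h : RootFix Q x u a) :
    hypAdd Q u = 0 ∧ polar (hypAdd Q) u a = 0 := ⟨h.1, h.2.1⟩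

theorem rootFix_zero {x : X} {u : (F × F) × W} (hu : hypAdd Q u = 0) : RootFix Q x u 0 := by
  have h0 : polar (hypAdd Q) u 0 = 0 := polar_zero_right _ u
  refine ⟨hu, h0, ?_⟩
  have : (⟨siegel (hypAdd Q) hu h0, siegel_mem_EQ _ hu h0⟩ : EG Q) = 1 :=
    Subtype.ext (siegel_zero _ hu h0)
  rw [this, one_smul]

theorem RootFix.add {x : X} {u a b : (F × F) × W} (ha : RootFix Q x u a) (hb : RootFix Q x u b) :
    RootFix Q x u (a + b) := by
  obtain ⟨hu, h1, e1⟩ := ha
  obtain ⟨_, h2, e2⟩ := hb
  refine ⟨hu, by rw [polar_add_right, h1, h2, add_zero], ?_⟩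
  conv_rhs => rw [← e1, ← e2, ← mul_smul]
  congr 1
  exact Subtype.ext (siegel_mul _ hu h1 h2).symm

theorem RootFix.neg {x : X} {u a : (F × F) × W} (ha : RootFix Q x u a) :
    RootFix Q x u (-a) := by
  obtain ⟨hu, h1, e1⟩ := ha
  refine ⟨hu, by rw [polar_neg_right, h1, neg_zero], ?_⟩
  conv_lhs => rw [← e1]
  rw [← mul_smul]
  convert one_smul (EG Q) x using 2
  refine Subtype.ext ?_
  rw [Subgroup.coe_mul, Subgroup.coe_one, siegel_mul,
    siegel_congr _ _ _ hu (polar_zero_right _ u) rfl (neg_add_cancel a), siegel_zero]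

theorem rootFix_smul_left {x : X} {u a : (F × F) × W} {t : F} (ht : t ≠ 0) :
    RootFix Q x (t • u) a ↔ RootFix Q x u (t • a) := by
  constructor
  · rintro ⟨hu, ha, e⟩
    have hu' : hypAdd Q u = 0 := by
      rw [QuadraticMap.map_smul, smul_eq_mul] at hu
      exact (mul_eq_zero.1 hu).resolve_left (mul_ne_zero ht ht)
    have ha' : polar (hypAdd Q) u (t • a) = 0 := by
      rw [polar_smul_right, ← polar_smul_left]; exact ha
    refine ⟨hu', ha', ?_⟩
    convert e using 2
    exact Subtype.ext (siegel_smul_left _ t hu' (u := u) (a := a) (by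
      rw [polar_smul_left, smul_eq_mul] at ha
      exact (mul_eq_zero.1 ha).resolve_left ht) hu ha' ha).symm
  · rintro ⟨hu, ha, e⟩
    have hu' : hypAdd Q (t • u) = 0 := by rw [QuadraticMap.map_smul, hu, smul_zero]
    have ha0 : polar (hypAdd Q) u a = 0 := by
      rw [polar_smul_right, smul_eq_mul] at ha
      exact (mul_eq_zero.1 ha).resolve_left ht
    have ha' : polar (hypAdd Q) (t • u) a = 0 := by rw [polar_smul_left, ha0, smul_zero]
    refine ⟨hu', ha', ?_⟩
    convert e using 2
    exact Subtype.ext (siegel_smul_left _ t hu ha0 hu' ha ha')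

theorem rootFix_smul {g : EG Q} {x : X} {u a : (F × F) × W} (h : RootFix Q x u a) :
    RootFix Q (g • x) (g.1.1 u) (g.1.1 a) := by
  obtain ⟨hu, ha, e⟩ := h
  refine ⟨by rw [OQ_map_app, hu], by rw [OQ_polar, ha], ?_⟩
  conv_rhs => rw [← e]
  rw [← mul_smul, ← mul_smul]
  congr 1
  refine Subtype.ext ?_
  rw [Subgroup.coe_mul, Subgroup.coe_mul, ← mul_inv_eq_iff_eq_mul.1 (siegel_conj _ g.1 hu ha)]

theorem rootFix_smul_iff {g : EG Q} {x : X} {u a : (F × F) × W} :
    RootFix Q (g • x) (g.1.1 u) (g.1.1 a) ↔ RootFix Q x u a := by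
  refine ⟨fun h => ?_, rootFix_smul⟩
  have := rootFix_smul (g := g⁻¹) h
  rw [inv_smul_smul] at this
  simpa [Subgroup.coe_inv] using this

theorem RootFix.add_self {x : X} {u a : (F × F) × W} (k : F) (h : RootFix Q x u a) :
    RootFix Q x u (a + k • u) := by
  obtain ⟨hu, ha, e⟩ := h
  have huu : polar (hypAdd Q) u u = 0 := by rw [polar_self, hu, smul_zero]
  have h' : polar (hypAdd Q) u (a + k • u) = 0 := by
    rw [polar_add_right, polar_smul_right, ha, huu, smul_zero, add_zero]
  refine ⟨hu, h', ?_⟩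
  convert e using 2
  exact Subtype.ext (siegel_add_self _ k hu ha h')

/-- At the standard vector this is membership in `Kof`. -/
theorem rootFix_std {x : X} {a : (F × F) × W} :
    RootFix Q x (hE F W) a ↔ a.1.2 = 0 ∧ a.2 ∈ Kof Q x := by
  have key : ∀ (b : W), RootFix Q x (hE F W) ((0, 0), b) ↔ b ∈ Kof Q x := fun b =>
    ⟨fun ⟨_, _, e⟩ => e, fun h => ⟨hE_singular Q, hE_orth Q b, h⟩⟩
  constructor
  · intro h
    have h0 : a.1.2 = 0 := by simpa using h.orth.2
    refine ⟨h0, (key _).1 ?_⟩
    have := h.add_self (-a.1.1)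
    convert this using 1
    exact Prod.ext (Prod.ext (by simp) (by simp [h0])) (by simp)
  · rintro ⟨h0, hb⟩
    have := ((key _).2 hb).add_self a.1.1
    convert this using 1
    exact Prod.ext (Prod.ext (by simp) (by simp [h0])) (by simp)

/-- Moving an arbitrary singular vector to the standard one. -/
theorem exists_to_std (hQ : BNondeg Q) (h : HasTwoPairs Q) {u : (F × F) × W} (hu : u ≠ 0)
    (hu0 : hypAdd Q u = 0) : ∃ g : EG Q, g.1.1 u = hE F W := by
  have htwo : HasTwoPairs (hypAdd Q) := by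
    obtain ⟨e, f, _, _, hp⟩ := h
    exact ⟨_, _, _, _, hp.1.hypAdd⟩
  obtain ⟨g, hg, e⟩ := EQ_transitive_singular (bNondeg_hypAdd hQ).qNondeg htwo hu hu0
    (isPair_hypAdd Q).ne_zero (isPair_hypAdd Q).1
  exact ⟨⟨g, hg⟩, e⟩

/-- The classification at the standard vector, moved to `u`. -/
theorem at_vector [Finite F] [Finite W] (hQ : BNondeg Q) {x : X} {u : (F × F) × W} {g : EG Q}
    (hg : g.1.1 u = hE F W) :
    (Kof Q (g • x) = ⊥ → RegularAt Q x u) ∧
      (∀ w : W, (∀ y ∈ Aof Q (g • x), ∃ t : F, y = t • w) →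
        FullAt Q x u ∨ ∃ z, LineAt Q x u z) ∧
      (∀ z, polar (hypAdd Q) u z = 0 → (∀ a, polar (hypAdd Q) u a = 0 →
          polar (hypAdd Q) z a = 0 → RootFix Q x u a) →
        ∀ y ∈ Aof Q (g • x), ∃ t : F, y = t • (g.1.1 z).2) := by
  refine ⟨fun hbot a ha => ?_, fun w hw => ?_, fun z hz hfix y hy => ?_⟩
  · have := (rootFix_smul_iff (g := g)).2 ha
    rw [hg, rootFix_std, hbot, AddSubgroup.mem_bot] at this
    refine ⟨(g.1.1 a).1.1, g.1.1.injective ?_⟩
    rw [map_smul, hg]
    exact Prod.ext (Prod.ext (by simp) (by simp [this.1])) (by simp [this.2])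
  · have hperp : ∀ b, polar Q w b = 0 → b ∈ Kof Q (g • x) := fun b hb => by
      rw [← orthG_orthG _ (polarBilin_sep hQ) (polarBilin_symm Q) (Kof Q (g • x))]
      intro y hy
      obtain ⟨t, rfl⟩ := hw y hy
      simp [polar_smul_left, hb]
    by_cases hw0 : w = 0
    · refine Or.inl fun a ha => (rootFix_smul_iff (g := g)).1 ?_
      rw [hg, rootFix_std]
      refine ⟨?_, hperp _ (by simp [hw0])⟩
      have := OQ_polar g.1 u a
      rw [hg, ha] at this
      simpa using this
    · refine Or.inr ⟨g.1.1.symm ((0, 0), w), ?_, fun k hk => hw0 ?_, fun a ha hza => ?_⟩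
      · rw [← OQ_polar g.1, hg, LinearEquiv.apply_symm_apply]
        simp
      · have := congrArg g.1.1 hk
        rw [LinearEquiv.apply_symm_apply, map_smul, hg] at this
        simpa using congrArg Prod.snd this
      · refine (rootFix_smul_iff (g := g)).1 ?_
        rw [hg, rootFix_std]
        refine ⟨?_, hperp _ ?_⟩
        · have := OQ_polar g.1 u a
          rw [hg, ha] at this
          simpa using this
        · have := OQ_polar g.1 (g.1.1.symm ((0, 0), w)) a
          rw [hza, LinearEquiv.apply_symm_apply] at this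
          simpa using this
  · set z' := g.1.1 z with hz'
    have hz2 : z'.1.2 = 0 := by
      have := OQ_polar g.1 u z
      rw [hg, hz] at this
      simpa [hz'] using this
    let U : Submodule F W := Submodule.span F {z'.2}
    have hsub : orthG (polarBilin Q) U.toAddSubgroup ≤ Kof Q (g • x) := by
      intro b hb
      have hb0 : polar Q z'.2 b = 0 := mem_orthG_of_smul_mem (B := polarBilin Q)
        (fun c => U.smul_mem c (Submodule.mem_span_singleton_self _)) hb
      have h1 : RootFix Q x u (g.1.1.symm ((0, 0), b)) := by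
        refine hfix _ ?_ ?_
        · rw [← OQ_polar g.1, hg, LinearEquiv.apply_symm_apply]; simp
        · rw [← OQ_polar g.1, LinearEquiv.apply_symm_apply, ← hz']; simp [hz2, hb0]
      have := (rootFix_smul_iff (g := g)).2 h1
      rw [hg, LinearEquiv.apply_symm_apply, rootFix_std] at this
      exact this.2
    have h2 := orthG_le hsub hy
    rw [orthG_orthG _ (polarBilin_sep hQ) (polarBilin_symm Q)] at h2
    obtain ⟨t, ht⟩ := Submodule.mem_span_singleton.1 h2
    exact ⟨t, ht.symm⟩

end Cfsg.Agent.MinIndex
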