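/-
A point fixed by all transformations at one singular vector has a large orbit.
-/
import Mathlib
import Cfsg.Prelude.Def_Classical
import Cfsg.Agent.Classical.OrthBasic
import Cfsg.Agent.Classical.OrthEichler
import Cfsg.Agent.Classical.OrthSimple
import Cfsg.Agent.MinIndex.OrthStd
import Cfsg.Agent.MinIndex.OrthMoves
import Cfsg.Agent.MinIndex.OrthOrbits
import Cfsg.Agent.MinIndex.OrthClass
import Cfsg.Agent.MinIndex.OrthRoot

set_option autoImplicit false

namespace Cfsg.Agent.MinIndex

open QuadraticMap Cfsg.Agent.Classical Module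

universe u w v

variable {F : Type u} [Field F] {W : Type w} [AddCommGroup W] [Module F W] {Q : QuadraticForm F W}
  {X : Type v} [MulAction (EG Q) X]

theorem FullAt.smul_vec {x : X} {u : (F × F) × W} (hf : FullAt Q x u) {t : F} (ht : t ≠ 0) :
    FullAt Q x (t • u) := fun a ha => by
  rw [rootFix_smul_left ht]
  refine hf _ ?_
  rw [polar_smul_right, ← polar_smul_left]
  exact ha

theorem FullAt.map {x : X} {u : (F × F) × W} (hf : FullAt Q x u) {g : EG Q} (hg : g • x = x) :
    FullAt Q x (g.1.1 u) := fun a ha => by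
  have h := rootFix_smul (g := g) (hf (g.1.1.symm a) (by
    rw [← OQ_polar g.1, LinearEquiv.apply_symm_apply]; exact ha))
  rwa [hg, LinearEquiv.apply_symm_apply] at h

/-- Full at two non-orthogonal vectors means fixed by everything. -/
theorem full_nonorth (hQ : BNondeg Q) (h2 : HasTwoPairs Q) {x : X} {u v : (F × F) × W}
    (hu : hypAdd Q u = 0) (hv : hypAdd Q v = 0) (hfu : FullAt Q x u) (hfv : FullAt Q x v)
    (huv : polar (hypAdd Q) v u ≠ 0) : ∀ g : EG Q, g • x = x := by
  have htwo : HasTwoPairs (hypAdd Q) := by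
    obtain ⟨e, f, _, _, hp⟩ := h2
    exact ⟨_, _, _, _, hp.1.hypAdd⟩
  have step : ∀ {a b z : (F × F) × W}, hypAdd Q a = 0 → hypAdd Q b = 0 → FullAt Q x a →
      FullAt Q x b → polar (hypAdd Q) b a ≠ 0 → hypAdd Q z = 0 → polar (hypAdd Q) b z ≠ 0 →
      FullAt Q x z := by
    intro a b z ha hb hfa hfb hba hz hbz
    obtain ⟨hd, -, hg⟩ := siegel_move hb (y := (polar (hypAdd Q) b a)⁻¹ • a)
      (z := (polar (hypAdd Q) b z)⁻¹ • z)
      (by simp only [QuadraticMap.map_smul, ha, hz, smul_zero])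
      (by rw [polar_smul_right, smul_eq_mul, inv_mul_cancel₀ hba])
      (by rw [polar_smul_right, smul_eq_mul, inv_mul_cancel₀ hbz])
    obtain ⟨_, _, e⟩ := hfb _ hd
    have h1 := ((hfa.smul_vec (inv_ne_zero hba)).map e).smul_vec hbz
    rw [hg, smul_smul, mul_inv_cancel₀ hbz, one_smul] at h1
    exact h1
  have hv0 : v ≠ 0 := by
    intro h0
    rw [h0, polar_zero_left] at huv
    exact huv rfl
  have hall : ∀ z, z ≠ 0 → hypAdd Q z = 0 → FullAt Q x z := by
    intro z hz hz0
    by_cases hvz : polar (hypAdd Q) v z = 0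
    · obtain ⟨y, hy, h1, h2'⟩ :=
        exists_singular_not_orth' (bNondeg_hypAdd hQ).qNondeg htwo hv0 hv hz hz0
      have hy' := step hu hv hfu hfv huv hy h1
      exact step hv hy hfv hy' (by rw [polar_comm]; exact h1) hz0 (by rw [polar_comm]; exact h2')
    · exact step hu hv hfu hfv huv hz0 hvz
  rintro ⟨g, hg⟩
  have key : ∀ g (hg : g ∈ EQ (hypAdd Q)), (⟨g, hg⟩ : EG Q) • x = x := by
    intro g hg
    induction hg using Subgroup.closure_induction with
    | mem g hg =>
      obtain ⟨a, b, ha, hab, rfl⟩ := hg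
      rcases eq_or_ne a 0 with rfl | ha0
      · have : siegel (hypAdd Q) ha hab = 1 := by ext p <;> simp
        convert one_smul (EG Q) x using 2
        exact Subtype.ext this
      · exact (hall a ha0 ha b hab).2.2
    | one => exact one_smul (EG Q) x
    | mul a b ha hb iha ihb =>
      conv_rhs => rw [← iha, ← ihb, ← mul_smul]
      rfl
    | inv a ha iha =>
      conv_lhs => rw [← iha, ← mul_smul]
      convert one_smul (EG Q) x using 2
      exact Subtype.ext (inv_mul_cancel a)
  exact key g hg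

section Count

variable [Finite F] [Finite W]

/-- Independent, pairwise orthogonal singular tuples. -/
def singTuples (R : QuadraticForm F ((F × F) × W)) (k : ℕ) : Set (Fin k → (F × F) × W) :=
  {p | LinearIndependent F p ∧ (∀ i, R (p i) = 0) ∧ ∀ i j, polar R (p i) (p j) = 0}

set_option maxHeartbeats 1000000 in
/-- The translates of an invariant subspace take up many points. -/
theorem count_translates [Finite X] {x : X} (T₀ : Submodule F ((F × F) × W))
    (hstab : ∀ g : EG Q, g • x = x → ∀ a ∈ T₀, g.1.1 a ∈ T₀) {k : ℕ} (hk : k ≤ finrank F T₀)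
    (base : Fin k → (F × F) × W) (hb : LinearIndependent F base)
    (htr : ∀ p ∈ singTuples (hypAdd Q) k, ∃ g : EG Q, ∀ i,
      g.1.1 (base i) ∈ Submodule.span F (Set.range p))
    (hT : ∀ a ∈ T₀, hypAdd Q a = 0) :
    Nat.card (singTuples (hypAdd Q) k) ≤ Nat.card X *
      ∏ i : Fin k, (Nat.card F ^ finrank F T₀ - Nat.card F ^ i.val) := by
  classical
  have : Fintype F := Fintype.ofFinite F
  have : Fintype X := Fintype.ofFinite X
  -- the reference tuple
  let p₀ : Fin k → (F × F) × W := fun i => (Module.finBasis F T₀ (Fin.castLE hk i) : (F × F) × W)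
  have hp₀ : p₀ ∈ singTuples (hypAdd Q) k := by
    refine ⟨?_, fun i => hT _ (Submodule.coe_mem _), fun i j => ?_⟩
    · exact ((Module.finBasis F T₀).linearIndependent.comp _ (Fin.castLE_injective hk)).map'
        T₀.subtype (Submodule.ker_subtype _)
    · rw [polar, hT _ (T₀.add_mem (Submodule.coe_mem _) (Submodule.coe_mem _)),
        hT _ (Submodule.coe_mem _), hT _ (Submodule.coe_mem _), sub_zero, sub_zero]
  obtain ⟨g₀, hg₀⟩ := htr p₀ hp₀
  have hspan : Submodule.span F (Set.range p₀) ≤ T₀ := by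
    rw [Submodule.span_le]
    rintro _ ⟨i, rfl⟩
    exact Submodule.coe_mem _
  choose g hg using htr
  -- every tuple lies in a translate
  have hin : ∀ p (hp : p ∈ singTuples (hypAdd Q) k) (i : Fin k),
      g₀.1.1 ((g p hp).1.1.symm (p i)) ∈ T₀ := by
    intro p hp i
    have hle : Submodule.span F (Set.range ((g p hp).1.1 ∘ base)) ≤
        Submodule.span F (Set.range p) := by
      rw [Submodule.span_le]
      rintro _ ⟨j, rfl⟩
      exact hg p hp j
    have hgb : LinearIndependent F ((g p hp).1.1 ∘ base) :=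
      hb.map' (g p hp).1.1.toLinearMap (LinearEquiv.ker _)
    have heq := Submodule.eq_of_le_of_finrank_eq hle (by
      rw [finrank_span_eq_card hp.1, finrank_span_eq_card hgb])
    have hmem : p i ∈ Submodule.span F (Set.range ((g p hp).1.1 ∘ base)) := by
      rw [heq]; exact Submodule.subset_span (Set.mem_range_self i)
    rw [Set.range_comp, ← LinearEquiv.coe_coe, Submodule.span_image] at hmem
    obtain ⟨b, hb', hbe⟩ := hmem
    rw [← hbe, LinearEquiv.coe_coe, LinearEquiv.symm_apply_apply]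
    refine hspan ?_
    clear hbe
    induction hb' using Submodule.span_induction with
    | mem c hc => obtain ⟨j, rfl⟩ := hc; exact hg₀ j
    | zero => rw [map_zero]; exact zero_mem _
    | add c d _ _ hc hd => rw [map_add]; exact add_mem hc hd
    | smul t c _ hc => rw [map_smul]; exact Submodule.smul_mem _ _ hc
  obtain ⟨γ, hγdef⟩ : ∃ γ : ∀ p, p ∈ singTuples (hypAdd Q) k → EG Q,
      ∀ p hp, γ p hp = g p hp * g₀⁻¹ := ⟨fun p hp => g p hp * g₀⁻¹, fun _ _ => rfl⟩
  have hγ : ∀ p (hp : p ∈ singTuples (hypAdd Q) k) (v : (F × F) × W),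
      (γ p hp).1.1.symm v = g₀.1.1 ((g p hp).1.1.symm v) := by
    intro p hp v
    apply (γ p hp).1.1.injective
    rw [LinearEquiv.apply_symm_apply]
    simp only [hγdef, Subgroup.coe_mul, Subgroup.coe_inv, LinearEquiv.mul_apply]
    rw [show (g₀.1.1)⁻¹ (g₀.1.1 _) = _ from g₀.1.1.symm_apply_apply _,
      LinearEquiv.apply_symm_apply]
  let φ : singTuples (hypAdd Q) k → X := fun p => γ p.1 p.2 • x
  have hfib : ∀ y : X, Nat.card {p // φ p = y} ≤
      ∏ i : Fin k, (Nat.card F ^ finrank F T₀ - Nat.card F ^ i.val) := by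
    intro y
    by_cases hy : ∃ p₁, φ p₁ = y
    swap
    · have : IsEmpty {p // φ p = y} := ⟨fun p => hy ⟨p.1, p.2⟩⟩
      simp
    obtain ⟨p₁, hp₁⟩ := hy
    have hmemT : ∀ p : {p // φ p = y}, ∀ i, (γ p₁.1 p₁.2).1.1.symm (p.1.1 i) ∈ T₀ := by
      rintro ⟨p, hp⟩ i
      have h1 : ((γ p₁.1 p₁.2)⁻¹ * γ p.1 p.2) • x = x := by
        rw [mul_smul, inv_smul_eq_iff]
        exact hp.trans hp₁.symm
      have h2 := hstab _ h1 _ (show (γ p.1 p.2).1.1.symm (p.1 i) ∈ T₀ by
        rw [hγ]; exact hin p.1 p.2 i)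
      rwa [Subgroup.coe_mul, Subgroup.coe_mul, LinearEquiv.mul_apply,
        LinearEquiv.apply_symm_apply] at h2
    obtain ⟨e, he⟩ : ∃ e : ((F × F) × W) ≃ₗ[F] (F × F) × W, e = (γ p₁.1 p₁.2).1.1.symm := ⟨_, rfl⟩
    have hmemT' : ∀ p : {p // φ p = y}, ∀ i, e (p.1.1 i) ∈ T₀ := he ▸ hmemT
    have hind : ∀ p : {p // φ p = y},
        LinearIndependent F (fun i => (⟨e (p.1.1 i), hmemT' p i⟩ : T₀)) := fun p =>
      LinearIndependent.of_comp T₀.subtype (p.1.2.1.map' e.toLinearMap (LinearEquiv.ker e))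
    let ψ : {p // φ p = y} → {s : Fin k → T₀ // LinearIndependent F s} := fun p => ⟨_, hind p⟩
    have hψ : Function.Injective ψ := fun p p' he' => Subtype.ext (Subtype.ext (funext fun i =>
      e.injective (congrArg Subtype.val (congrFun (congrArg Subtype.val he') i))))
    have : Fintype T₀ := Fintype.ofFinite _
    refine (Nat.card_le_card_of_injective ψ hψ).trans (le_of_eq ?_)
    rw [card_linearIndependent hk]
    simp only [Nat.card_eq_fintype_card]
  calc Nat.card (singTuples (hypAdd Q) k) = Nat.card (Σ y : X, {p // φ p = y}) :=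
        (Nat.card_congr (Equiv.sigmaFiberEquiv φ)).symm
    _ = ∑ y : X, Nat.card {p // φ p = y} := Nat.card_sigma
    _ ≤ _ := by
        refine (Finset.sum_le_sum fun y _ => hfib y).trans (le_of_eq ?_)
        simp [Nat.card_eq_fintype_card]

/-- The singular non-zero vectors. -/
abbrev sing1 {V : Type*} [AddCommGroup V] [Module F V] (R : QuadraticForm F V) : Set V :=
  {z | z ≠ 0 ∧ R z = 0}

theorem card_sing1_le_tuples (R : QuadraticForm F ((F × F) × W)) :
    Nat.card (sing1 R) ≤ Nat.card (singTuples R 1) :=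
  Nat.card_le_card_of_injective (fun z : sing1 R => (⟨![z.1], by
      refine ⟨?_, fun i => ?_, fun i j => ?_⟩
      · rw [linearIndependent_unique_iff]
        exact z.2.1
      · simpa using z.2.2
      · simp [z.2.2, polar_self]⟩ : singTuples R 1))
    fun z z' he => Subtype.ext (congrFun (congrArg Subtype.val he) 0)

/-- A lifted pair to a vector. -/
theorem polar_hE_cases (a b : (F × F) × W) (ha : a.1.2 = 0) (hb : b.1.2 = 0) :
    polar (hypAdd Q) a b = polar Q a.2 b.2 := by
  simp [ha, hb]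

theorem card_pairs_lower (hQ : BNondeg Q) (h2 : HasTwoPairs Q) :
    Nat.card (sing1 (hypAdd Q)) * Nat.card F * Nat.card (sing1 Q) ≤
      Nat.card (singTuples (hypAdd Q) 2) := by
  choose g hg using fun s : sing1 (hypAdd Q) => exists_to_std hQ h2 s.2.1 s.2.2
  rw [← Nat.card_prod, ← Nat.card_prod]
  refine Nat.card_le_card_of_injective (fun p : (sing1 (hypAdd Q) × F) × sing1 Q =>
    (⟨(g p.1.1).1.1.symm ∘ ![hE F W, ((p.1.2, 0), p.2.1)], ?_⟩ : singTuples (hypAdd Q) 2)) ?_
  · refine ⟨?_, fun i => ?_, fun i j => ?_⟩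
    · refine LinearIndependent.map' ?_ _ (LinearEquiv.ker (g p.1.1).1.1.symm)
      rw [LinearIndependent.pair_iff]
      intro s t hst
      have h1 := congrArg Prod.snd hst
      have h3 := congrArg (fun v : (F × F) × W => v.1.1) hst
      simp [p.2.2.1] at h1
      subst h1
      simpa using h3
    · rw [Function.comp_apply, ← OQ_map_app (g p.1.1).1, LinearEquiv.apply_symm_apply]
      fin_cases i <;> simp [p.2.2.2]
    · rw [Function.comp_apply, Function.comp_apply, ← OQ_polar (g p.1.1).1,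
        LinearEquiv.apply_symm_apply, LinearEquiv.apply_symm_apply]
      fin_cases i <;> fin_cases j <;> simp [polar_self, p.2.2.2]
  · rintro ⟨⟨s, t⟩, z⟩ ⟨⟨s', t'⟩, z'⟩ he
    have he' := congrArg Subtype.val he
    have h0 : (g s).1.1.symm (hE F W) = (g s').1.1.symm (hE F W) := congrFun he' 0
    rw [← hg s, LinearEquiv.symm_apply_apply, hg s, ← hg s', LinearEquiv.symm_apply_apply] at h0
    obtain rfl : s = s' := Subtype.ext h0
    have h1 := (g s).1.1.symm.injective (congrFun he' 1)
    simp at h1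
    obtain ⟨rfl, h1⟩ := h1
    exact Prod.ext rfl (Subtype.ext h1)

end Count

section Inner

variable {W₁ : Type w} [AddCommGroup W₁] [Module F W₁] [Finite F] [Finite W₁]
  {Q₁ : QuadraticForm F W₁} {Y : Type v} [MulAction (EG (hypAdd Q₁)) Y] [Finite Y]

theorem card_triples_lower (h : InnerSpace Q₁) :
    Nat.card (sing1 (hypAdd (hypAdd Q₁))) * (Nat.card F * Nat.card F) * Nat.card (pairSet Q₁) ≤
      Nat.card (singTuples (hypAdd (hypAdd Q₁)) 3) := by
  choose g hg using fun s : sing1 (hypAdd (hypAdd Q₁)) =>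
    exists_to_std h.bNondeg h.two s.2.1 s.2.2
  rw [← Nat.card_prod, ← Nat.card_prod, ← Nat.card_prod]
  refine Nat.card_le_card_of_injective
    (fun p : (sing1 (hypAdd (hypAdd Q₁)) × (F × F)) × pairSet Q₁ =>
    (⟨(g p.1.1).1.1.symm ∘ ![hE F ((F × F) × W₁), ((p.1.2.1, 0), p.2.1.1),
      ((p.1.2.2, 0), p.2.1.2)], ?_⟩ : singTuples (hypAdd (hypAdd Q₁)) 3)) ?_
  · obtain ⟨hp1, hp2, hp3, hp4, hp5⟩ := p.2.2
    refine ⟨?_, fun i => ?_, fun i j => ?_⟩
    · refine LinearIndependent.map' ?_ _ (LinearEquiv.ker (g p.1.1).1.1.symm)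
      rw [Fintype.linearIndependent_iff]
      intro c hc
      have h1 := congrArg Prod.snd hc
      have h3 := congrArg (fun v : (F × F) × ((F × F) × W₁) => v.1.1) hc
      simp [Fin.sum_univ_three] at h1 h3
      have h2' : c 2 = 0 := by
        by_contra hne
        refine hp5 (-(c 2)⁻¹ * c 1) ?_
        rw [mul_smul, neg_smul, eq_neg_of_add_eq_zero_left h1, smul_neg, neg_neg, smul_smul,
          inv_mul_cancel₀ hne, one_smul]
      rw [h2', zero_smul, add_zero, smul_eq_zero] at h1
      have h1' := h1.resolve_right hp1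
      intro i
      fin_cases i
      · simpa [h1', h2'] using h3
      · exact h1'
      · exact h2'
    · rw [Function.comp_apply, ← OQ_map_app (g p.1.1).1, LinearEquiv.apply_symm_apply]
      fin_cases i <;> simp only [Fin.zero_eta, Fin.mk_one, Fin.reduceFinMk, Matrix.cons_val_zero,
        Matrix.cons_val_one, Matrix.cons_val]
      · exact hE_singular _
      · rw [hypAdd_apply, hp2]; simp
      · rw [hypAdd_apply, hp3]; simp
    · rw [Function.comp_apply, Function.comp_apply, ← OQ_polar (g p.1.1).1,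
        LinearEquiv.apply_symm_apply, LinearEquiv.apply_symm_apply]
      rw [polar_hE_cases _ _ (by fin_cases i <;> rfl) (by fin_cases j <;> rfl)]
      fin_cases i <;> fin_cases j <;> simp only [Fin.zero_eta, Fin.mk_one, Fin.reduceFinMk,
        Matrix.cons_val_zero, Matrix.cons_val_one, Matrix.cons_val, polar_zero_left,
        polar_zero_right, polar_self, hp2, hp3, hp4, smul_zero,
        polar_comm (hypAdd Q₁) p.2.1.2 p.2.1.1, QuadraticMap.map_zero]
  · rintro ⟨⟨s, t1, t2⟩, z⟩ ⟨⟨s', t1', t2'⟩, z'⟩ he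
    have he' := congrArg Subtype.val he
    have h0 : (g s).1.1.symm (hE F ((F × F) × W₁)) = (g s').1.1.symm (hE F ((F × F) × W₁)) :=
      congrFun he' 0
    rw [← hg s, LinearEquiv.symm_apply_apply, hg s, ← hg s', LinearEquiv.symm_apply_apply] at h0
    obtain rfl : s = s' := Subtype.ext h0
    have h1 : (((t1, (0 : F)), z.1.1) : (F × F) × ((F × F) × W₁)) = ((t1', 0), z'.1.1) :=
      (g s).1.1.symm.injective (congrFun he' 1)
    have h2 : (((t2, (0 : F)), z.1.2) : (F × F) × ((F × F) × W₁)) = ((t2', 0), z'.1.2) :=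
      (g s).1.1.symm.injective (congrFun he' 2)
    rw [Prod.ext_iff, Prod.ext_iff] at h1 h2
    exact Prod.ext (Prod.ext rfl (Prod.ext h1.1.1 h2.1.1)) (Subtype.ext (Prod.ext h1.2 h2.2))

omit [Finite W₁] in
/-- No point is fixed by all transformations at one singular vector, in a small action. -/
theorem full_absurd [FiniteDimensional F W₁] [Finite W₁] (h : InnerSpace Q₁) {r : ℕ}
    (hfix : ∀ y : Y, ∃ g : EG (hypAdd Q₁), g • y ≠ y)
    (hrV : ∀ U : Submodule F ((F × F) × ((F × F) × W₁)),
      (∀ y ∈ U, hypAdd (hypAdd Q₁) y = 0) → finrank F U ≤ r + 1)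
    (H1 : Nat.card Y * (Nat.card F - 1) < Nat.card (sing1 (hypAdd (hypAdd Q₁))))
    (H2 : Nat.card Y * ((Nat.card F ^ 2 - 1) * (Nat.card F ^ 2 - Nat.card F)) <
      Nat.card (sing1 (hypAdd (hypAdd Q₁))) * Nat.card F * Nat.card (sing1 (hypAdd Q₁)))
    (H3 : ∀ j, 3 ≤ j → j ≤ r + 1 → Nat.card Y * ((Nat.card F ^ j - 1) *
        (Nat.card F ^ j - Nat.card F) * (Nat.card F ^ j - Nat.card F ^ 2)) <
      Nat.card (sing1 (hypAdd (hypAdd Q₁))) * (Nat.card F * Nat.card F) * Nat.card (pairSet Q₁))
    (x : Y) {u : (F × F) × ((F × F) × W₁)} (hu : u ≠ 0) (hu0 : hypAdd (hypAdd Q₁) u = 0) :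
    ¬ FullAt (hypAdd Q₁) x u := by
  intro hfull
  let S : Set ((F × F) × ((F × F) × W₁)) :=
    {v | hypAdd (hypAdd Q₁) v = 0 ∧ FullAt (hypAdd Q₁) x v}
  have horth : ∀ a ∈ S, ∀ b ∈ S, polar (hypAdd (hypAdd Q₁)) a b = 0 := by
    intro a ha b hb
    by_contra hab
    obtain ⟨g, hg⟩ := hfix x
    exact hg (full_nonorth h.bNondeg h.two hb.1 ha.1 hb.2 ha.2 hab g)
  set T₀ := Submodule.span F S with hT₀
  have hsing : ∀ a ∈ T₀, hypAdd (hypAdd Q₁) a = 0 ∧
      ∀ b ∈ S, polar (hypAdd (hypAdd Q₁)) a b = 0 := by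
    intro a ha
    induction ha using Submodule.span_induction with
    | mem c hc => exact ⟨hc.1, horth c hc⟩
    | zero => exact ⟨QuadraticMap.map_zero _, fun b _ => polar_zero_left _ b⟩
    | add c d hc' hd' hc hd =>
      refine ⟨?_, fun b hb => by rw [polar_add_left, hc.2 b hb, hd.2 b hb, add_zero]⟩
      have hcd : polar (hypAdd (hypAdd Q₁)) c d = 0 := by
        clear hd
        induction hd' using Submodule.span_induction with
        | mem e he => exact hc.2 e he
        | zero => exact polar_zero_right _ c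
        | add e e' _ _ he he' => rw [polar_add_right, he, he', add_zero]
        | smul t e _ he => rw [polar_smul_right, he, smul_zero]
      rw [qf_add, hc.1, hd.1, hcd, add_zero, add_zero]
    | smul t c _ hc =>
      exact ⟨by rw [QuadraticMap.map_smul, hc.1, smul_zero],
        fun b hb => by rw [polar_smul_left, hc.2 b hb, smul_zero]⟩
  have hstab : ∀ g : EG (hypAdd Q₁), g • x = x → ∀ a ∈ T₀, g.1.1 a ∈ T₀ := by
    intro g hg a ha
    induction ha using Submodule.span_induction with
    | mem c hc => exact Submodule.subset_span ⟨by rw [OQ_map_app, hc.1], hc.2.map hg⟩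
    | zero => rw [map_zero]; exact zero_mem _
    | add c d _ _ hc hd => rw [map_add]; exact add_mem hc hd
    | smul t c _ hc => rw [map_smul]; exact Submodule.smul_mem _ _ hc
  have huT : u ∈ T₀ := Submodule.subset_span ⟨hu0, hfull⟩
  have hj1 : 1 ≤ finrank F T₀ := Submodule.one_le_finrank_iff.2 fun h0 => hu (by
    rw [h0] at huT; exact (Submodule.mem_bot F).1 huT)
  have hjr := hrV T₀ fun a ha => (hsing a ha).1
  obtain ⟨e, f, he, -, hef⟩ := h.pair
  have he0 : e ≠ 0 := by rintro rfl; simp at hef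
  set V₀ := hE F ((F × F) × W₁)
  set V₁ : (F × F) × ((F × F) × W₁) := ((0, 0), hE F W₁)
  set V₂ : (F × F) × ((F × F) × W₁) := ((0, 0), ((0, 0), e))
  -- writing a vector orthogonal to `s` through an element carrying the standard one to `s`
  have hcoord : ∀ {s t : (F × F) × ((F × F) × W₁)} {g₁ : EG (hypAdd Q₁)}, g₁.1.1 s = V₀ →
      hypAdd (hypAdd Q₁) t = 0 → polar (hypAdd (hypAdd Q₁)) s t = 0 →
      (g₁.1.1 t).1.2 = 0 ∧ hypAdd Q₁ (g₁.1.1 t).2 = 0 ∧
      g₁.1.1.symm ((0, 0), (g₁.1.1 t).2) = t - (g₁.1.1 t).1.1 • s := by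
    intro s t g₁ hs ht hst
    have h1 : (g₁.1.1 t).1.2 = 0 := by
      have := OQ_polar g₁.1 s t
      rw [hs, hst] at this
      simpa [V₀] using this
    refine ⟨h1, ?_, ?_⟩
    · have := OQ_map_app (Q := hypAdd (hypAdd Q₁)) g₁.1 t
      rw [ht, hypAdd_apply, h1] at this
      simpa using this
    · apply g₁.1.1.injective
      rw [LinearEquiv.apply_symm_apply, map_sub, map_smul, hs]
      refine Prod.ext (Prod.ext ?_ ?_) ?_ <;> simp [V₀, h1]
  by_cases hj : finrank F T₀ = 1
  · have htr : ∀ p ∈ singTuples (hypAdd (hypAdd Q₁)) 1, ∃ g : EG (hypAdd Q₁), ∀ i,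
        g.1.1 (![V₀] i) ∈ Submodule.span F (Set.range p) := by
      intro p hp
      obtain ⟨g₁, hg₁⟩ := exists_to_std h.bNondeg h.two (hp.1.ne_zero 0) (hp.2.1 0)
      refine ⟨g₁⁻¹, fun i => ?_⟩
      refine Submodule.subset_span ⟨0, ?_⟩
      fin_cases i
      apply g₁.1.1.injective
      rw [← LinearEquiv.mul_apply, ← Subgroup.coe_mul, ← Subgroup.coe_mul, mul_inv_cancel]
      simpa using hg₁
    have hli : LinearIndependent F ![V₀] := by
      rw [linearIndependent_unique_iff]
      exact (isPair_hypAdd (hypAdd Q₁)).ne_zero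
    have := (card_sing1_le_tuples _).trans
      (count_translates T₀ hstab hj1 _ hli htr fun a ha => (hsing a ha).1)
    simp only [Fin.prod_univ_one, Fin.val_zero, pow_zero, hj, pow_one] at this
    omega
  have hj2 : 2 ≤ finrank F T₀ := by omega
  by_cases hj' : finrank F T₀ = 2
  · have htr : ∀ p ∈ singTuples (hypAdd (hypAdd Q₁)) 2, ∃ g : EG (hypAdd Q₁), ∀ i,
        g.1.1 (![V₀, V₁] i) ∈ Submodule.span F (Set.range p) := by
      intro p hp
      obtain ⟨g₁, hg₁⟩ := exists_to_std h.bNondeg h.two (hp.1.ne_zero 0) (hp.2.1 0)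
      obtain ⟨h1, h2, h3⟩ := hcoord hg₁ (hp.2.1 1) (hp.2.2 0 1)
      have hne : (g₁.1.1 (p 1)).2 ≠ 0 := by
        intro h0
        rw [h0, show (((0, 0), 0) : (F × F) × ((F × F) × W₁)) = 0 from rfl, map_zero, eq_comm,
          sub_eq_zero] at h3
        have := (LinearIndependent.pair_iff' (hp.1.ne_zero 0)).1
          (show LinearIndependent F ![p 0, p 1] by
            convert hp.1 using 1; ext i <;> fin_cases i <;> rfl) ((g₁.1.1 (p 1)).1.1)
        exact this h3.symm
      obtain ⟨l, hl, hle⟩ := EQ_transitive_singular h.bNondeg.qNondeg h.two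
        (isPair_hypAdd Q₁).ne_zero (isPair_hypAdd Q₁).1 hne h2
      refine ⟨g₁⁻¹ * lift _ ⟨l, hl⟩, fun i => ?_⟩
      rw [Subgroup.coe_mul, Subgroup.coe_mul, LinearEquiv.mul_apply, lift_apply]
      fin_cases i
      · refine Submodule.subset_span ⟨0, ?_⟩
        change p 0 = g₁.1.1.symm _
        rw [LinearEquiv.eq_symm_apply, hg₁]
        refine Prod.ext rfl ?_
        exact (map_zero l.1).symm
      · change g₁.1.1.symm (((0 : F), (0 : F)), l.1 (hE F W₁)) ∈ _
        rw [hle, h3]
        exact sub_mem (Submodule.subset_span ⟨1, rfl⟩)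
          (Submodule.smul_mem _ _ (Submodule.subset_span ⟨0, rfl⟩))
    have hli : LinearIndependent F ![V₀, V₁] := by
      rw [LinearIndependent.pair_iff]
      intro s t hst
      simp only [V₀, V₁, Prod.ext_iff] at hst
      simp at hst
      exact hst
    have := (card_pairs_lower h.bNondeg h.two).trans
      (count_translates T₀ hstab hj2 _ hli htr fun a ha => (hsing a ha).1)
    simp only [Fin.prod_univ_two, Fin.val_zero, Fin.val_one, pow_zero, pow_one, hj'] at this
    omega
  · have hj3 : 3 ≤ finrank F T₀ := by omega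
    have htr : ∀ p ∈ singTuples (hypAdd (hypAdd Q₁)) 3, ∃ g : EG (hypAdd Q₁), ∀ i,
        g.1.1 (![V₀, V₁, V₂] i) ∈ Submodule.span F (Set.range p) := by
      intro p hp
      obtain ⟨g₁, hg₁⟩ := exists_to_std h.bNondeg h.two (hp.1.ne_zero 0) (hp.2.1 0)
      obtain ⟨h1, h2, h3⟩ := hcoord hg₁ (hp.2.1 1) (hp.2.2 0 1)
      obtain ⟨k1, k2, k3⟩ := hcoord hg₁ (hp.2.1 2) (hp.2.2 0 2)
      set t' := (g₁.1.1 (p 1)).2
      set v' := (g₁.1.1 (p 2)).2
      have hli := Fintype.linearIndependent_iff.1 hp.1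
      have hne : t' ≠ 0 := by
        intro h0
        rw [h0, show (((0, 0), 0) : (F × F) × ((F × F) × W₁)) = 0 from rfl, map_zero, eq_comm,
          sub_eq_zero] at h3
        have := hli ![-(g₁.1.1 (p 1)).1.1, 1, 0] (by
          simp [Fin.sum_univ_three, ← h3]) 1
        simp at this
      have hind : ∀ α : F, v' ≠ α • t' := by
        intro α h0
        rw [h0, show (((0, 0), α • t') : (F × F) × ((F × F) × W₁)) =
          α • (((0, 0), t') : (F × F) × ((F × F) × W₁)) by simp, map_smul, h3] at k3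
        have := hli ![α * (g₁.1.1 (p 1)).1.1 - (g₁.1.1 (p 2)).1.1, -α, 1] (by
          simp only [Fin.sum_univ_three, Matrix.cons_val_zero, Matrix.cons_val_one, Matrix.cons_val]
          linear_combination (norm := module) -k3) 2
        simp at this
      have hpol : polar (hypAdd Q₁) t' v' = 0 := by
        have := hp.2.2 1 2
        rwa [← OQ_polar g₁.1, polar_hE_cases _ _ h1 k1] at this
      obtain ⟨g₂, c, r', hg₂, e1, e2⟩ := exists_move_pair h he0 he hne h2 k2 hpol hind
      refine ⟨g₁⁻¹ * g₂, fun i => ?_⟩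
      rw [Subgroup.coe_mul, Subgroup.coe_mul, LinearEquiv.mul_apply]
      rw [inv_smul_eq_iff₀ hg₂.1] at e1 e2
      fin_cases i
      · change g₁.1.1.symm (g₂.1.1 V₀) ∈ _
        rw [hg₂.2.1, map_smul]
        refine Submodule.smul_mem _ _ (Submodule.subset_span ⟨0, ?_⟩)
        rw [LinearEquiv.eq_symm_apply, hg₁]
      · change g₁.1.1.symm (g₂.1.1 V₁) ∈ _
        rw [hg₂.2.2, e1, show (((0, 0), c • t') : (F × F) × ((F × F) × W₁)) =
          c • (((0, 0), t') : (F × F) × ((F × F) × W₁)) by simp, map_smul, h3]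
        exact Submodule.smul_mem _ _ (sub_mem (Submodule.subset_span ⟨1, rfl⟩)
          (Submodule.smul_mem _ _ (Submodule.subset_span ⟨0, rfl⟩)))
      · change g₁.1.1.symm (g₂.1.1 V₂) ∈ _
        rw [hg₂.2.2, e2, show (((0, 0), c • v') : (F × F) × ((F × F) × W₁)) =
          c • (((0, 0), v') : (F × F) × ((F × F) × W₁)) by simp, map_smul, k3]
        exact Submodule.smul_mem _ _ (sub_mem (Submodule.subset_span ⟨2, rfl⟩)
          (Submodule.smul_mem _ _ (Submodule.subset_span ⟨0, rfl⟩)))
    have hli : LinearIndependent F ![V₀, V₁, V₂] := by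
      rw [Fintype.linearIndependent_iff]
      intro c hc
      simp only [V₀, V₁, V₂, Fin.sum_univ_three, Matrix.cons_val_zero, Matrix.cons_val_one,
        Matrix.cons_val, Prod.ext_iff] at hc
      simp [he0] at hc
      intro i
      fin_cases i
      exacts [hc.1, hc.2.1, hc.2.2]
    have h4 := (card_triples_lower h).trans
      (count_translates T₀ hstab hj3 _ hli htr fun a ha => (hsing a ha).1)
    simp only [Fin.prod_univ_three, Fin.val_zero, Fin.val_one, Fin.val_two, pow_zero, pow_one] at h4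
    exact absurd h4 (not_le.2 (H3 _ hj3 hjr))

end Inner

end Cfsg.Agent.MinIndex
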