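/-
A point with a line at one singular vector has a large orbit.
-/
import Mathlib
import Cfsg.Prelude.Def_Classical
import Cfsg.Agent.Classical.OrthBasic
import Cfsg.Agent.Classical.OrthEichler
import Cfsg.Agent.Classical.OrthSimple
import Cfsg.Agent.MinIndex.OrthStd
import Cfsg.Agent.MinIndex.OrthRoot
import Cfsg.Agent.MinIndex.OrthGeom

set_option autoImplicit false

namespace Cfsg.Agent.MinIndex

open QuadraticMap Cfsg.Agent.Classical Module

universe u w v

variable {F : Type u} [Field F] {W : Type w} [AddCommGroup W] [Module F W] {Q : QuadraticForm F W}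
  {X : Type v} [MulAction (EG Q) X]

theorem RootFix.swap {x : X} {u a : (F × F) × W} (h : RootFix Q x u a) (ha : hypAdd Q a = 0) :
    RootFix Q x a (-u) := by
  obtain ⟨hu, hua, e⟩ := h
  have h' : polar (hypAdd Q) a (-u) = 0 := by
    rw [polar_neg_right, polar_comm, hua, neg_zero]
  refine ⟨ha, h', ?_⟩
  convert e using 2
  exact Subtype.ext (siegel_swap _ hu ha hua h').symm

theorem LineAt.smul_left {x : X} {u z : (F × F) × W} (h : LineAt Q x u z) {t : F} (ht : t ≠ 0) :
    LineAt Q x (t • u) z := by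
  refine ⟨by rw [polar_smul_left, h.1, smul_zero], fun k hk => h.2.1 (k * t) (by rw [hk, smul_smul]),
    fun a ha hza => ?_⟩
  rw [rootFix_smul_left ht]
  refine h.2.2 _ ?_ (by rw [polar_smul_right, hza, smul_zero])
  rw [polar_smul_right, ← polar_smul_left]
  exact ha

theorem LineAt.comb {x : X} {u z : (F × F) × W} (hu : hypAdd Q u = 0) (h : LineAt Q x u z)
    (α : F) {β : F} (hβ : β ≠ 0) : LineAt Q x u (α • u + β • z) := by
  have huu : polar (hypAdd Q) u u = 0 := by rw [polar_self, hu, smul_zero]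
  refine ⟨by rw [polar_add_right, polar_smul_right, polar_smul_right, huu, h.1, smul_zero,
    smul_zero, add_zero], fun k hk => h.2.1 (β⁻¹ * (k - α)) ?_, fun a ha hza => h.2.2 a ha ?_⟩
  · rw [mul_smul, sub_smul, ← hk, add_sub_cancel_left, smul_smul, inv_mul_cancel₀ hβ, one_smul]
  · rw [polar_add_left, polar_smul_left, polar_smul_left, ha, smul_zero, zero_add,
      smul_eq_mul] at hza
    exact (mul_eq_zero.1 hza).resolve_left hβ

theorem LineAt.map {x : X} {u z : (F × F) × W} (h : LineAt Q x u z) {g : EG Q} (hg : g • x = x) :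
    LineAt Q x (g.1.1 u) (g.1.1 z) := by
  refine ⟨by rw [OQ_polar]; exact h.1, fun k hk => h.2.1 k (g.1.1.injective ?_), fun a ha hza => ?_⟩
  · rw [map_smul]; exact hk
  · have h' := rootFix_smul (g := g) (h.2.2 (g.1.1.symm a)
      (by rw [← OQ_polar g.1, LinearEquiv.apply_symm_apply]; exact ha)
      (by rw [← OQ_polar g.1, LinearEquiv.apply_symm_apply]; exact hza))
    rwa [hg, LinearEquiv.apply_symm_apply] at h'

variable [Finite F] [Finite W]

/-- The line is unique, where not everything is fixed. -/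
theorem line_unique (hQ : BNondeg Q) (h2 : HasTwoPairs Q) {x : X} {u z z' : (F × F) × W}
    (hu : u ≠ 0) (hu0 : hypAdd Q u = 0) (hnofull : ¬ FullAt Q x u) (h : LineAt Q x u z)
    (h' : LineAt Q x u z') : ∃ α β : F, β ≠ 0 ∧ z' = α • u + β • z := by
  obtain ⟨g, hg⟩ := exists_to_std hQ h2 hu hu0
  obtain ⟨-, -, h3⟩ := at_vector hQ (x := x) hg
  by_cases hbot : Aof Q (g • x) = ⊥
  · exfalso
    refine hnofull fun a ha => (rootFix_smul_iff (g := g)).1 ?_
    rw [hg, rootFix_std]
    refine ⟨?_, ?_⟩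
    · have := OQ_polar g.1 u a
      rw [hg, ha] at this
      simpa using this
    · rw [Aof, orthG_eq_bot_iff _ (polarBilin_sep hQ) (polarBilin_symm _)] at hbot
      rw [hbot]; exact AddSubgroup.mem_top _
  obtain ⟨y, hy, hy0⟩ := (AddSubgroup.bot_or_exists_ne_zero _).resolve_left hbot
  obtain ⟨t, ht⟩ := h3 z h.1 h.2.2 y hy
  obtain ⟨t', ht'⟩ := h3 z' h'.1 h'.2.2 y hy
  have ht0' : t' ≠ 0 := fun h0 => hy0 (by rw [ht', h0, zero_smul])
  have ht0 : t ≠ 0 := fun h0 => hy0 (by rw [ht, h0, zero_smul])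
  have hperp : ∀ v, polar (hypAdd Q) u v = 0 → (g.1.1 v).1.2 = 0 := fun v hv => by
    have := OQ_polar g.1 u v
    rw [hg, hv] at this
    simpa using this
  refine ⟨(g.1.1 z').1.1 - t'⁻¹ * t * (g.1.1 z).1.1, t'⁻¹ * t,
    mul_ne_zero (inv_ne_zero ht0') ht0, g.1.1.injective ?_⟩
  rw [map_add, map_smul, map_smul, hg]
  refine Prod.ext (Prod.ext ?_ ?_) ?_
  · simp
  · simp [hperp z h.1, hperp z' h'.1]
  · simp only [Prod.smul_snd, Prod.snd_add, smul_zero, zero_add]
    rw [mul_smul, ← ht, ht', smul_smul, inv_mul_cancel₀ ht0', one_smul]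

/-- The standing assumptions. -/
structure NoFull (Q : QuadraticForm F W) (X : Type v) [MulAction (EG Q) X] : Prop where
  nondeg : BNondeg Q
  two : HasTwoPairs Q
  dim : 7 ≤ finrank F ((F × F) × W)
  nofull : ∀ (y : X) u, u ≠ 0 → hypAdd Q u = 0 → ¬ FullAt Q y u
  dich : ∀ (y : X) u, u ≠ 0 → hypAdd Q u = 0 → RegularAt Q y u ∨ ∃ z, LineAt Q y u z

theorem polar_self_zero {R : QuadraticForm F ((F × F) × W)} {u : (F × F) × W} (hu : R u = 0) :
    polar R u u = 0 := by rw [polar_self, hu, smul_zero]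

variable [FiniteDimensional F W]

/-- A line at `u` puts lines in the plane of `u` and `w` at the orthogonal singular vectors. -/
theorem line_step (H : NoFull Q X) {x : X} {u w b : (F × F) × W} (hu : u ≠ 0)
    (hu0 : hypAdd Q u = 0) (hl : LineAt Q x u w) (hb0 : hypAdd Q b = 0)
    (hbu : polar (hypAdd Q) u b = 0) (hbw : polar (hypAdd Q) w b = 0) (hb : ∀ k : F, b ≠ k • u) :
    ∃ α β : F, LineAt Q x b (α • u + β • w) := by
  have hbne : b ≠ 0 := fun h => hb 0 (by rw [zero_smul, h])
  have hroot : ∀ t : F, RootFix Q x b (t • u) := by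
    intro t
    have h1 := (hl.2.2 ((-t) • b) (by rw [polar_smul_right, hbu, smul_zero])
      (by rw [polar_smul_right, hbw, smul_zero])).swap (by
        rw [QuadraticMap.map_smul, hb0, smul_zero])
    rcases eq_or_ne t 0 with rfl | ht
    · rw [zero_smul]; exact rootFix_zero hb0
    · rw [rootFix_smul_left (neg_ne_zero.2 ht)] at h1
      simpa using h1
  have hnr : ¬ RegularAt Q x b := by
    intro hr
    obtain ⟨k, hk⟩ := hr _ (hroot 1)
    rw [one_smul] at hk
    have hk0 : k ≠ 0 := fun h0 => hu (by rw [hk, h0, zero_smul])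
    exact hb k⁻¹ (by rw [hk, smul_smul, inv_mul_cancel₀ hk0, one_smul])
  obtain ⟨z, hz⟩ := (H.dich x b hbne hb0).resolve_left hnr
  have hzu : polar (hypAdd Q) z u = 0 := by
    by_contra hne
    refine H.nofull x b hbne hb0 fun a ha => ?_
    have e : a = (a - (polar (hypAdd Q) z a / polar (hypAdd Q) z u) • u) +
        (polar (hypAdd Q) z a / polar (hypAdd Q) z u) • u := by abel
    rw [e]
    refine RootFix.add (hz.2.2 _ ?_ ?_) (hroot _)
    · rw [polar_sub_right, polar_smul_right, ha, polar_comm (hypAdd Q) b u, hbu, smul_zero, sub_zero]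
    · rw [polar_sub_right, polar_smul_right, smul_eq_mul, div_mul_cancel₀ _ hne, sub_self]
  obtain ⟨γ, α, β, he⟩ : ∃ γ α β : F, z = γ • b + α • u + β • w := by
    by_cases hin : ∃ s t : F, u = s • b + t • z
    · obtain ⟨s, t, hst⟩ := hin
      have ht : t ≠ 0 := fun h0 => by
        rw [h0, zero_smul, add_zero] at hst
        have hs : s ≠ 0 := fun h1 => hu (by rw [hst, h1, zero_smul])
        exact hb s⁻¹ (by rw [hst, smul_smul, inv_mul_cancel₀ hs, one_smul])
      exact ⟨-(t⁻¹ * s), t⁻¹, 0, by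
        rw [hst, zero_smul, add_zero, smul_add, smul_smul, smul_smul, inv_mul_cancel₀ ht, one_smul,
          neg_smul, neg_add_cancel_left]⟩
    · have hmem : z ∈ Submodule.span F (Set.range ![b, u, w]) := by
        refine mem_span_of_perp (bNondeg_hypAdd H.nondeg) _ fun c hc => ?_
        obtain ⟨hcb, hcu, hcw⟩ := mem_perp_three.1 hc
        by_contra hne
        obtain ⟨q1, q2, q3⟩ := hl.2.2 c hcu hcw
        have hmap := hz.map q3
        have eb : (siegel (hypAdd Q) q1 q2).1 b = b :=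
          siegel_fix _ q1 q2 hbu (by rw [polar_comm]; exact hcb)
        have ez : (siegel (hypAdd Q) q1 q2).1 z = z - polar (hypAdd Q) c z • u := by
          rw [siegel_apply, show polar (hypAdd Q) u z = 0 by rw [polar_comm]; exact hzu]
          simp
        change LineAt Q x ((siegel (hypAdd Q) q1 q2).1 b) ((siegel (hypAdd Q) q1 q2).1 z) at hmap
        rw [eb, ez] at hmap
        obtain ⟨α, β, -, he⟩ := line_unique H.nondeg H.two hbne hb0 (H.nofull x b hbne hb0) hz hmap
        refine hin ⟨-((polar (hypAdd Q) c z)⁻¹ * α), (polar (hypAdd Q) c z)⁻¹ * (1 - β), ?_⟩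
        rw [sub_eq_iff_eq_add] at he
        apply smul_right_injective _ hne
        beta_reduce
        rw [smul_add, smul_smul, smul_smul, mul_neg, mul_inv_cancel_left₀ hne,
          mul_inv_cancel_left₀ hne]
        linear_combination (norm := module) -he
      rw [Submodule.mem_span_range_iff_exists_fun] at hmem
      obtain ⟨c, hc⟩ := hmem
      exact ⟨c 0, c 1, c 2, by rw [← hc, Fin.sum_univ_three]; rfl⟩
  refine ⟨α, β, ?_⟩
  have := hz.comb hb0 (-γ) (one_ne_zero)
  convert this using 1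
  rw [he]
  module

/-- The line is spanned by a non-singular vector. -/
theorem line_nonsing (H : NoFull Q X) {x : X} {u w : (F × F) × W} (hu : u ≠ 0)
    (hu0 : hypAdd Q u = 0) (hl : LineAt Q x u w) : hypAdd Q w ≠ 0 := by
  intro hw0
  obtain ⟨b, hb, hbn, hb0⟩ := exists_singular_perp (bNondeg_hypAdd H.nondeg) ![u, w] ![u, w]
    (by have := H.dim; omega)
  obtain ⟨hbu, hbw⟩ := mem_perp_two.1 hb
  have hmem : ∀ s t : F, s • u + t • w ∈ Submodule.span F (Set.range ![u, w]) := fun s t =>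
    add_mem (Submodule.smul_mem _ _ (Submodule.subset_span ⟨0, rfl⟩))
      (Submodule.smul_mem _ _ (Submodule.subset_span ⟨1, rfl⟩))
  have hbk : ∀ k : F, b ≠ k • u := fun k h => hbn (by
    have := hmem k 0; rwa [zero_smul, add_zero, ← h] at this)
  have hbne : b ≠ 0 := fun h => hbk 0 (by rw [zero_smul, h])
  have hub : ∀ k : F, u ≠ k • b := fun k h => by
    have hk : k ≠ 0 := fun h0 => hu (by rw [h, h0, zero_smul])
    exact hbk k⁻¹ (by rw [h, smul_smul, inv_mul_cancel₀ hk, one_smul])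
  obtain ⟨α, β, hlb⟩ := line_step H hu hu0 hl hb0 hbu hbw hbk
  rcases eq_or_ne β 0 with rfl | hβ
  · rw [zero_smul, add_zero] at hlb
    have hα : α ≠ 0 := fun h0 => hlb.2.1 0 (by rw [h0, zero_smul, zero_smul])
    have hlb' : LineAt Q x b u := by
      have := hlb.comb hb0 0 (inv_ne_zero hα)
      rwa [zero_smul, zero_add, smul_smul, inv_mul_cancel₀ hα, one_smul] at this
    obtain ⟨α', β', h'⟩ := line_step H hbne hb0 hlb' hu0 (by rw [polar_comm]; exact hbu)
      (polar_self_zero hu0) hub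
    have hα' : α' ≠ 0 := fun h0 => h'.2.1 β' (by rw [h0, zero_smul, zero_add])
    obtain ⟨s, t, -, he⟩ := line_unique H.nondeg H.two hu hu0 (H.nofull x u hu hu0) hl h'
    refine hbn ?_
    have e : b = (α'⁻¹ * (s - β')) • u + (α'⁻¹ * t) • w := by
      apply smul_right_injective _ hα'
      beta_reduce
      rw [smul_add, smul_smul, smul_smul, mul_inv_cancel_left₀ hα', mul_inv_cancel_left₀ hα']
      linear_combination (norm := module) he
    rw [e]; exact hmem _ _
  · set c := α • u + β • w with hc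
    have hc0 : hypAdd Q c = 0 := by
      rw [hc, qf_add, QuadraticMap.map_smul, QuadraticMap.map_smul, hu0, hw0, polar_smul_left,
        polar_smul_right, hl.1]
      simp
    have hcu : polar (hypAdd Q) u c = 0 := by
      rw [hc, polar_add_right, polar_smul_right, polar_smul_right, polar_self_zero hu0, hl.1]
      simp
    have hcw : polar (hypAdd Q) w c = 0 := by
      rw [hc, polar_add_right, polar_smul_right, polar_smul_right, polar_self_zero hw0,
        polar_comm (hypAdd Q) w u, hl.1]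
      simp
    have hck : ∀ k : F, c ≠ k • u := fun k hk => hl.2.1 (β⁻¹ * (k - α)) (by
      rw [mul_smul, sub_smul, ← hk, hc, add_sub_cancel_left, smul_smul, inv_mul_cancel₀ hβ,
        one_smul])
    obtain ⟨α', β', h1⟩ := line_step H hu hu0 hl hc0 hcu hcw hck
    have e1 : α' • u + β' • w = (β' * β⁻¹) • c + (α' - β' * β⁻¹ * α) • u := by
      have : β' = β' * β⁻¹ * β := by field_simp
      conv_lhs => rw [this]
      rw [hc]; module
    rw [e1] at h1
    have hne : α' - β' * β⁻¹ * α ≠ 0 := fun h0 => h1.2.1 (β' * β⁻¹) (by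
      rw [h0, zero_smul, add_zero])
    have hcne : c ≠ 0 := fun h => hck 0 (by rw [zero_smul, h])
    have hcu' : LineAt Q x c u := by
      have := h1.comb hc0 (-((α' - β' * β⁻¹ * α)⁻¹ * (β' * β⁻¹))) (inv_ne_zero hne)
      convert this using 1
      rw [show (α' - β' * β⁻¹ * α)⁻¹ • ((β' * β⁻¹) • c + (α' - β' * β⁻¹ * α) • u) =
        ((α' - β' * β⁻¹ * α)⁻¹ * (β' * β⁻¹)) • c + u by
          rw [smul_add, smul_smul, smul_smul, inv_mul_cancel₀ hne, one_smul]]
      module
    obtain ⟨α'', β'', h2⟩ := line_step H hbne hb0 hlb hc0 hlb.1 (polar_self_zero hc0) (fun k hk => by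
      have hk0 : k ≠ 0 := fun h0 => hcne (by rw [hk, h0, zero_smul])
      refine hbn ?_
      have e : b = (k⁻¹ * α) • u + (k⁻¹ * β) • w := by
        rw [mul_smul, mul_smul, ← smul_add, ← hc, hk, smul_smul, inv_mul_cancel₀ hk0, one_smul]
      rw [e]; exact hmem _ _)
    have hα'' : α'' ≠ 0 := fun h0 => h2.2.1 β'' (by rw [h0, zero_smul, zero_add])
    obtain ⟨s, t, -, he⟩ := line_unique H.nondeg H.two hcne hc0 (H.nofull x c hcne hc0) hcu' h2
    refine hbn ?_
    have e : b = (α''⁻¹ * ((s - β'') * α + t)) • u + (α''⁻¹ * ((s - β'') * β)) • w := by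
      apply smul_right_injective _ hα''
      beta_reduce
      rw [smul_add, smul_smul, smul_smul, mul_inv_cancel_left₀ hα'', mul_inv_cancel_left₀ hα'']
      rw [hc] at he
      linear_combination (norm := module) he
    rw [e]; exact hmem _ _

omit [FiniteDimensional F W] [Finite F] [Finite W] in
/-- A root element at `b` carrying a line along. -/
theorem line_move {x : X} {b zb z y a : (F × F) × W} (hb0 : hypAdd Q b = 0)
    (hlb : LineAt Q x b zb) (hbz : polar (hypAdd Q) b z = 0) (hly : LineAt Q x y z)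
    (hy0 : hypAdd Q y = 0) (ha0 : hypAdd Q a = 0)
    (hby : polar (hypAdd Q) b y ≠ 0) (hba : polar (hypAdd Q) b a ≠ 0)
    (hyb : polar (hypAdd Q) zb y = 0) (hab : polar (hypAdd Q) zb a = 0)
    (hyz : polar (hypAdd Q) z y = 0) (haz : polar (hypAdd Q) z a = 0) :
    LineAt Q x a z := by
  obtain ⟨hd, -, hg⟩ := siegel_move hb0 (y := (polar (hypAdd Q) b y)⁻¹ • y)
    (z := (polar (hypAdd Q) b a)⁻¹ • a)
    (by simp only [QuadraticMap.map_smul, hy0, ha0, smul_zero])
    (by rw [polar_smul_right, smul_eq_mul, inv_mul_cancel₀ hby])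
    (by rw [polar_smul_right, smul_eq_mul, inv_mul_cancel₀ hba])
  obtain ⟨_, _, e⟩ := hlb.2.2 _ hd (by
    rw [polar_sub_right, polar_smul_right, polar_smul_right, hyb, hab]; simp)
  have hz : (siegel (hypAdd Q) hb0 hd).1 z = z := siegel_fix _ hb0 hd hbz (by
    rw [polar_sub_left, polar_smul_left, polar_smul_left, polar_comm (hypAdd Q) a z,
      polar_comm (hypAdd Q) y z, hyz, haz]
    simp)
  have h1 := (hly.smul_left (inv_ne_zero hby)).map e
  change LineAt Q x ((siegel (hypAdd Q) hb0 hd).1 _) ((siegel (hypAdd Q) hb0 hd).1 z) at h1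
  rw [hg, hz] at h1
  have h2 := h1.smul_left hba
  rwa [smul_smul, mul_inv_cancel₀ hba, one_smul] at h2

/-- One non-singular vector gives the lines at all singular vectors orthogonal to it. -/
theorem exists_axis (H : NoFull Q X) {x : X} {u w : (F × F) × W} (hu : u ≠ 0)
    (hu0 : hypAdd Q u = 0) (hl : LineAt Q x u w) :
    ∃ z, hypAdd Q z ≠ 0 ∧
      ∀ a, a ≠ 0 → hypAdd Q a = 0 → polar (hypAdd Q) z a = 0 → LineAt Q x a z := by
  have hR := bNondeg_hypAdd H.nondeg
  have hdim := H.dim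
  have hw := line_nonsing H hu hu0 hl
  have hlam : ∀ b, hypAdd Q b = 0 → polar (hypAdd Q) u b = 0 → polar (hypAdd Q) w b = 0 →
      (∀ k : F, b ≠ k • u) → ∃ l : F, LineAt Q x b (w + l • u) := by
    intro b hb0 hbu hbw hbk
    have hbne : b ≠ 0 := fun h => hbk 0 (by rw [zero_smul, h])
    obtain ⟨α, β, h1⟩ := line_step H hu hu0 hl hb0 hbu hbw hbk
    have hβ : β ≠ 0 := by
      rintro rfl
      refine line_nonsing H hbne hb0 h1 ?_
      rw [zero_smul, add_zero, QuadraticMap.map_smul, hu0, smul_zero]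
    refine ⟨β⁻¹ * α, ?_⟩
    have := h1.comb hb0 0 (inv_ne_zero hβ)
    convert this using 1
    rw [zero_smul, zero_add, smul_add, smul_smul, smul_smul, inv_mul_cancel₀ hβ, one_smul,
      add_comm]
  obtain ⟨b₀, hb₀, hb₀n, hb₀0⟩ := exists_singular_perp hR ![u, w] ![u] (by omega)
  obtain ⟨hb₀u, hb₀w⟩ := mem_perp_two.1 hb₀
  have hb₀k : ∀ k : F, b₀ ≠ k • u := fun k h => hb₀n (by
    rw [h]; exact Submodule.smul_mem _ _ (Submodule.subset_span ⟨0, rfl⟩))
  obtain ⟨l₀, hl₀⟩ := hlam b₀ hb₀0 hb₀u hb₀w hb₀k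
  set z := w + l₀ • u with hz
  have hzQ : hypAdd Q z = hypAdd Q w := by
    rw [hz, qf_add, QuadraticMap.map_smul, hu0, polar_smul_right, polar_comm (hypAdd Q) w u, hl.1]
    simp
  have hzu : polar (hypAdd Q) u z = 0 := by
    rw [hz, polar_add_right, polar_smul_right, hl.1, polar_self_zero hu0]; simp
  have hlz : LineAt Q x u z := by
    have := hl.comb hu0 l₀ one_ne_zero
    rwa [one_smul, add_comm, ← hz] at this
  refine ⟨z, by rw [hzQ]; exact hw, ?_⟩
  have hperp : ∀ b, polar (hypAdd Q) u b = 0 →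
      (polar (hypAdd Q) z b = 0 ↔ polar (hypAdd Q) w b = 0) := fun b hb => by
    rw [hz, polar_add_left, polar_smul_left, hb, smul_zero, add_zero]
  -- partners inside the complement
  have hpartner : ∀ b₁ b₂ : (F × F) × W, (∀ k : F, b₁ ≠ k • u) → (∀ k : F, b₂ ≠ k • u) →
      hypAdd Q b₁ = 0 → hypAdd Q b₂ = 0 → polar (hypAdd Q) u b₁ = 0 → polar (hypAdd Q) z b₁ = 0 →
      polar (hypAdd Q) u b₂ = 0 → polar (hypAdd Q) z b₂ = 0 → polar (hypAdd Q) b₁ b₂ = 0 →
      ∃ y, hypAdd Q y = 0 ∧ polar (hypAdd Q) u y = 0 ∧ polar (hypAdd Q) z y = 0 ∧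
        (∀ k : F, y ≠ k • u) ∧ polar (hypAdd Q) y b₁ ≠ 0 ∧ polar (hypAdd Q) y b₂ ≠ 0 := by
    intro b₁ b₂ hk1 hk2 h10 h20 h1u h1z h2u h2z h12
    have hout : ∀ b : (F × F) × W, (∀ k : F, b ≠ k • u) → hypAdd Q b = 0 →
        polar (hypAdd Q) u b = 0 → polar (hypAdd Q) z b = 0 →
        ¬ perpF (hypAdd Q) ![u, z] ≤ perpF (hypAdd Q) ![b] := by
      intro b hk hb0 hbu hbz hle
      have hmem : b ∈ Submodule.span F (Set.range ![u, z]) :=
        mem_span_of_perp hR _ fun c hc => by
          rw [polar_comm]; exact mem_perp_one.1 (hle hc)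
      rw [Submodule.mem_span_range_iff_exists_fun] at hmem
      obtain ⟨c, hc⟩ := hmem
      simp only [Fin.sum_univ_two, Matrix.cons_val_zero, Matrix.cons_val_one] at hc
      have : c 1 * c 1 * hypAdd Q z = 0 := by
        rw [← hc, qf_add, QuadraticMap.map_smul, QuadraticMap.map_smul, hu0, polar_smul_left,
          polar_smul_right, hzu] at hb0
        simpa using hb0
      have hc1 : c 1 = 0 := by
        rcases mul_eq_zero.1 this with h | h
        · exact mul_self_eq_zero.1 h
        · exact absurd h (hzQ ▸ hw)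
      rw [hc1, zero_smul, add_zero] at hc
      exact hk (c 0) hc.symm
    obtain ⟨y, hy, hy1, hy2⟩ := exists_not_mem_two (hout b₁ hk1 h10 h1u h1z) (hout b₂ hk2 h20 h2u h2z)
    obtain ⟨hyu, hyz⟩ := mem_perp_two.1 hy
    rw [mem_perp_one] at hy1 hy2
    set s := -(hypAdd Q y) / polar (hypAdd Q) b₁ y with hs
    refine ⟨y + s • b₁, ?_, ?_, ?_, ?_, ?_, ?_⟩
    · rw [qf_add, QuadraticMap.map_smul, h10, polar_smul_right, polar_comm (hypAdd Q) y b₁,
        smul_zero, add_zero, smul_eq_mul, hs, div_mul_cancel₀ _ hy1, add_neg_cancel]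
    · rw [polar_add_right, polar_smul_right, hyu, h1u, smul_zero, add_zero]
    · rw [polar_add_right, polar_smul_right, hyz, h1z, smul_zero, add_zero]
    · intro k hk
      have := congrArg (polar (hypAdd Q) b₁) hk
      rw [polar_add_right, polar_smul_right, polar_smul_right, polar_self_zero h10, smul_zero,
        add_zero, polar_comm (hypAdd Q) b₁ u, h1u, smul_zero] at this
      exact hy1 this
    · rw [polar_add_left, polar_smul_left, polar_self_zero h10, smul_zero, add_zero, polar_comm]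
      exact hy1
    · rw [polar_add_left, polar_smul_left, h12, smul_zero, add_zero, polar_comm]
      exact hy2
  have horth : ∀ b₁ b₂ : (F × F) × W, (∀ k : F, b₁ ≠ k • u) → (∀ k : F, b₂ ≠ k • u) →
      hypAdd Q b₁ = 0 → hypAdd Q b₂ = 0 → polar (hypAdd Q) u b₁ = 0 → polar (hypAdd Q) z b₁ = 0 →
      polar (hypAdd Q) u b₂ = 0 → polar (hypAdd Q) z b₂ = 0 → polar (hypAdd Q) b₁ b₂ = 0 →
      LineAt Q x b₁ z → LineAt Q x b₂ z := by
    intro b₁ b₂ hk1 hk2 h10 h20 h1u h1z h2u h2z h12 hl1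
    obtain ⟨y, hy0, hyu, hyz, hyk, hy1, hy2⟩ :=
      hpartner b₁ b₂ hk1 hk2 h10 h20 h1u h1z h2u h2z h12
    obtain ⟨m, hm⟩ := hlam y hy0 hyu ((hperp y hyu).1 hyz) hyk
    refine line_move hy0 hm (by rw [polar_comm]; exact hyz) hl1 h10 h20 hy1 hy2 ?_ ?_ h1z h2z
    · rw [polar_add_left, polar_smul_left, (hperp b₁ h1u).1 h1z, h1u, smul_zero, add_zero]
    · rw [polar_add_left, polar_smul_left, (hperp b₂ h2u).1 h2z, h2u, smul_zero, add_zero]
  have hD : ∀ b, hypAdd Q b = 0 → polar (hypAdd Q) u b = 0 → polar (hypAdd Q) z b = 0 →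
      (∀ k : F, b ≠ k • u) → LineAt Q x b z := by
    intro b hb0 hbu hbz hbk
    have hb₀z : polar (hypAdd Q) z b₀ = 0 := (hperp b₀ hb₀u).2 hb₀w
    by_cases h0 : polar (hypAdd Q) b₀ b = 0
    · exact horth b₀ b hb₀k hbk hb₀0 hb0 hb₀u hb₀z hbu hbz h0 hl₀
    obtain ⟨x', hx', hx'n⟩ : ∃ x' ∈ perpF (hypAdd Q) ![u, z, b₀, b], x' ∉ F ∙ u := by
      refine SetLike.not_le_iff_exists.1 fun hle => ?_
      have h1 := Submodule.finrank_mono hle
      have h2 := finrank_le_perpF hR ![u, z, b₀, b]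
      rw [finrank_span_singleton hu] at h1
      omega
    obtain ⟨hx'u, hx'z, hx'b₀, hx'b⟩ := mem_perp_four.1 hx'
    have hx'k : ∀ k : F, x' ≠ k • u := fun k h => hx'n (Submodule.mem_span_singleton.2 ⟨k, h.symm⟩)
    by_cases hQx : hypAdd Q x' = 0
    · exact horth x' b hx'k hbk hQx hb0 hx'u hx'z hbu hbz (by rw [polar_comm]; exact hx'b)
        (horth b₀ x' hb₀k hx'k hb₀0 hQx hb₀u hb₀z hx'u hx'z hx'b₀ hl₀)
    set t := -(hypAdd Q x') / polar (hypAdd Q) b₀ b with ht
    set b' := b₀ + t • b + x' with hb'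
    have hb'0 : hypAdd Q b' = 0 := by
      rw [hb', qf_add, qf_add, QuadraticMap.map_smul, hb₀0, hb0, polar_add_left, polar_smul_right,
        polar_smul_left, hx'b₀, hx'b]
      simp only [smul_zero, smul_eq_mul, mul_zero, zero_add, add_zero]
      rw [ht, div_mul_cancel₀ _ h0, neg_add_cancel]
    have hb'u : polar (hypAdd Q) u b' = 0 := by
      rw [hb', polar_add_right, polar_add_right, polar_smul_right, hb₀u, hbu, hx'u]; simp
    have hb'z : polar (hypAdd Q) z b' = 0 := by
      rw [hb', polar_add_right, polar_add_right, polar_smul_right, hb₀z, hbz, hx'z]; simp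
    have e1 : polar (hypAdd Q) b' b₀ = -(hypAdd Q x') := by
      rw [hb', polar_add_left, polar_add_left, polar_smul_left, polar_self_zero hb₀0,
        polar_comm (hypAdd Q) b b₀, polar_comm (hypAdd Q) x' b₀, hx'b₀, zero_add, add_zero,
        smul_eq_mul, ht, div_mul_cancel₀ _ h0]
    have e2 : polar (hypAdd Q) b' b = polar (hypAdd Q) b₀ b := by
      rw [hb', polar_add_left, polar_add_left, polar_smul_left, polar_self_zero hb0,
        polar_comm (hypAdd Q) x' b, hx'b, smul_zero, add_zero, add_zero]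
    have hb'k : ∀ k : F, b' ≠ k • u := fun k hk => h0 (by
      rw [← e2, hk, polar_smul_left, hbu, smul_zero])
    obtain ⟨m, hm⟩ := hlam b' hb'0 hb'u ((hperp b' hb'u).1 hb'z) hb'k
    refine line_move hb'0 hm (by rw [polar_comm]; exact hb'z) hl₀ hb₀0 hb0
      (by rw [e1]; exact neg_ne_zero.2 hQx) (by rw [e2]; exact h0) ?_ ?_ hb₀z hbz
    · rw [polar_add_left, polar_smul_left, hb₀w, hb₀u, smul_zero, add_zero]
    · rw [polar_add_left, polar_smul_left, (hperp b hbu).1 hbz, hbu, smul_zero, add_zero]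
  intro a ha ha0 haz
  by_cases hau : polar (hypAdd Q) u a = 0
  · by_cases hk : ∃ k : F, a = k • u
    · obtain ⟨k, rfl⟩ := hk
      exact hlz.smul_left fun h => ha (by rw [h, zero_smul])
    · push Not at hk
      exact hD a ha0 hau haz hk
  -- a vector of the complement not orthogonal to `a`
  obtain ⟨b, hb0, hbu, hbz, hbk, hba⟩ : ∃ b, hypAdd Q b = 0 ∧ polar (hypAdd Q) u b = 0 ∧
      polar (hypAdd Q) z b = 0 ∧ (∀ k : F, b ≠ k • u) ∧ polar (hypAdd Q) b a ≠ 0 := by
    have hb₀z : polar (hypAdd Q) z b₀ = 0 := (hperp b₀ hb₀u).2 hb₀w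
    by_cases h0 : polar (hypAdd Q) b₀ a = 0
    · refine ⟨b₀ + u, ?_, ?_, ?_, ?_, ?_⟩
      · rw [qf_add, hb₀0, hu0, polar_comm, hb₀u]; simp
      · rw [polar_add_right, hb₀u, polar_self_zero hu0, add_zero]
      · rw [polar_add_right, hb₀z, polar_comm (hypAdd Q) z u, hzu, add_zero]
      · intro k hk
        exact hb₀k (k - 1) (by rw [sub_smul, one_smul, ← hk, add_sub_cancel_right])
      · rw [polar_add_left, h0, zero_add]; exact hau
    · exact ⟨b₀, hb₀0, hb₀u, hb₀z, hb₀k, h0⟩
  obtain ⟨y, hy0, hyu, hyz, hyk, hyb, -⟩ := hpartner b b hbk hbk hb0 hb0 hbu hbz hbu hbz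
    (polar_self_zero hb0)
  exact line_move hb0 (hD b hb0 hbu hbz hbk) (by rw [polar_comm]; exact hbz)
    (hD y hy0 hyu hyz hyk) hy0 ha0 (by rw [polar_comm]; exact hyb) hba hyz haz hyz haz

/-- No lines in a small action. -/
theorem line_absurd (H : NoFull Q X) [Finite X]
    (hn : ∀ c : F, c ≠ 0 → Nat.card X * Nat.card {t : F // t * t = 1} <
      Nat.card {v // hypAdd Q v = c})
    (x : X) {u w : (F × F) × W} (hu : u ≠ 0) (hu0 : hypAdd Q u = 0) : ¬ LineAt Q x u w := by
  intro hl
  classical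
  obtain ⟨z, hz, hall⟩ := exists_axis H hu hu0 hl
  have hR := bNondeg_hypAdd H.nondeg
  have hstab : ∀ g : EG Q, g • x = x → ∃ t : F, g.1.1 z = t • z := by
    intro g hg
    obtain ⟨a, ha, han, ha0⟩ := exists_singular_perp hR ![z, g.1.1 z] ![z, g.1.1 z]
      (by have := H.dim; omega)
    obtain ⟨ha1, ha2⟩ := mem_perp_two.1 ha
    have hane : a ≠ 0 := fun h => han (by rw [h]; exact zero_mem _)
    have h1 := (hall (g.1.1.symm a) (fun h => hane (by simpa using congrArg g.1.1 h))
      (by rw [← OQ_map_app g.1, LinearEquiv.apply_symm_apply]; exact ha0)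
      (by rw [← OQ_polar g.1, LinearEquiv.apply_symm_apply]; exact ha2)).map hg
    rw [LinearEquiv.apply_symm_apply] at h1
    obtain ⟨α, β, -, he⟩ := line_unique H.nondeg H.two hane ha0 (H.nofull x a hane ha0)
      (hall a hane ha0 ha1) h1
    rcases eq_or_ne α 0 with rfl | hα
    · exact ⟨β, by rw [he, zero_smul, zero_add]⟩
    · refine absurd ?_ han
      have e : a = α⁻¹ • g.1.1 z - (α⁻¹ * β) • z := by
        rw [he, smul_add, smul_smul, smul_smul, inv_mul_cancel₀ hα, one_smul, add_sub_cancel_right]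
      rw [e]
      exact sub_mem (Submodule.smul_mem _ _ (Submodule.subset_span ⟨1, rfl⟩))
        (Submodule.smul_mem _ _ (Submodule.subset_span ⟨0, rfl⟩))
  have htwo : HasTwoPairs (hypAdd Q) := by
    obtain ⟨e, f, _, _, hp⟩ := H.two
    exact ⟨_, _, _, _, hp.1.hypAdd⟩
  choose g hg hgz using fun s : {v // hypAdd Q v = hypAdd Q z} =>
    EQ_transitive_level hR htwo s.2.symm hz
  let φ : {v // hypAdd Q v = hypAdd Q z} → X := fun s => (⟨g s, hg s⟩ : EG Q) • x
  have : Fintype X := Fintype.ofFinite X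
  refine absurd ?_ (not_le.2 (hn _ hz))
  calc Nat.card {v // hypAdd Q v = hypAdd Q z} = Nat.card (Σ y : X, {s // φ s = y}) :=
        (Nat.card_congr (Equiv.sigmaFiberEquiv φ)).symm
    _ = ∑ y : X, Nat.card {s // φ s = y} := Nat.card_sigma
    _ ≤ ∑ _y : X, Nat.card {t : F // t * t = 1} := by
        refine Finset.sum_le_sum fun y _ => ?_
        by_cases hy : ∃ s, φ s = y
        swap
        · have : IsEmpty {s // φ s = y} := ⟨fun s => hy ⟨s.1, s.2⟩⟩
          simp
        obtain ⟨s₁, hs₁⟩ := hy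
        have key : ∀ s : {s // φ s = y}, ∃ t : {t : F // t * t = 1}, s.1.1 = t.1 • s₁.1 := by
          intro s
          obtain ⟨t, ht⟩ := hstab ((⟨g s₁, hg s₁⟩ : EG Q)⁻¹ * ⟨g s.1, hg s.1⟩) (by
            rw [mul_smul, inv_smul_eq_iff]; exact s.2.trans hs₁.symm)
          have h1 := congrArg (g s₁).1 ht
          rw [Subgroup.coe_mul, Subgroup.coe_mul, LinearEquiv.mul_apply, map_smul, hgz] at h1
          rw [show ((⟨g s₁, hg s₁⟩ : EG Q)⁻¹ : EG Q).1.1 = (g s₁).1.symm from rfl,
            LinearEquiv.apply_symm_apply] at h1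
          try rw [hgz] at h1
          refine ⟨⟨t, ?_⟩, h1⟩
          have h3 := congrArg (hypAdd Q) h1
          rw [s.1.2, QuadraticMap.map_smul, s₁.2, smul_eq_mul] at h3
          exact (mul_eq_right₀ hz).1 h3.symm
        choose t ht using key
        exact Nat.card_le_card_of_injective t fun a b hab => Subtype.ext (Subtype.ext (by
          rw [ht a, ht b, hab]))
    _ = Nat.card X * Nat.card {t : F // t * t = 1} := by simp [Nat.card_eq_fintype_card]

end Cfsg.Agent.MinIndex
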