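/-
A maximal totally singular dual cannot occur in a small action.
-/
import Mathlib
import Cfsg.Prelude.Def_Classical
import Cfsg.Agent.Classical.OrthBasic
import Cfsg.Agent.Classical.OrthEichler
import Cfsg.Agent.Classical.OrthSimple
import Cfsg.Agent.MinIndex.Duality
import Cfsg.Agent.MinIndex.Count
import Cfsg.Agent.MinIndex.OrthStd
import Cfsg.Agent.MinIndex.OrthTools
import Cfsg.Agent.MinIndex.OrthMoves
import Cfsg.Agent.MinIndex.OrthOrbits
import Cfsg.Agent.MinIndex.OrthClass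
import Cfsg.Agent.MinIndex.OrthRoot

set_option autoImplicit false

namespace Cfsg.Agent.MinIndex

open QuadraticMap Cfsg.Agent.Classical Module

universe u w

variable {F : Type u} [Field F] [Finite F] {W₁ : Type w} [AddCommGroup W₁] [Module F W₁]
  [Finite W₁] [FiniteDimensional F W₁] {Q₁ : QuadraticForm F W₁}
  {X : Type*} [MulAction (EG (hypAdd Q₁)) X] [Finite X]

theorem IsMove.inv {W : Type*} [AddCommGroup W] [Module F W] {Q : QuadraticForm F W} {g : EG Q}
    {c : F} {r : OQ Q} (hg : IsMove g c r) : IsMove g⁻¹ c⁻¹ r⁻¹ := by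
  refine ⟨inv_ne_zero hg.1, ?_, fun a => ?_⟩
  · apply g.1.1.injective
    rw [← LinearEquiv.mul_apply, ← Subgroup.coe_mul, ← Subgroup.coe_mul, mul_inv_cancel,
      map_smul, hg.2.1, smul_smul, inv_mul_cancel₀ hg.1, one_smul]
    rfl
  · apply g.1.1.injective
    rw [← LinearEquiv.mul_apply, ← Subgroup.coe_mul, ← Subgroup.coe_mul, mul_inv_cancel,
      hg.2.2, ← LinearEquiv.mul_apply, ← Subgroup.coe_mul, mul_inv_cancel]
    rfl

omit [FiniteDimensional F W₁] in
/-- A line type point has at least as many related points as the orbit of its vector. -/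
theorem card_level_le_of_line (h : InnerSpace Q₁) (y : X) {z : (F × F) × W₁}
    (hz : z ∈ Aof (hypAdd Q₁) y) (hz0 : z ≠ 0) :
    Nat.card {s | s ≠ 0 ∧ hypAdd Q₁ s = hypAdd Q₁ z} ≤
      Nat.card (moveSet (hypAdd Q₁) y) * Nat.card (Aof (hypAdd Q₁) y) := by
  have hm := card_through_mul_le h.bNondeg y z {s | s ≠ 0 ∧ hypAdd Q₁ s = hypAdd Q₁ z}
    (fun h0 => h0.1 rfl) fun s ⟨hs0, hs⟩ => ?_
  · refine le_trans ?_ (le_trans hm (Nat.mul_le_mul_left _ (Nat.sub_le _ _)))
    refine Nat.le_mul_of_pos_left _ ?_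
    have : Nonempty {K : moveSet (hypAdd Q₁) y // z ∈ orthG (polarBilin (hypAdd Q₁)) K.1} :=
      ⟨⟨⟨_, Kof_mem_moveSet y⟩, hz⟩⟩
    exact Nat.card_pos
  · obtain ⟨l, hl, e⟩ : ∃ l ∈ EQ (hypAdd Q₁), l.1 z = s := by
      rcases eq_or_ne (hypAdd Q₁ z) 0 with h0 | h0
      · exact EQ_transitive_singular h.bNondeg.qNondeg h.two hz0 h0 hs0 (by rw [hs, h0])
      · exact EQ_transitive_level h.bNondeg h.two hs.symm h0
    exact ⟨lift _ ⟨l, hl⟩, 1, l, isMove_lift ⟨l, hl⟩, by rw [inv_one, one_smul]; exact e⟩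

/-- The pairs of the singular part of a dual cover all pairs. -/
theorem pairSet_le' (h : InnerSpace Q₁) (x : X) {r : ℕ} (hr2 : 2 ≤ r)
    {U : Submodule F ((F × F) × W₁)} (hUr : finrank F U = r) (hUs : ∀ y ∈ U, hypAdd Q₁ y = 0)
    (hUA : ∀ v ∈ U, v ∈ Aof (hypAdd Q₁) x)
    (hAU : ∀ v ∈ Aof (hypAdd Q₁) x, hypAdd Q₁ v = 0 → v ∈ U) :
    Nat.card (pairSet Q₁) ≤ Nat.card (moveSet (hypAdd Q₁) x) *
      ((Nat.card F ^ r - 1) * (Nat.card F ^ r - Nat.card F)) := by
  classical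
  have hUc : Nat.card U = Nat.card F ^ r := by
    rw [Module.natCard_eq_pow_finrank (K := F) (V := U), hUr]
  have hUne : U ≠ ⊥ := fun h0 => by rw [h0, finrank_bot] at hUr; omega
  obtain ⟨w, hw, hw0⟩ := Submodule.exists_mem_ne_zero_of_ne_bot hUne
  obtain ⟨z, hz, hzw⟩ : ∃ z ∈ U, ∀ α : F, z ≠ α • w := by
    by_contra hno
    push Not at hno
    have hle : U ≤ Submodule.span F {w} := fun v hv => by
      obtain ⟨α, rfl⟩ := hno v hv
      exact Submodule.smul_mem _ _ (Submodule.mem_span_singleton_self w)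
    have := Submodule.finrank_mono hle
    rw [finrank_span_singleton hw0] at this
    omega
  have horth : ∀ a ∈ U, ∀ b ∈ U, polar (hypAdd Q₁) a b = 0 := fun a ha b hb => by
    rw [polar, hUs _ (U.add_mem ha hb), hUs _ ha, hUs _ hb, sub_zero, sub_zero]
  obtain ⟨e, f, he, -, hef⟩ := h.pair
  have he0 : e ≠ 0 := by rintro rfl; simp at hef
  obtain ⟨g₁, c₁, r₁, hg₁, e1, e2⟩ :=
    exists_move_pair h he0 he hw0 (hUs w hw) (hUs z hz) (horth w hw z hz) hzw
  refine card_le_of_cover (Q := hypAdd Q₁) (β := ((F × F) × W₁) × ((F × F) × W₁)) (pairSet Q₁) x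
    (fun K => {p | p ∈ pairSet Q₁ ∧ p.1 ∈ orthG (polarBilin (hypAdd Q₁)) K ∧
      p.2 ∈ orthG (polarBilin (hypAdd Q₁)) K}) ?_ ?_
  · rintro ⟨s, t⟩ hst
    obtain ⟨hs1, hs2, ht2, hst', hind⟩ := hst
    obtain ⟨g₂, c₂, r₂, hg₂, e3, e4⟩ := exists_move_pair h he0 he hs1 hs2 ht2 hst' hind
    refine ⟨_, moveK_mem_moveSet (hg₂.mul hg₁.inv) (Kof_mem_moveSet x),
      ⟨hs1, hs2, ht2, hst', hind⟩, ?_⟩
    have key : ∀ v v' d, c₁⁻¹ • r₁.1 d = v → c₂⁻¹ • r₂.1 d = v' → v ∈ U →
        v' ∈ orthG (polarBilin (hypAdd Q₁))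
          (moveK (c₁⁻¹ * c₂) (r₂ * r₁⁻¹) (Kof (hypAdd Q₁) x)) := by
      intro v v' d h1 h2 hv
      have hv' : v ∈ Aof (hypAdd Q₁) x := hUA v hv
      have := mem_orth_moveK (r := r₂ * r₁⁻¹) (mul_ne_zero (inv_ne_zero hg₁.1) hg₂.1) hv'
      convert this using 1
      rw [← h1, ← h2, Subgroup.coe_mul, LinearEquiv.mul_apply, map_smul, map_smul, smul_smul,
        Subgroup.coe_inv, show (r₁.1)⁻¹ (r₁.1 d) = d from r₁.1.symm_apply_apply d, mul_inv,
        inv_inv, mul_right_comm, mul_inv_cancel₀ hg₁.1, one_mul]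
    exact ⟨key w s _ e1 e3 hw, key z t _ e2 e4 hz⟩
  · intro K hK
    obtain ⟨g, c, r', hg, rfl⟩ := hK
    -- pull the pairs back into `U`
    let B := {p : U × U | p.1 ≠ 0 ∧ ∀ α : F, p.2 ≠ α • p.1}
    have hpull : ∀ v ∈ orthG (polarBilin (hypAdd Q₁)) (moveK c r' (Kof (hypAdd Q₁) x)),
        hypAdd Q₁ v = 0 → c • r'.1.symm v ∈ U := by
      intro v hv hv0
      refine hAU _ ?_ (by
        rw [QuadraticMap.map_smul, ← OQ_map_app r', LinearEquiv.apply_symm_apply, hv0, smul_zero])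
      intro a ha
      have := hv _ ⟨a, ha, rfl⟩
      simp only [moveMap_apply, polarBilin_apply_apply, polar_smul_right, polar_smul_left] at this ⊢
      rwa [show polar (hypAdd Q₁) a (r'.1.symm v) = polar (hypAdd Q₁) (r'.1 a) v by
        rw [← OQ_polar r', LinearEquiv.apply_symm_apply]]
    let φ : {p | p ∈ pairSet Q₁ ∧
        p.1 ∈ orthG (polarBilin (hypAdd Q₁)) (moveK c r' (Kof (hypAdd Q₁) x)) ∧
        p.2 ∈ orthG (polarBilin (hypAdd Q₁)) (moveK c r' (Kof (hypAdd Q₁) x))} → B := fun p =>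
      ⟨(⟨_, hpull _ p.2.2.1 p.2.1.2.1⟩, ⟨_, hpull _ p.2.2.2 p.2.1.2.2.1⟩), by
        obtain ⟨hp1, -, -, -, hp5⟩ := p.2.1
        refine ⟨fun h0 => hp1 ?_, fun α hα => hp5 α ?_⟩
        · have := congrArg Subtype.val h0
          simpa [hg.1] using this
        · have h' : c • r'.1.symm p.1.2 = α • (c • r'.1.symm p.1.1) := congrArg Subtype.val hα
          rw [← smul_comm c α, ← map_smul (r'.1.symm) α] at h'
          exact r'.1.symm.injective (smul_right_injective _ hg.1 h')⟩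
    have hφ : Function.Injective φ := fun p p' hp => by
      have h1 := congrArg (fun v : B => (v.1.1 : (F × F) × W₁)) hp
      have h2 := congrArg (fun v : B => (v.1.2 : (F × F) × W₁)) hp
      exact Subtype.ext (Prod.ext (r'.1.symm.injective (smul_right_injective _ hg.1 h1))
        (r'.1.symm.injective (smul_right_injective _ hg.1 h2)))
    refine (Nat.card_le_card_of_injective φ hφ).trans ?_
    have : Fintype U := Fintype.ofFinite _
    have : Fintype F := Fintype.ofFinite _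
    let ψ : B → Σ y : {y : U // y ≠ 0}, {v : U // v ∉ Set.range fun α : F => α • y.1} := fun p =>
      ⟨⟨p.1.1, p.2.1⟩, ⟨p.1.2, fun ⟨α, hα⟩ => p.2.2 α hα.symm⟩⟩
    have hψ : Function.Injective ψ := fun p p' hp => by
      refine Subtype.ext (Prod.ext ?_ ?_)
      · exact congrArg (fun v : Σ y : {y : U // y ≠ 0},
          {v : U // v ∉ Set.range fun α : F => α • y.1} => v.1.1) hp
      · exact congrArg (fun v : Σ y : {y : U // y ≠ 0},
          {v : U // v ∉ Set.range fun α : F => α • y.1} => v.2.1) hp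
    refine (Nat.card_le_card_of_injective ψ hψ).trans ?_
    rw [Nat.card_sigma]
    have h2 : ∀ y : {y : U // y ≠ 0},
        Nat.card {v : U // v ∉ Set.range fun α : F => α • y.1} = Nat.card F ^ r - Nat.card F := by
      intro y
      rw [← hUc, Nat.card_eq_fintype_card, Nat.card_eq_fintype_card, Nat.card_eq_fintype_card,
        Fintype.card_subtype_compl]
      congr 1
      exact Set.card_range_of_injective fun a b hab => smul_left_injective F y.2 hab
    simp only [h2, Finset.sum_const, Finset.card_univ, smul_eq_mul]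
    rw [← hUc, Nat.card_eq_fintype_card, Fintype.card_subtype_compl, Fintype.card_subtype_eq]

/-- The pairs of a totally singular dual cover all pairs. -/
theorem pairSet_le (h : InnerSpace Q₁) (x : X) {r : ℕ} (hr2 : 2 ≤ r)
    {U : Submodule F ((F × F) × W₁)} (hUr : finrank F U = r) (hUs : ∀ y ∈ U, hypAdd Q₁ y = 0)
    (hA : Aof (hypAdd Q₁) x = U.toAddSubgroup) :
    Nat.card (pairSet Q₁) ≤ Nat.card (moveSet (hypAdd Q₁) x) *
      ((Nat.card F ^ r - 1) * (Nat.card F ^ r - Nat.card F)) :=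
  pairSet_le' h x hr2 hUr hUs (fun v hv => by rw [hA]; exact hv)
    (fun v hv _ => by rw [hA] at hv; exact hv)

theorem mem_fib_card (h : InnerSpace Q₁) (y : X) :
    Nat.card (moveSet (hypAdd Q₁) y) * Nat.card (Aof (hypAdd Q₁) y) ≤
      Nat.card {z : X | Kof (hypAdd Q₁) z ∈ moveSet (hypAdd Q₁) y} := by
  refine card_mul_le_card_fibre (tau (hypAdd Q₁)) _ fun K hK => ⟨?_, ?_⟩
  · obtain ⟨g, c, s, hg, rfl⟩ := hK
    exact ⟨g • y, Kof_move hg y⟩
  · rw [card_of_mem_moveSet hK, mul_comm, card_Kof_mul_card_Aof h.bNondeg]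

theorem card_Aof_of_eq {y : X} {r : ℕ} {U : Submodule F ((F × F) × W₁)} (hr : finrank F U = r)
    (hA : Aof (hypAdd Q₁) y = U.toAddSubgroup) :
    Nat.card (Aof (hypAdd Q₁) y) = Nat.card F ^ r := by
  rw [hA, show Nat.card U.toAddSubgroup = Nat.card U from rfl,
    Module.natCard_eq_pow_finrank (K := F) (V := U), hr]

/-- No maximal totally singular dual when the pairs alone are too many. -/
theorem pi_absurd_small (h : InnerSpace Q₁) {r : ℕ} (hr2 : 2 ≤ r) (x : X)
    {U : Submodule F ((F × F) × W₁)} (hUr : finrank F U = r) (hUs : ∀ y ∈ U, hypAdd Q₁ y = 0)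
    (hA : Aof (hypAdd Q₁) x = U.toAddSubgroup)
    (h1 : Nat.card X * ((Nat.card F ^ r - 1) * (Nat.card F ^ r - Nat.card F)) <
      Nat.card (pairSet Q₁) * Nat.card F ^ r) :
    False := by
  have h2 := card_moveSet_mul_le h.bNondeg x
  rw [card_Aof_of_eq hUr hA] at h2
  have h3 := Nat.mul_le_mul_right (Nat.card F ^ r) (pairSet_le h x hr2 hUr hUs hA)
  have h4 := Nat.mul_le_mul_right ((Nat.card F ^ r - 1) * (Nat.card F ^ r - Nat.card F)) h2
  rw [mul_right_comm] at h3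
  omega

set_option maxHeartbeats 600000 in
/-- No maximal totally singular dual in a small action. -/
theorem pi_absurd (h : InnerSpace Q₁) {r : ℕ} (hr2 : 2 ≤ r) (x : X)
    {U : Submodule F ((F × F) × W₁)} (hUr : finrank F U = r) (hUs : ∀ y ∈ U, hypAdd Q₁ y = 0)
    (hA : Aof (hypAdd Q₁) x = U.toAddSubgroup)
    (hnofull : ∀ y : X, Aof (hypAdd Q₁) y ≠ ⊥)
    (hclass : ∀ y : X, Kof (hypAdd Q₁) y = ⊥ ∨
      (∃ w, ∀ v ∈ Aof (hypAdd Q₁) y, ∃ t : F, v = t • w) ∨
      ∃ U' : Submodule F ((F × F) × W₁), finrank F U' = r ∧ (∀ v ∈ U', hypAdd Q₁ v = 0) ∧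
        Aof (hypAdd Q₁) y = U'.toAddSubgroup)
    (hc : ∃ c : F, c ≠ 0 ∧ c * c ≠ 1)
    (h1 : Nat.card X * ((Nat.card F ^ r - 1) * (Nat.card F ^ r - Nat.card F)) <
      2 * (Nat.card (pairSet Q₁) * Nat.card F ^ r))
    (h2 : ∀ v : F, Nat.card X * ((Nat.card F ^ r - 1) * (Nat.card F ^ r - Nat.card F)) <
      Nat.card (pairSet Q₁) * Nat.card F ^ r +
        Nat.card {s | s ≠ 0 ∧ hypAdd Q₁ s = v} * ((Nat.card F ^ r - 1) * (Nat.card F ^ r - Nat.card F)))
    (h3 : Nat.card X * ((Nat.card F ^ r - 1) * (Nat.card F ^ r - Nat.card F)) <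
      Nat.card (pairSet Q₁) * Nat.card F ^ r +
        Nat.card ((F × F) × W₁) * ((Nat.card F ^ r - 1) * (Nat.card F ^ r - Nat.card F))) :
    False := by
  classical
  set Bd := (Nat.card F ^ r - 1) * (Nat.card F ^ r - Nat.card F) with hBd
  set P := Nat.card (pairSet Q₁) with hP
  set a := Nat.card F ^ r with ha
  have hkey : ∀ {y : X} {U' : Submodule F ((F × F) × W₁)}, finrank F U' = r →
      (∀ v ∈ U', hypAdd Q₁ v = 0) → Aof (hypAdd Q₁) y = U'.toAddSubgroup →
      P * a ≤ Nat.card (moveSet (hypAdd Q₁) y) * Nat.card (Aof (hypAdd Q₁) y) * Bd := by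
    intro y U' hr' hs' hA'
    rw [card_Aof_of_eq hr' hA', mul_right_comm]
    exact Nat.mul_le_mul_right a (pairSet_le h y hr2 hr' hs' hA')
  -- every point has a translate of the same dual
  have hall : ∀ y : X, Kof (hypAdd Q₁) y ∈ moveSet (hypAdd Q₁) x := by
    intro y
    by_contra hy
    have hdisj : Disjoint {z : X | Kof (hypAdd Q₁) z ∈ moveSet (hypAdd Q₁) x}
        {z : X | Kof (hypAdd Q₁) z ∈ moveSet (hypAdd Q₁) y} := by
      rw [Set.disjoint_left]
      intro z ⟨g₁, c₁, r₁, hg₁, e₁⟩ ⟨g₂, c₂, r₂, hg₂, e₂⟩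
      refine hy ⟨g₂⁻¹ * g₁, _, _, hg₂.inv.mul hg₁, ?_⟩
      rw [← moveK_moveK, ← e₁, e₂, moveK_moveK, mul_inv_cancel₀ hg₂.1, inv_mul_cancel,
        moveK_one_one]
    have hsum := Set.ncard_union_eq hdisj
    have hle : (({z : X | Kof (hypAdd Q₁) z ∈ moveSet (hypAdd Q₁) x} ∪
        {z : X | Kof (hypAdd Q₁) z ∈ moveSet (hypAdd Q₁) y} : Set X)).ncard ≤ Nat.card X :=
      Set.ncard_le_card _
    rw [hsum, ← Nat.card_coe_set_eq, ← Nat.card_coe_set_eq] at hle
    have hx' := (hkey hUr hUs hA).trans (Nat.mul_le_mul_right Bd (mem_fib_card h x))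
    have hy' := Nat.mul_le_mul_right Bd (mem_fib_card h y)
    have hle' := Nat.mul_le_mul_right Bd hle
    rw [add_mul] at hle'
    rcases hclass y with hbot | ⟨w, hw⟩ | ⟨U', hr', hs', hA'⟩
    · have e : Nat.card (Aof (hypAdd Q₁) y) = Nat.card ((F × F) × W₁) := by
        have := (orthG_eq_top_iff _ (polarBilin_sep h.bNondeg) (polarBilin_symm _) _).2 hbot
        rw [Aof, this]
        exact Nat.card_congr AddSubgroup.topEquiv.toEquiv
      have hk : 0 < Nat.card (moveSet (hypAdd Q₁) y) := by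
        have : Nonempty (moveSet (hypAdd Q₁) y) := ⟨⟨_, Kof_mem_moveSet y⟩⟩
        exact Nat.card_pos
      have := Nat.mul_le_mul_right Bd (Nat.le_mul_of_pos_left (Nat.card ((F × F) × W₁)) hk)
      rw [e] at hy'
      omega
    · obtain ⟨z, hz, hz0⟩ : ∃ z ∈ Aof (hypAdd Q₁) y, z ≠ 0 := by
        by_contra hno
        push Not at hno
        exact hnofull y ((AddSubgroup.eq_bot_iff_forall _).2 hno)
      have := Nat.mul_le_mul_right Bd (card_level_le_of_line h y hz hz0)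
      have := h2 (hypAdd Q₁ z)
      omega
    · have := hkey hr' hs' hA'
      omega
  -- the points with the dual of `x` form one orbit
  set K := Kof (hypAdd Q₁) x with hK
  have horbit : ∀ z, Kof (hypAdd Q₁) z = K →
      ∃ b, tau (hypAdd Q₁) (Multiplicative.ofAdd b) • x = z := by
    by_contra hno
    push Not at hno
    obtain ⟨z, hz, hzx⟩ := hno
    let O : X → Set X := fun p => Set.range fun b : (F × F) × W₁ =>
      tau (hypAdd Q₁) (Multiplicative.ofAdd b) • p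
    have hO : ∀ p, Kof (hypAdd Q₁) p = K → Nat.card (O p) = a ∧
        ∀ q ∈ O p, Kof (hypAdd Q₁) q = K := fun p hp => by
      refine ⟨?_, fun q ⟨b, hb⟩ => by rw [← hb]; exact (stabAdd_smul _ p b).trans hp⟩
      rw [card_orbit_eq h.bNondeg, Aof, hp, ha, ← card_Aof_of_eq hUr hA]
    have hd : Disjoint (O x) (O z) := by
      rw [Set.disjoint_left]
      rintro _ ⟨b, rfl⟩ ⟨b', hb'⟩
      refine hzx (-b' + b) ?_
      rw [ofAdd_add, ofAdd_neg, map_mul, map_inv, mul_smul, inv_smul_eq_iff]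
      exact hb'.symm
    have hY : 2 * a ≤ Nat.card {q : X | Kof (hypAdd Q₁) q = K} := by
      rw [Nat.card_coe_set_eq]
      refine le_trans (le_of_eq ?_) (Set.ncard_le_ncard (s := O x ∪ O z) ?_)
      · rw [Set.ncard_union_eq hd, ← Nat.card_coe_set_eq, ← Nat.card_coe_set_eq, (hO x rfl).1,
          (hO z hz).1, two_mul]
      · rintro q (hq | hq)
        exacts [(hO x rfl).2 q hq, (hO z hz).2 q hq]
    have hcount : Nat.card (moveSet (hypAdd Q₁) x) * Nat.card {q : X | Kof (hypAdd Q₁) q = K} ≤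
        Nat.card X := by
      choose g c s hg e using fun L : moveSet (hypAdd Q₁) x => L.2
      rw [← Nat.card_prod]
      refine Nat.card_le_card_of_injective
        (fun p : moveSet (hypAdd Q₁) x × {q : X | Kof (hypAdd Q₁) q = K} => g p.1 • p.2.1) ?_
      rintro ⟨L, p⟩ ⟨L', p'⟩ hpp
      have h1 := congrArg (Kof (hypAdd Q₁)) hpp
      have k1 : Kof (hypAdd Q₁) (g L • p.1) = L.1 := by rw [Kof_move (hg L), p.2, e L]
      have k2 : Kof (hypAdd Q₁) (g L' • p'.1) = L'.1 := by rw [Kof_move (hg L'), p'.2, e L']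
      obtain rfl : L = L' := Subtype.ext (k1.symm.trans (h1.trans k2))
      exact Prod.ext rfl (Subtype.ext (MulAction.injective _ hpp))
    have e1 := hkey hUr hUs hA
    rw [card_Aof_of_eq hUr hA, ← ha] at e1
    have e2 := Nat.mul_le_mul_right Bd ((Nat.mul_le_mul_left _ hY).trans hcount)
    rw [show Nat.card (moveSet (hypAdd Q₁) x) * (2 * a) * Bd =
      2 * (Nat.card (moveSet (hypAdd Q₁) x) * a * Bd) by ring] at e2
    omega
  -- a scalar move and its fixed point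
  obtain ⟨c₀, hc₀, hc₁⟩ := hc
  have hc2 : c₀ * c₀ ≠ 0 := mul_ne_zero hc₀ hc₀
  have hc3 : (1 : F) - c₀ * c₀ ≠ 0 := sub_ne_zero.2 (Ne.symm hc₁)
  set x' : (F × F) × W₁ := ((1, -1), 0) with hx'
  obtain ⟨g, hx0, hy0, hu, hv, hw⟩ := exists_torus_elt h.bNondeg h.two hc2 (x := x')
    (y := c₀ • x') (by simp [hx']) (by simp [hx'])
  have hr1 : reflQ (hypAdd Q₁) x' hx0 * reflQ (hypAdd Q₁) (c₀ • x') hy0 = 1 := by
    rw [reflQ_smul (hypAdd Q₁) x' hx0 c₀ hc₀]
    exact reflQ_mul_self _ _ _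
  have hg : IsMove g (c₀ * c₀) (1 : OQ (hypAdd Q₁)) := ⟨hc2, hu, fun b => by rw [hw, hr1]⟩
  have hKU : ∀ b, b ∈ K ↔ ∀ u ∈ U, polar (hypAdd Q₁) u b = 0 := fun b => by
    have e : K = orthG (polarBilin (hypAdd Q₁)) U.toAddSubgroup := by
      rw [← hA]
      exact (orthG_orthG _ (polarBilin_sep h.bNondeg) (polarBilin_symm _) K).symm
    rw [e]
    exact ⟨fun hb u hu => mem_orthG_of_smul_mem (B := polarBilin (hypAdd Q₁))
      (fun c => U.smul_mem c hu) hb, fun hb u hu => by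
        rw [show polarBilin (hypAdd Q₁) u b = 0 from hb u hu, map_zero]⟩
  have hKs : ∀ (t : F), ∀ b ∈ K, t • b ∈ K := fun t b hb => (hKU _).2 fun u hu => by
    rw [polar_smul_right, (hKU b).1 hb u hu, smul_zero]
  have hKg : ∀ p : X, Kof (hypAdd Q₁) p = K → Kof (hypAdd Q₁) (g • p) = K := fun p hp => by
    rw [Kof_move hg, hp]
    ext b
    refine ⟨fun ⟨v, hv', e⟩ => e ▸ hKs _ _ (by simpa using hv'), fun hb => ⟨(c₀ * c₀)⁻¹ • b,
      hKs _ _ hb, by
        rw [moveMap_apply, OneMemClass.coe_one, LinearEquiv.coe_one, id, smul_smul,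
          mul_inv_cancel₀ hc2, one_smul]⟩⟩
  obtain ⟨a₀, ha₀⟩ := horbit _ (hKg x rfl)
  have hgx : ∀ b, g • tau (hypAdd Q₁) (Multiplicative.ofAdd b) • x =
      tau (hypAdd Q₁) (Multiplicative.ofAdd ((c₀ * c₀) • b + a₀)) • x := fun b => by
    rw [ofAdd_add, map_mul, mul_smul, ha₀, ← mul_smul, ← mul_smul]
    congr 1
    have := conj_tau hg.2.1 hg.2.2 b
    rw [mul_inv_eq_iff_eq_mul] at this
    simpa using this
  set b₁ := (1 - c₀ * c₀)⁻¹ • a₀ with hb₁
  set x₁ := tau (hypAdd Q₁) (Multiplicative.ofAdd b₁) • x with hx₁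
  have hK1 : Kof (hypAdd Q₁) x₁ = K := stabAdd_smul _ x b₁
  have ha0 : a₀ = (1 - c₀ * c₀) • b₁ := by
    rw [hb₁, smul_smul, mul_inv_cancel₀ hc3, one_smul]
  have hfix : g • x₁ = x₁ := by
    rw [hx₁, hgx]
    congr 3
    rw [ha0]
    module
  have huniq : ∀ p : X, Kof (hypAdd Q₁) p = K → g • p = p → p = x₁ := by
    intro p hp hgp
    obtain ⟨b, rfl⟩ := horbit p hp
    rw [hgx, smul_eq_smul_iff_sub_mem] at hgp
    rw [hx₁, smul_eq_smul_iff_sub_mem]
    have h1 := hKs (1 - c₀ * c₀)⁻¹ _ hgp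
    have h2 : -b₁ + b = -((1 - c₀ * c₀)⁻¹ • (-b + ((c₀ * c₀) • b + a₀))) := by
      rw [ha0, show -b + ((c₀ * c₀) • b + (1 - c₀ * c₀) • b₁) = (1 - c₀ * c₀) • (b₁ - b) by module,
        smul_smul, inv_mul_cancel₀ hc3, one_smul]
      abel
    rw [h2]
    exact neg_mem h1
  have hUK : ∀ b ∈ U, b ∈ K := fun b hb => (hKU b).2 fun u hu => by
    rw [polar, hUs _ (U.add_mem hu hb), hUs _ hu, hUs _ hb, sub_zero, sub_zero]
  have hroot : ∀ b ∈ U, ∀ v, polar (hypAdd (hypAdd Q₁)) ((0, 0), b) v = 0 →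
      polar (hypAdd (hypAdd Q₁)) (hE F ((F × F) × W₁)) v = 0 →
      RootFix (hypAdd Q₁) x₁ ((0, 0), b) v := by
    intro b hb v hbv hev
    have hv0 : v.1.2 = 0 := by simpa using hev
    have hbd : polar (hypAdd Q₁) b v.2 = 0 := by simpa using hbv
    have hdec : v = ((0, 0), v.2) + v.1.1 • hE F ((F × F) × W₁) := by
      refine Prod.ext (Prod.ext ?_ ?_) ?_ <;> simp [hv0]
    rw [hdec]
    refine RootFix.add ?_ ?_
    · obtain ⟨h1, h2, e⟩ := hypLift_siegel (Q := hypAdd Q₁) (hUs b hb) hbd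
      refine ⟨h1, h2, ?_⟩
      set l : ↥(EQ (hypAdd Q₁)) := ⟨siegel _ (hUs b hb) hbd, siegel_mem_EQ _ _ _⟩
      have hlift : (⟨siegel _ h1 h2, siegel_mem_EQ _ h1 h2⟩ : EG (hypAdd Q₁)) = lift _ l :=
        Subtype.ext e.symm
      rw [hlift]
      refine huniq _ ?_ ?_
      · rw [Kof_move (isMove_lift l), hK1]
        have hsub : moveK 1 l.1 K ≤ K := by
          rintro _ ⟨k, hk, rfl⟩
          refine (hKU _).2 fun u hu => ?_
          have hk0 : polar (hypAdd Q₁) b k = 0 := (hKU k).1 hk b hb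
          have hub : polar (hypAdd Q₁) u b = 0 := (hKU b).1 (hUK b hb) u hu
          simp [l, siegel_apply, hk0, (hKU k).1 hk u hu, polar_sub_right, polar_smul_right,
            polar_add_right, hub]
        exact AddSubgroup.eq_of_le_of_card_ge hsub (card_moveK one_ne_zero _ _).ge
      · have hcomm : g * lift _ l = lift _ l * g := by
          refine Subtype.ext (Subtype.ext (LinearEquiv.ext fun p => ?_))
          have hp : ∀ q : (F × F) × ((F × F) × W₁),
              g.1.1 q = ((c₀ * c₀ * q.1.1, (c₀ * c₀)⁻¹ * q.1.2), q.2) := fun q => by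
            have e1 : q = q.1.1 • hE F ((F × F) × W₁) + q.1.2 • hF F ((F × F) × W₁) +
                ((0, 0), q.2) := by
              refine Prod.ext (Prod.ext ?_ ?_) ?_ <;> simp
            conv_lhs => rw [e1, map_add, map_add, map_smul, map_smul, hu, hv, hg.2.2]
            refine Prod.ext (Prod.ext ?_ ?_) ?_ <;> simp [mul_comm]
          simp only [Subgroup.coe_mul, LinearEquiv.mul_apply, lift_apply, hp]
        rw [← mul_smul, hcomm, mul_smul, hfix]
    · rcases eq_or_ne v.1.1 0 with h0 | h0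
      · rw [h0, zero_smul]
        exact rootFix_zero (by simp [hUs b hb])
      · have hs1 : RootFix (hypAdd Q₁) x₁ (hE F ((F × F) × W₁)) ((0, 0), (-v.1.1) • b) :=
          rootFix_std.2 ⟨rfl, by rw [hK1]; exact hKs _ _ (hUK b hb)⟩
        have hs2 : RootFix (hypAdd Q₁) x₁ (v.1.1 • hE F ((F × F) × W₁))
            (-(((0, 0), b) : (F × F) × ((F × F) × W₁))) := by
          rw [rootFix_smul_left h0]
          convert hs1 using 1
          simp
        obtain ⟨q1, q2, q3⟩ := hs2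
        have p1 : hypAdd (hypAdd Q₁) ((0, 0), b) = 0 := by simp [hUs b hb]
        have p2 : polar (hypAdd (hypAdd Q₁)) ((0, 0), b) (v.1.1 • hE F ((F × F) × W₁)) = 0 := by
          simp
        refine ⟨p1, p2, ?_⟩
        convert q3 using 2
        exact Subtype.ext (siegel_swap _ p1 q1 p2 q2)
  -- read off at a vector of `U`
  obtain ⟨b, hb, hb0⟩ : ∃ b ∈ U, b ≠ 0 := by
    refine Submodule.exists_mem_ne_zero_of_ne_bot fun h0 => ?_
    rw [h0, finrank_bot] at hUr
    omega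
  have hne : (((0, 0), b) : (F × F) × ((F × F) × W₁)) ≠ 0 := fun e => hb0 (congrArg Prod.snd e)
  obtain ⟨g', hg'⟩ := exists_to_std (Q := hypAdd Q₁) h.bNondeg h.two hne (by simp [hUs b hb])
  have hline := (at_vector h.bNondeg (x := x₁) hg').2.2 (hE F ((F × F) × W₁)) (by simp)
    (hroot b hb)
  have hcard : Nat.card (Aof (hypAdd Q₁) (g' • x₁)) = a := by
    rw [Aof, card_orth_of_mem_moveSet h.bNondeg (hall _), ha, card_Aof_of_eq hUr hA]
  set z := (g'.1.1 (hE F ((F × F) × W₁))).2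
  have hsmall : Nat.card (Aof (hypAdd Q₁) (g' • x₁)) ≤ Nat.card F := by
    choose t ht using hline
    refine Nat.card_le_card_of_injective (fun y : Aof (hypAdd Q₁) (g' • x₁) => t y.1 y.2) ?_
    intro y y' hyy
    refine Subtype.ext ?_
    rw [ht y.1 y.2, ht y'.1 y'.2]
    exact congrArg (· • z) hyy
  have hq2 : Nat.card F ^ 2 ≤ a := Nat.pow_le_pow_right Nat.card_pos hr2
  have hq1 : 1 < Nat.card F := Finite.one_lt_card
  rw [pow_two] at hq2
  nlinarith

end Cfsg.Agent.MinIndex
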