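/-
A small action cannot be regular at all singular vectors.
-/
import Mathlib
import Cfsg.Prelude.Def_Classical
import Cfsg.Agent.Classical.OrthBasic
import Cfsg.Agent.Classical.OrthEichler
import Cfsg.Agent.Classical.OrthSimple
import Cfsg.Agent.OrthGen.Basic
import Cfsg.Agent.MinIndex.Duality
import Cfsg.Agent.MinIndex.Count
import Cfsg.Agent.MinIndex.OrthStd
import Cfsg.Agent.MinIndex.OrthTools
import Cfsg.Agent.MinIndex.OrthMoves
import Cfsg.Agent.MinIndex.OrthOrbits
import Cfsg.Agent.MinIndex.OrthRoot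
import Cfsg.Agent.MinIndex.OrthGeom

set_option autoImplicit false

namespace Cfsg.Agent.MinIndex

open QuadraticMap Cfsg.Agent.Classical Module

universe u w v

variable {F : Type u} [Field F] {W : Type w} [AddCommGroup W] [Module F W] {Q : QuadraticForm F W}
  {X : Type v} [MulAction (EG Q) X]

variable (Q X) in
/-- Regular at every singular vector. -/
def AllRegular : Prop :=
  ∀ (y : X) u, u ≠ 0 → hypAdd Q u = 0 → RegularAt Q y u

theorem Kof_eq_bot (hreg : AllRegular Q X) (y : X) : Kof Q y = ⊥ := by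
  refine (AddSubgroup.eq_bot_iff_forall _).2 fun a ha => ?_
  obtain ⟨k, hk⟩ := hreg y _ (isPair_hypAdd Q).ne_zero (hE_singular Q) ((0, 0), a)
    (rootFix_std.2 ⟨rfl, ha⟩)
  simpa using congrArg Prod.snd hk

theorem tau_injective (hreg : AllRegular Q X) (x : X) {a b : W}
    (h : tau Q (Multiplicative.ofAdd a) • x = tau Q (Multiplicative.ofAdd b) • x) : a = b := by
  rw [smul_eq_smul_iff_sub_mem, show stabAdd (tau Q) x = ⊥ from Kof_eq_bot hreg x,
    AddSubgroup.mem_bot] at h
  exact (neg_add_eq_zero.1 h).symm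

theorem tau_surjective [Finite W] [Finite X] (hreg : AllRegular Q X)
    (hn : Nat.card X < 2 * Nat.card W) (x y : X) :
    ∃ a : W, tau Q (Multiplicative.ofAdd a) • x = y := by
  by_contra hno
  push Not at hno
  have key : Nat.card (W ⊕ W) ≤ Nat.card X := by
    refine Nat.card_le_card_of_injective (Sum.elim (fun a => tau Q (Multiplicative.ofAdd a) • x)
      (fun a => tau Q (Multiplicative.ofAdd a) • y)) ?_
    rintro (a | a) (b | b) h <;> simp only [Sum.elim_inl, Sum.elim_inr] at h
    · rw [tau_injective hreg x h]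
    · exfalso
      refine hno (-b + a) ?_
      rw [ofAdd_add, ofAdd_neg, map_mul, map_inv, mul_smul, inv_smul_eq_iff]
      exact h
    · exfalso
      refine hno (-a + b) ?_
      rw [ofAdd_add, ofAdd_neg, map_mul, map_inv, mul_smul, inv_smul_eq_iff]
      exact h.symm
    · rw [tau_injective hreg y h]
  rw [Nat.card_sum] at key
  omega

/-- A move without fixed vectors commuting with an Eichler transformation of the inner space. -/
theorem regular_absurd_move [Finite W] [Finite X] [Nonempty X] (hreg : AllRegular Q X)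
    (hn : Nat.card X < 2 * Nat.card W) {g : EG Q} {c : F} {r : OQ Q} (hg : IsMove g c r)
    (hgF : g.1.1 (hF F W) = c⁻¹ • hF F W) (hfree : ∀ a : W, c • r.1 a = a → a = 0)
    {b d : W} (hb0 : Q b = 0) (hb : b ≠ 0) (hbd : polar Q b d = 0) (hd : ∀ k : F, d ≠ k • b)
    (hrb : r.1 b = b) (hrd : r.1 d = d) : False := by
  obtain ⟨x⟩ := ‹Nonempty X›
  obtain ⟨a₀, ha₀⟩ := tau_surjective hreg hn x (g • x)
  have hgx : ∀ a : W, g • tau Q (Multiplicative.ofAdd a) • x =
      tau Q (Multiplicative.ofAdd (c • r.1 a + a₀)) • x := fun a => by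
    rw [ofAdd_add, map_mul, mul_smul, ha₀, ← mul_smul, ← mul_smul]
    congr 1
    exact mul_inv_eq_iff_eq_mul.1 (conj_tau hg.2.1 hg.2.2 a)
  let ψ : W →+ W :=
    { toFun := fun a => a - c • r.1 a
      map_zero' := by simp
      map_add' := fun a a' => by simp only [map_add, smul_add]; abel }
  have hψ : Function.Injective ψ := (injective_iff_map_eq_zero ψ).2 fun a ha =>
    hfree a (sub_eq_zero.1 (ha : a - c • r.1 a = 0)).symm
  obtain ⟨a₁, ha₁⟩ := (Finite.injective_iff_surjective.1 hψ) a₀
  set x₁ := tau Q (Multiplicative.ofAdd a₁) • x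
  have hfix : g • x₁ = x₁ := by
    rw [hgx]
    congr 3
    rw [← ha₁]
    exact add_sub_cancel _ _
  have huniq : ∀ p, g • p = p → p = x₁ := by
    intro p hp
    obtain ⟨a, rfl⟩ := tau_surjective hreg hn x p
    rw [hgx] at hp
    have h1 := tau_injective hreg x hp
    have h2 : ψ a = ψ a₁ := by
      rw [ha₁]
      exact sub_eq_iff_eq_add'.2 h1.symm
    rw [hψ h2]
  obtain ⟨h1, h2, e⟩ := hypLift_siegel (Q := Q) hb0 hbd
  set l : ↥(EQ Q) := ⟨siegel Q hb0 hbd, siegel_mem_EQ _ _ _⟩
  have hrl : ∀ a, r.1 (l.1.1 a) = l.1.1 (r.1 a) := fun a => by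
    have := siegel_conj Q r hb0 hbd
    rw [mul_inv_eq_iff_eq_mul] at this
    have h' := congrArg (fun o : OQ Q => o.1 a) this
    simp only [Subgroup.coe_mul, LinearEquiv.mul_apply, hrb, hrd] at h'
    exact h'
  have hcomm : g * lift Q l = lift Q l * g := by
    refine Subtype.ext (Subtype.ext (LinearEquiv.ext fun p => ?_))
    have hp : ∀ q : (F × F) × W, g.1.1 q = ((c * q.1.1, c⁻¹ * q.1.2), r.1 q.2) := fun q => by
      have e1 : q = q.1.1 • hE F W + q.1.2 • hF F W + ((0, 0), q.2) := by
        refine Prod.ext (Prod.ext ?_ ?_) ?_ <;> simp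
      conv_lhs => rw [e1, map_add, map_add, map_smul, map_smul, hg.2.1, hgF, hg.2.2]
      refine Prod.ext (Prod.ext ?_ ?_) ?_ <;> simp [mul_comm]
    simp only [Subgroup.coe_mul, LinearEquiv.mul_apply, lift_apply, hp, hrl]
  have hl : lift Q l • x₁ = x₁ := huniq _ (by rw [← mul_smul, hcomm, mul_smul, hfix])
  have hroot : RootFix Q x₁ ((0, 0), b) ((0, 0), d) := by
    refine ⟨h1, h2, ?_⟩
    convert hl using 2
    exact Subtype.ext e.symm
  obtain ⟨k, hk⟩ := hreg x₁ _ (fun h0 => hb (congrArg Prod.snd h0)) h1 _ hroot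
  exact hd k (congrArg Prod.snd hk)

/-- A product of reflections in independent vectors. -/
theorem exists_refl_prod [FiniteDimensional F W] (hQ : BNondeg Q) (h2 : HasTwoPairs Q)
    (hone : ∀ v, Q v ≠ 0 → Q v = 1) :
    ∀ (n : ℕ) (f : Fin n → W), LinearIndependent F f → (∀ i, Q (f i) ≠ 0) →
      ∃ g : OQ Q, (∀ v, g.1 v = v ↔ ∀ i, polar Q (f i) v = 0) ∧
        (∀ v, g.1 v - v ∈ Submodule.span F (Set.range f)) ∧ (Even n → g ∈ EQ Q) ∧
        (Odd n → ∀ x (hx : Q x ≠ 0), reflQ Q x hx * g ∈ EQ Q) := by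
  intro n
  induction n with
  | zero =>
    intro f _ _
    exact ⟨1, fun v => by simp, fun v => by simp, fun _ => one_mem _, fun h => by simp at h⟩
  | succ n ih =>
    intro f hf hf0
    obtain ⟨g, hg1, hg2, hg3, hg4⟩ := ih (f ∘ Fin.succ) (hf.comp _ (Fin.succ_injective n))
      (fun i => hf0 _)
    have happ : ∀ v, (reflQ Q (f 0) (hf0 0) * g).1 v =
        g.1 v - ((Q (f 0))⁻¹ * polar Q (f 0) (g.1 v)) • f 0 := fun v => by
      rw [Subgroup.coe_mul, LinearEquiv.mul_apply, reflQ_apply]
    have hsub : Submodule.span F (Set.range (f ∘ Fin.succ)) ≤ Submodule.span F (Set.range f) :=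
      Submodule.span_mono (Set.range_comp_subset_range _ _)
    refine ⟨reflQ Q (f 0) (hf0 0) * g, fun v => ⟨fun hv => ?_, fun hv => ?_⟩, fun v => ?_, ?_, ?_⟩
    · rw [happ, sub_eq_iff_eq_add] at hv
      have hmem := hg2 v
      rw [hv, add_sub_cancel_left] at hmem
      have hnot : f 0 ∉ Submodule.span F (Set.range (f ∘ Fin.succ)) := by
        rw [Set.range_comp]
        exact hf.notMem_span_image (by simp [Fin.succ_ne_zero])
      have hcoef : (Q (f 0))⁻¹ * polar Q (f 0) (g.1 v) = 0 := by
        by_contra hne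
        exact hnot (by
          have := Submodule.smul_mem _ ((Q (f 0))⁻¹ * polar Q (f 0) (g.1 v))⁻¹ hmem
          rwa [smul_smul, inv_mul_cancel₀ hne, one_smul] at this)
      rw [hcoef, zero_smul, add_zero] at hv
      intro i
      induction i using Fin.cases with
      | zero =>
        rw [hv] at hcoef
        exact (mul_eq_zero.1 hcoef).resolve_left (inv_ne_zero (hf0 0))
      | succ j => exact (hg1 v).1 hv j
    · rw [happ, (hg1 v).2 fun i => hv i.succ, hv 0]
      simp
    · rw [happ, show g.1 v - ((Q (f 0))⁻¹ * polar Q (f 0) (g.1 v)) • f 0 - v =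
        (g.1 v - v) - ((Q (f 0))⁻¹ * polar Q (f 0) (g.1 v)) • f 0 by abel]
      exact sub_mem (hsub (hg2 v))
        (Submodule.smul_mem _ _ (Submodule.subset_span (Set.mem_range_self 0)))
    · intro he
      exact hg4 (Nat.even_add_one.1 he |> Nat.not_even_iff_odd.1) (f 0) (hf0 0)
    · intro ho x hx
      rw [← mul_assoc]
      exact mul_mem (reflQ_mul_mem_EQ hQ h2 hx (hf0 0) (by rw [hone _ hx, hone _ (hf0 0)]))
        (hg3 (Nat.odd_add_one.1 ho |> Nat.not_odd_iff_even.1))

/-- The non-singular vectors span a non-degenerate subspace of dimension at least three. -/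
theorem exists_nonsing_basis [FiniteDimensional F W] (h2 : (2 : F) = 0) (P : Submodule F W)
    (hP : ∀ v ∈ P, (∀ p ∈ P, polar Q v p = 0) → v = 0) (h3 : 3 ≤ finrank F P) :
    ∃ f : Fin (finrank F P) → W, LinearIndependent F f ∧ (∀ i, Q (f i) ≠ 0) ∧
      Submodule.span F (Set.range f) = P := by
  set S : Set W := {v | v ∈ P ∧ Q v ≠ 0}
  have hspan : Submodule.span F S = P := by
    refine le_antisymm (Submodule.span_le.2 fun v hv => hv.1) fun y hy => ?_
    by_contra hyS
    set T := Submodule.span F S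
    have hTP : T ≤ P := Submodule.span_le.2 fun v hv => hv.1
    have hout : ∀ a ∈ P, a ∉ T → Q a = 0 := fun a ha haT => by
      by_contra hne
      exact haT (Submodule.subset_span ⟨ha, hne⟩)
    have hlin : ∀ a ∈ P, a ∉ T → ∀ k ∈ T, polar Q a k = -Q k := fun a ha haT k hk => by
      have := hout (a + k) (P.add_mem ha (hTP hk)) fun h => haT ((T.add_mem_iff_left hk).1 h)
      rw [qf_add, hout a ha haT] at this
      linear_combination this
    have hTT : ∀ k ∈ T, ∀ k' ∈ T, polar Q k k' = 0 := fun k hk k' hk' => by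
      have e := hlin y hy hyS (k + k') (T.add_mem hk hk')
      rw [polar_add_right, hlin y hy hyS k hk, hlin y hy hyS k' hk', qf_add] at e
      linear_combination e
    have hzero : ∀ k ∈ T, Q k = 0 → k = 0 := fun k hk hk0 => by
      refine hP k (hTP hk) fun p hp => ?_
      by_cases hpT : p ∈ T
      · exact hTT k hk p hpT
      · rw [polar_comm, hlin p hp hpT k hk, hk0, neg_zero]
    obtain ⟨k, hk, hk0⟩ : ∃ k ∈ T, k ≠ 0 := by
      have hy0 : y ≠ 0 := fun h0 => hyS (h0 ▸ zero_mem _)
      obtain ⟨p, hp, hpy⟩ : ∃ p ∈ P, polar Q y p ≠ 0 := by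
        by_contra hno
        push Not at hno
        exact hy0 (hP y hy hno)
      by_cases hp0 : Q p = 0
      · refine ⟨y + p, Submodule.subset_span ⟨P.add_mem hy hp, ?_⟩, fun h0 => ?_⟩
        · rw [qf_add, hout y hy hyS, hp0, zero_add, zero_add]; exact hpy
        · rw [eq_neg_of_add_eq_zero_right h0, polar_neg_right, polar_self, hout y hy hyS] at hpy
          simp at hpy
      · exact ⟨p, Submodule.subset_span ⟨hp, hp0⟩, fun h0 => hp0 (by rw [h0, QuadraticMap.map_zero])⟩
    obtain ⟨y', hy', hn⟩ : ∃ y' ∈ P, y' ∉ Submodule.span F (Set.range ![k, y]) := by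
      refine SetLike.not_le_iff_exists.1 fun hle => ?_
      have h1 := Submodule.finrank_mono hle
      have h4 := finrank_span_range_le (F := F) ![k, y]
      omega
    have hmem : ∀ s t : F, s • k + t • y ∈ Submodule.span F (Set.range ![k, y]) := fun s t =>
      add_mem (Submodule.smul_mem _ _ (Submodule.subset_span ⟨0, rfl⟩))
        (Submodule.smul_mem _ _ (Submodule.subset_span ⟨1, rfl⟩))
    have hTk : ∀ a ∈ T, ∃ s : F, a = s • k := fun a ha => by
      have hQk : Q k ≠ 0 := fun h0 => hk0 (hzero k hk h0)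
      refine ⟨polar Q y a / polar Q y k, sub_eq_zero.1 (hzero _ (T.sub_mem ha (T.smul_mem _ hk)) ?_)⟩
      have e := hlin y hy hyS _ (T.sub_mem ha (T.smul_mem (polar Q y a / polar Q y k) hk))
      rw [polar_sub_right, polar_smul_right, smul_eq_mul,
        div_mul_cancel₀ _ (by rw [hlin y hy hyS k hk]; exact neg_ne_zero.2 hQk), sub_self] at e
      exact neg_eq_zero.1 e.symm
    have hy'T : y' ∉ T := fun h => hn (by
      obtain ⟨s, hs⟩ := hTk _ h
      have := hmem s 0
      rwa [zero_smul, add_zero, ← hs] at this)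
    have hy''T : y' - y ∉ T := fun h => hn (by
      obtain ⟨s, hs⟩ := hTk _ h
      have := hmem s 1
      rwa [one_smul, ← hs, sub_add_cancel] at this)
    have e := hlin _ (P.sub_mem hy' hy) hy''T k hk
    rw [polar_sub_left, hlin y' hy' hy'T k hk, hlin y hy hyS k hk, sub_self] at e
    exact hk0 (hzero k hk (neg_eq_zero.1 e.symm))
  obtain ⟨b, hbS, hbspan, hbli⟩ := exists_linearIndependent F S
  have : Fintype b := hbli.setFinite.fintype
  have hcard : Fintype.card b = finrank F P := by
    rw [← finrank_span_eq_card hbli, Subtype.range_coe, hbspan, hspan]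
  refine ⟨fun i => ((Fintype.equivFinOfCardEq hcard).symm i : W), ?_, fun i => ?_, ?_⟩
  · exact hbli.comp _ (Fintype.equivFinOfCardEq hcard).symm.injective
  · exact (hbS (Subtype.coe_prop _)).2
  · rw [show (fun i => ((Fintype.equivFinOfCardEq hcard).symm i : W)) =
      Subtype.val ∘ (Fintype.equivFinOfCardEq hcard).symm from rfl, Set.range_comp,
      Equiv.range_eq_univ, Set.image_univ, Subtype.range_coe, hbspan, hspan]

/-- The case of two elements. -/
theorem regular_absurd_two [Finite F] [Finite W] [FiniteDimensional F W] [Finite X] [Nonempty X]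
    (hF2 : Nat.card F = 2) (hQ : BNondeg Q) (h2 : HasTwoPairs Q) (heven : Even (finrank F W))
    (h5 : 5 ≤ finrank F W) (hreg : AllRegular Q X) (hn : Nat.card X < 2 * Nat.card W)
    {c z : W} (hc : Q c = 1) (hz : Q z = 1) (hcz : polar Q c z = 1) : False := by
  classical
  have : Fintype F := Fintype.ofFinite F
  have hF2' : Fintype.card F = 2 := by rw [← Nat.card_eq_fintype_card, hF2]
  have h2F : (2 : F) = 0 := by
    have := FiniteField.cast_card_eq_zero F
    rw [hF2'] at this
    exact_mod_cast this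
  have hcases : ∀ a : F, a = 0 ∨ a = 1 := by
    intro a
    by_contra hno
    push Not at hno
    have h3 : ({0, 1, a} : Finset F).card ≤ Fintype.card F := Finset.card_le_univ _
    rw [Finset.card_insert_of_notMem (by simp [hno.1.symm]), Finset.card_pair hno.2.symm, hF2'] at h3
    omega
  have hone : ∀ v, Q v ≠ 0 → Q v = 1 := fun v hv => (hcases _).resolve_left hv
  set D := Submodule.span F (Set.range ![c, z]) with hD
  set P := perpF Q ![c, z] with hP
  have hDz : ∀ d ∈ D, (∀ v ∈ D, polar Q v d = 0) → d = 0 := by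
    intro d hd h0
    rw [hD, Submodule.mem_span_range_iff_exists_fun] at hd
    obtain ⟨s, rfl⟩ := hd
    simp only [Fin.sum_univ_two, Matrix.cons_val_zero, Matrix.cons_val_one] at h0 ⊢
    have e1 := h0 c (Submodule.subset_span ⟨0, rfl⟩)
    have e2 := h0 z (Submodule.subset_span ⟨1, rfl⟩)
    rw [polar_add_right, polar_smul_right, polar_smul_right, polar_self, hc, hcz] at e1
    rw [polar_add_right, polar_smul_right, polar_smul_right, polar_self, hz, polar_comm Q z c,
      hcz] at e2
    simp only [two_smul, show (1 : F) + 1 = 0 by rw [one_add_one_eq_two, h2F], smul_zero,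
      zero_add, add_zero, smul_eq_mul, mul_one, mul_zero] at e1 e2
    simp [e1, e2]
  have hPD : ∀ v ∈ P, v ∈ D → v = 0 := fun v hvP hvD => hDz v hvD fun a ha => by
    rw [hP, perpF] at hvP
    exact hvP a ha
  have hPnd : ∀ v ∈ P, (∀ p ∈ P, polar Q v p = 0) → v = 0 := fun v hv h0 =>
    hPD v hv (mem_span_of_perp hQ _ fun p hp => by rw [polar_comm]; exact h0 p hp)
  have hD2 : finrank F D = 2 := by
    rw [hD, finrank_span_eq_card, Fintype.card_fin]
    rw [LinearIndependent.pair_iff]
    intro s t hst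
    have e1 := congrArg (polar Q c) hst
    have e2 := congrArg (polar Q z) hst
    rw [polar_add_right, polar_smul_right, polar_smul_right, polar_self, hc, hcz,
      polar_zero_right] at e1
    rw [polar_add_right, polar_smul_right, polar_smul_right, polar_self, hz, polar_comm Q z c,
      hcz, polar_zero_right] at e2
    simp only [two_smul, show (1 : F) + 1 = 0 by rw [one_add_one_eq_two, h2F], smul_zero,
      zero_add, add_zero, smul_eq_mul, mul_one, mul_zero] at e1 e2
    exact ⟨e2, e1⟩
  have hP2 : finrank F P + 2 = finrank F W := by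
    rw [hP, perpF, LinearMap.BilinForm.finrank_orthogonal (polarBilin_nondegenerate hQ), ← hD, hD2]
    omega
  obtain ⟨f, hf, hf0, hfspan⟩ := exists_nonsing_basis (Q := Q) h2F P hPnd (by omega)
  obtain ⟨l, hl1, hl2, hl3, -⟩ := exists_refl_prod hQ h2 hone _ f hf hf0
  rw [hfspan] at hl2
  have hlEQ : l ∈ EQ Q := hl3 (by
    obtain ⟨k, hk⟩ := heven
    exact ⟨k - 1, by omega⟩)
  have hlfix : ∀ v, l.1 v = v ↔ v ∈ D := by
    intro v
    rw [hl1]
    constructor
    · intro hv
      refine mem_span_of_perp hQ _ fun p hp => ?_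
      have aux : ∀ q ∈ Submodule.span F (Set.range f), polar Q q v = 0 := fun q hq => by
        induction hq using Submodule.span_induction with
        | mem a ha => obtain ⟨i, rfl⟩ := ha; exact hv i
        | zero => exact polar_zero_left _ v
        | add a b _ _ iha ihb => rw [polar_add_left, iha, ihb, add_zero]
        | smul t a _ iha => rw [polar_smul_left, iha, smul_zero]
      exact aux p (by rw [hfspan]; exact hp)
    · intro hv i
      have hi : f i ∈ P := by rw [← hfspan]; exact Submodule.subset_span (Set.mem_range_self i)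
      rw [hP, perpF] at hi
      rw [polar_comm]
      exact hi v hv
  -- the difference map on the complement
  let φ : P →ₗ[F] P :=
    { toFun := fun a => ⟨l.1 a - a, hl2 a⟩
      map_add' := fun a b => Subtype.ext (by simp only [Submodule.coe_add, map_add]; abel)
      map_smul' := fun t a => Subtype.ext (by simp [smul_sub]) }
  have hφ : Function.Injective φ := by
    rw [← LinearMap.ker_eq_bot, LinearMap.ker_eq_bot']
    rintro ⟨a, ha⟩ h0
    exact Subtype.ext (hPD a ha ((hlfix a).1 (sub_eq_zero.1 (congrArg Subtype.val h0))))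
  have hsurj := LinearMap.injective_iff_surjective.1 hφ
  obtain ⟨x⟩ := ‹Nonempty X›
  set L := lift Q ⟨l, hlEQ⟩
  obtain ⟨a₀, ha₀⟩ := tau_surjective hreg hn x (L • x)
  have hLx : ∀ a : W, L • tau Q (Multiplicative.ofAdd a) • x =
      tau Q (Multiplicative.ofAdd (l.1 a + a₀)) • x := fun a => by
    rw [ofAdd_add, map_mul, mul_smul, ha₀, ← mul_smul, ← mul_smul]
    congr 1
    exact mul_inv_eq_iff_eq_mul.1 (conj_lift_tau ⟨l, hlEQ⟩ a)
  obtain ⟨p₁, hp₁⟩ := hsurj ⟨l.1 a₀ - a₀, hl2 a₀⟩
  obtain ⟨p₂, hp₂⟩ := hsurj p₁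
  have htwo : ∀ a : W, a + a = 0 := fun a => by
    rw [← two_smul F a, h2F, zero_smul]
  have hneg : ∀ a : W, -a = a := fun a => neg_eq_iff_add_eq_zero.2 (htwo a)
  have hsq : ∀ a : W, l.1 (l.1 a - a) - (l.1 a - a) = l.1 (l.1 a) + a := fun a => by
    rw [map_sub]
    simp only [sub_eq_add_neg, hneg, neg_add_rev]
    rw [show l.1 (l.1 a) + l.1 a + (l.1 a + a) = l.1 (l.1 a) + a + (l.1 a + l.1 a) by abel,
      htwo, add_zero]
  set h := L * L
  have hfixiff : ∀ a : W, h • tau Q (Multiplicative.ofAdd a) • x =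
      tau Q (Multiplicative.ofAdd a) • x ↔
      l.1 (l.1 a - a) - (l.1 a - a) = l.1 a₀ - a₀ := by
    intro a
    rw [mul_smul, hLx, hLx, hsq, sub_eq_add_neg (l.1 a₀), hneg]
    have hexp : l.1 (l.1 a + a₀) + a₀ = l.1 (l.1 a) + (l.1 a₀ + a₀) := by
      rw [map_add l.1]; abel
    constructor
    · intro he
      have h' := tau_injective hreg x he
      rw [hexp] at h'
      calc l.1 (l.1 a) + a = l.1 (l.1 a) + (l.1 (l.1 a) + (l.1 a₀ + a₀)) := by rw [h']
        _ = (l.1 (l.1 a) + l.1 (l.1 a)) + (l.1 a₀ + a₀) := by abel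
        _ = l.1 a₀ + a₀ := by rw [htwo, zero_add]
    · intro he
      rw [hexp, ← he, ← add_assoc, htwo, zero_add]
  have hstar : h • tau Q (Multiplicative.ofAdd (p₂ : W)) • x =
      tau Q (Multiplicative.ofAdd (p₂ : W)) • x := by
    rw [hfixiff]
    have e1 : l.1 (p₂ : W) - p₂ = (p₁ : W) := congrArg Subtype.val hp₂
    have e2 : l.1 (p₁ : W) - p₁ = l.1 a₀ - a₀ := congrArg Subtype.val hp₁
    rw [e1, e2]
  have hdiff : ∀ a : W, h • tau Q (Multiplicative.ofAdd a) • x =
      tau Q (Multiplicative.ofAdd a) • x → a - p₂ ∈ D := by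
    intro a ha
    rw [hfixiff] at ha
    have hb := (hfixiff _).1 hstar
    refine (hlfix _).1 (sub_eq_zero.1 (hPD _ (hl2 _) ((hlfix _).1 (sub_eq_zero.1 ?_))))
    rw [map_sub l.1 a, show l.1 (l.1 a - l.1 (p₂ : W) - (a - p₂)) -
      (l.1 a - l.1 (p₂ : W) - (a - p₂)) = (l.1 (l.1 a - a) - (l.1 a - a)) -
        (l.1 (l.1 (p₂ : W) - p₂) - (l.1 (p₂ : W) - p₂)) by simp only [map_sub]; abel, ha, hb,
      sub_self]
  let Fx := {y : X // h • y = y}
  have hFx : Nat.card Fx ≤ 4 := by
    choose a ha using fun y : Fx => tau_surjective hreg hn x y.1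
    refine le_trans (Nat.card_le_card_of_injective (fun y : Fx => (⟨a y - p₂, hdiff _ (by
      rw [ha y]; exact y.2)⟩ : D)) fun y y' he => ?_) ?_
    · have e := congrArg Subtype.val he
      refine Subtype.ext ?_
      rw [← ha y, ← ha y', sub_left_injective e]
    · rw [Module.natCard_eq_pow_finrank (K := F) (V := D), hD2, hF2]
      norm_num
  let M : Subgroup (EG Q) := Subgroup.centralizer {h}
  have hMc : ∀ (m : M) (y : Fx), h • (m.1 • y.1) = m.1 • y.1 := fun m y => by
    rw [← mul_smul, show h * m.1 = m.1 * h from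
      Subgroup.mem_centralizer_iff.1 m.2 h rfl, mul_smul, y.2]
  let ρ : M →* Equiv.Perm Fx :=
    MonoidHom.mk' (fun m =>
      { toFun := fun y => ⟨m.1 • y.1, hMc m y⟩
        invFun := fun y => ⟨(m⁻¹ : M).1 • y.1, hMc m⁻¹ y⟩
        left_inv := fun y => Subtype.ext (inv_smul_smul m.1 y.1)
        right_inv := fun y => Subtype.ext (smul_inv_smul m.1 y.1) })
      (fun m m' => Equiv.ext fun y => Subtype.ext (mul_smul m.1 m'.1 y.1))
  let ι : M →* OQ (hypAdd Q) := (EQ (hypAdd Q)).subtype.comp M.subtype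
  have hι : Function.Injective ι :=
    (EQ (hypAdd Q)).subtype_injective.comp M.subtype_injective
  have hlift : ∀ (e p : (F × F) × W) (he : hypAdd Q e = 0) (hep : polar (hypAdd Q) e p = 0),
      L.1.1 e = e → L.1.1 p = p → ∃ m : M, ι m = siegel (hypAdd Q) he hep := by
    intro e p he hep hLe hLp
    have hh : h.1.1 e = e ∧ h.1.1 p = p := by
      constructor
      · rw [Subgroup.coe_mul, Subgroup.coe_mul, LinearEquiv.mul_apply, hLe, hLe]
      · rw [Subgroup.coe_mul, Subgroup.coe_mul, LinearEquiv.mul_apply, hLp, hLp]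
    refine ⟨⟨⟨siegel (hypAdd Q) he hep, siegel_mem_EQ _ he hep⟩,
      Subgroup.mem_centralizer_iff.2 fun g hg => ?_⟩, rfl⟩
    rw [Set.mem_singleton_iff.1 hg]
    refine Subtype.ext ?_
    change h.1 * siegel (hypAdd Q) he hep = siegel (hypAdd Q) he hep * h.1
    have := siegel_conj (hypAdd Q) h.1 he hep
    rw [mul_inv_eq_iff_eq_mul] at this
    rw [this]
    congr 1
    exact siegel_congr _ _ _ he hep hh.1 hh.2
  have hplane : ∀ p ∈ Submodule.span F ({(((0, 0), c) : (F × F) × W), ((0, 0), z)} : Set _),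
      p.1 = 0 ∧ L.1.1 p = p := by
    intro p hp
    obtain ⟨s, t, rfl⟩ := Submodule.mem_span_pair.1 hp
    refine ⟨by simp, ?_⟩
    have hd : l.1 (s • c + t • z) = s • c + t • z := (hlfix _).2
      (add_mem (Submodule.smul_mem _ _ (Submodule.subset_span ⟨0, rfl⟩))
        (Submodule.smul_mem _ _ (Submodule.subset_span ⟨1, rfl⟩)))
    refine Prod.ext ?_ ?_
    · simp [L, lift_apply]
    · simpa [L, lift_apply] using hd
  have hLfix : ∀ e : F × F, L.1.1 (e, 0) = (e, 0) := fun e => by simp [L, lift_apply]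
  have key := perfect_plane ι hι hFx ρ (a := hE F W) (b := hF F W)
    (c := ((0, 0), c)) (z := ((0, 0), z)) (hE_singular Q) (by simp) (by simp) (by simp) (by simp)
    (by simp) (by simp) (by simp [hc]) (by simp [hz]) (by simp [hcz])
    (by
      simp only [hypAdd_apply, hc, hz]
      have : polar (hypAdd Q) (((0, 0), c) : (F × F) × W) ((0, 0), z) = 1 := by simp [hcz]
      rw [this]
      have h4 : (4 : F) = 0 := by linear_combination 2 * h2F
      simp [h4])
    (fun p hp hax => hlift _ p (hE_singular Q) hax (hLfix _) (hplane p hp).2)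
    (fun p hp hbx => hlift _ p (by simp) hbx (hLfix _) (hplane p hp).2)
  obtain ⟨m, hm⟩ := hlift (hE F W) ((0, 0), c) (hE_singular Q) (hE_orth Q c) (hLfix _)
    (hplane _ (Submodule.subset_span (by simp))).2
  have h1 := key _ (Submodule.subset_span (by simp)) (hE_orth Q c) m hm
  have h2' := congrArg (fun π : Equiv.Perm Fx =>
    (π ⟨_, hstar⟩).1) h1
  change m.1 • (tau Q (Multiplicative.ofAdd (p₂ : W)) • x) =
    tau Q (Multiplicative.ofAdd (p₂ : W)) • x at h2'
  have hmt : m.1 = tau Q (Multiplicative.ofAdd c) := Subtype.ext hm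
  rw [hmt, ← mul_smul, ← map_mul, ← ofAdd_add] at h2'
  have := tau_injective hreg x h2'
  have hc0 : c = 0 := by simpa using this
  rw [hc0, QuadraticMap.map_zero] at hc
  exact zero_ne_one hc

section Inner

variable {W₁ : Type w} [AddCommGroup W₁] [Module F W₁] [Finite F] [Finite W₁]
  [FiniteDimensional F W₁] {Q₁ : QuadraticForm F W₁} {Y : Type v} [MulAction (EG (hypAdd Q₁)) Y]
  [Finite Y] [Nonempty Y]

/-- No small action regular at every singular vector. -/
theorem regular_absurd (h : InnerSpace Q₁) (heven : Nat.card F = 2 → Even (finrank F W₁))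
    (hreg : AllRegular (hypAdd Q₁) Y) (hn : Nat.card Y < 2 * Nat.card ((F × F) × W₁)) : False := by
  classical
  obtain ⟨e, f, he, hf, hef⟩ := h.pair
  have he0 : e ≠ 0 := by rintro rfl; simp at hef
  have : Fintype F := Fintype.ofFinite F
  have hdimW : finrank F ((F × F) × W₁) = 2 + finrank F W₁ := by
    rw [Module.finrank_prod, Module.finrank_prod, Module.finrank_self]
  by_cases hc : ∃ c : F, c ≠ 0 ∧ c * c ≠ 1
  · obtain ⟨c₀, hc₀, hc₁⟩ := hc
    have hc2 : c₀ * c₀ ≠ 0 := mul_ne_zero hc₀ hc₀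
    set x' : (F × F) × W₁ := ((1, -1), 0) with hx'
    obtain ⟨g, hx0, hy0, hu, hv, hw⟩ := exists_torus_elt h.bNondeg h.two hc2 (x := x')
      (y := c₀ • x') (by simp [hx']) (by simp [hx'])
    have hr1 : reflQ (hypAdd Q₁) x' hx0 * reflQ (hypAdd Q₁) (c₀ • x') hy0 = 1 := by
      rw [reflQ_smul (hypAdd Q₁) x' hx0 c₀ hc₀]
      exact reflQ_mul_self _ _ _
    refine regular_absurd_move hreg hn (g := g) (c := c₀ * c₀) (r := 1)
      ⟨hc2, hu, fun a => by rw [hw, hr1]⟩ hv (fun a ha => ?_) (b := hE F W₁) (d := ((0, 0), e))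
      (by simp) (isPair_hypAdd Q₁).ne_zero (by simp)
      (fun k hk => he0 (by simpa using congrArg Prod.snd hk)) rfl rfl
    rw [OneMemClass.coe_one, LinearEquiv.coe_one, id] at ha
    have : (c₀ * c₀ - 1) • a = 0 := by rw [sub_smul, one_smul, ha, sub_self]
    exact (smul_eq_zero.1 this).resolve_left (sub_ne_zero.2 hc₁)
  push Not at hc
  -- two or three elements
  by_cases h2 : (2 : F) = 0
  · have hsub : ∀ a : F, a = 0 ∨ a = 1 := fun a => by
      rcases eq_or_ne a 0 with h0 | h0
      · exact Or.inl h0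
      · refine Or.inr ?_
        have h1 : (a - 1) * (a - 1) = 0 := by linear_combination hc a h0 + (1 - a) * h2
        exact sub_eq_zero.1 (mul_self_eq_zero.1 h1)
    have hF2 : Nat.card F = 2 := by
      rw [Nat.card_eq_fintype_card]
      refine le_antisymm ?_ Fintype.one_lt_card
      calc Fintype.card F = (Finset.univ : Finset F).card := rfl
        _ ≤ ({0, 1} : Finset F).card := Finset.card_le_card fun a _ => by simpa using hsub a
        _ ≤ 2 := Finset.card_le_two
    refine regular_absurd_two hF2 h.bNondeg h.two ?_ ?_ hreg hn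
      (c := ((1, 1), 0)) (z := ((1, 0), e + f)) ?_ ?_ ?_
    · rw [hdimW]; exact (heven hF2).elim fun k hk => ⟨k + 1, by omega⟩
    · rw [hdimW]; have := h.three; omega
    · simp
    · simp [qf_add, he, hf, hef]
    · simp
  · have h3 : (3 : F) = 0 := by
      have := hc 2 h2
      linear_combination this
    have hm : (-1 : F) = 2 := by linear_combination -h3
    set x' : (F × F) × W₁ := ((1, -1), 0) with hx'
    set y' : (F × F) × W₁ := ((0, 1), e + f) with hy'
    have hQy : hypAdd Q₁ y' = 1 := by simp [hy', qf_add, he, hf, hef]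
    have hxy : polar (hypAdd Q₁) x' y' = 1 := by simp [hx', hy']
    have hQx : hypAdd Q₁ x' = -1 := by simp [hx']
    obtain ⟨g, hx0, hy0, hu, hv, hw⟩ := exists_torus_elt h.bNondeg h.two
      (neg_ne_zero.2 (one_ne_zero (α := F))) (x := x') (y := y') hQx (by rw [hQy, neg_neg])
    set r := reflQ (hypAdd Q₁) x' hx0 * reflQ (hypAdd Q₁) y' hy0 with hr
    obtain ⟨b, hb, hbn, hb0⟩ := exists_singular_perp h.bNondeg ![x', y'] (l := 0) ![]
      (by rw [hdimW]; have := h.three; omega)
    obtain ⟨hbx, hby⟩ := mem_perp_two.1 hb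
    have hbne : b ≠ 0 := fun h0 => hbn (by rw [h0]; exact zero_mem _)
    obtain ⟨d, hd, hdn⟩ : ∃ d ∈ perpF (hypAdd Q₁) ![x', y', b], d ∉ F ∙ b := by
      refine SetLike.not_le_iff_exists.1 fun hle => ?_
      have h4 := Submodule.finrank_mono hle
      have h5 := finrank_le_perpF h.bNondeg ![x', y', b]
      rw [finrank_span_singleton hbne] at h4
      have := h.three
      omega
    obtain ⟨hdx, hdy, hdb⟩ := mem_perp_three.1 hd
    refine regular_absurd_move hreg hn (g := g) (c := -1) (r := r)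
      ⟨neg_ne_zero.2 one_ne_zero, hu, hw⟩ hv (fun a ha => ?_) (b := b) (d := d) hb0 hbne hdb
      (fun k hk => hdn (Submodule.mem_span_singleton.2 ⟨k, hk.symm⟩))
      (by rw [hr, Subgroup.coe_mul, LinearEquiv.mul_apply, OrthGen.reflQ_fix _ hy0 hby,
        OrthGen.reflQ_fix _ hx0 hbx])
      (by rw [hr, Subgroup.coe_mul, LinearEquiv.mul_apply, OrthGen.reflQ_fix _ hy0 hdy,
        OrthGen.reflQ_fix _ hx0 hdx])
    rw [neg_one_smul, neg_eq_iff_eq_neg] at ha
    set s := polar (hypAdd Q₁) x' a with hs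
    set t := polar (hypAdd Q₁) y' a with ht
    have hra : r.1 a = a + (s - t) • x' - t • y' := by
      rw [hr, Subgroup.coe_mul, LinearEquiv.mul_apply, reflQ_apply, reflQ_apply,
        polar_sub_right, polar_smul_right, hQy, hQx, hxy, ← hs, ← ht]
      match_scalars <;> simp <;> ring
    rw [hra] at ha
    have ea : a = (s - t) • x' + (-t) • y' := by
      have e3 : (3 : F) • a = 0 := by rw [h3, zero_smul]
      linear_combination (norm := module) -ha + e3
    have e1 := congrArg (polar (hypAdd Q₁) x') ea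
    have e2 := congrArg (polar (hypAdd Q₁) y') ea
    rw [polar_add_right, polar_smul_right, polar_smul_right, ← hs, polar_self, hQx, hxy] at e1
    rw [polar_add_right, polar_smul_right, polar_smul_right, ← ht, polar_self, hQy,
      polar_comm (hypAdd Q₁) y' x', hxy] at e2
    simp only [two_smul, smul_eq_mul] at e1 e2
    have ht0 : t = 0 := by linear_combination s * h3 - e1
    have hs0 : s = 0 := by linear_combination -e2 + t * h3 + ht0
    rw [ea, hs0, ht0]
    simp

end Inner

end Cfsg.Agent.MinIndex
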