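/-
Small actions of the Eichler group have a fixed point.
-/
import Mathlib
import Cfsg.Prelude.Def_Classical
import Cfsg.Agent.Classical.OrthBasic
import Cfsg.Agent.Classical.OrthEichler
import Cfsg.Agent.Classical.OrthSimple
import Cfsg.Agent.MinIndex.OrthClass
import Cfsg.Agent.MinIndex.OrthPi
import Cfsg.Agent.MinIndex.OrthFull
import Cfsg.Agent.MinIndex.OrthLine
import Cfsg.Agent.MinIndex.OrthRegular

set_option autoImplicit false

namespace Cfsg.Agent.MinIndex

open QuadraticMap Cfsg.Agent.Classical Module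

universe u w v

variable {F : Type u} [Field F] {W₁ : Type w} [AddCommGroup W₁] [Module F W₁]

/-- What is assumed of the degree `n`. -/
structure SmallAct (Q₁ : QuadraticForm F W₁) (r n : ℕ) : Prop where
  r2 : 2 ≤ r
  hr : ∀ U : Submodule F ((F × F) × W₁), (∀ y ∈ U, hypAdd Q₁ y = 0) → finrank F U ≤ r
  hrV : ∀ U : Submodule F ((F × F) × ((F × F) × W₁)),
    (∀ y ∈ U, hypAdd (hypAdd Q₁) y = 0) → finrank F U ≤ r + 1
  hP : ∀ a, 3 ≤ a → 2 * a ≤ Nat.card F ^ r →
    n * ((a - 1) * (a - 2)) < Nat.card (pairSet Q₁) * a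
  hn : ∀ c : F, c ≠ 0 → n < 5 * Nat.card (levelSet Q₁ c)
  hn' : ∀ c : F, c ≠ 0 → n < Nat.card W₁ * Nat.card {s // hypAdd Q₁ s = c}
  H1 : n * (Nat.card F - 1) < Nat.card (sing1 (hypAdd (hypAdd Q₁)))
  H2 : n * ((Nat.card F ^ 2 - 1) * (Nat.card F ^ 2 - Nat.card F)) <
    Nat.card (sing1 (hypAdd (hypAdd Q₁))) * Nat.card F * Nat.card (sing1 (hypAdd Q₁))
  H3 : ∀ j, 3 ≤ j → j ≤ r + 1 → n * ((Nat.card F ^ j - 1) * (Nat.card F ^ j - Nat.card F) *
      (Nat.card F ^ j - Nat.card F ^ 2)) <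
    Nat.card (sing1 (hypAdd (hypAdd Q₁))) * (Nat.card F * Nat.card F) * Nat.card (pairSet Q₁)
  pi : n * ((Nat.card F ^ r - 1) * (Nat.card F ^ r - Nat.card F)) <
      Nat.card (pairSet Q₁) * Nat.card F ^ r ∨
    (∃ c : F, c ≠ 0 ∧ c * c ≠ 1) ∧
    n * ((Nat.card F ^ r - 1) * (Nat.card F ^ r - Nat.card F)) <
      2 * (Nat.card (pairSet Q₁) * Nat.card F ^ r) ∧
    (∀ v : F, n * ((Nat.card F ^ r - 1) * (Nat.card F ^ r - Nat.card F)) <
      Nat.card (pairSet Q₁) * Nat.card F ^ r +
        Nat.card {s | s ≠ 0 ∧ hypAdd Q₁ s = v} *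
          ((Nat.card F ^ r - 1) * (Nat.card F ^ r - Nat.card F))) ∧
    n * ((Nat.card F ^ r - 1) * (Nat.card F ^ r - Nat.card F)) <
      Nat.card (pairSet Q₁) * Nat.card F ^ r +
        Nat.card ((F × F) × W₁) * ((Nat.card F ^ r - 1) * (Nat.card F ^ r - Nat.card F))
  bad : (∀ c : F, c ≠ 0 → GoodVal Q₁ c) ∨
    Nat.card F = 3 ∧ r = 2 ∧ (∀ c : F, c ≠ 0 → c ≠ 1 → GoodVal Q₁ c) ∧
      n * 2 < 9 * Nat.card (sing1 (hypAdd Q₁)) ∧ n * 48 < 27 * Nat.card (pairSet Q₁)
  line : ∀ c : F, c ≠ 0 → n * Nat.card {t : F // t * t = 1} <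
    Nat.card {v // hypAdd (hypAdd Q₁) v = c}
  small : n < 2 * Nat.card ((F × F) × W₁)
  even : Nat.card F = 2 → Even (finrank F W₁)

variable [Finite F] [Finite W₁] [FiniteDimensional F W₁] {Q₁ : QuadraticForm F W₁}
  {X : Type v} [MulAction (EG (hypAdd Q₁)) X] [Finite X]

/-- The exceptional value in seven dimensions over three elements. -/
theorem class_bad (h : InnerSpace Q₁) (x : X) (h3 : Nat.card F = 3) {r : ℕ} (hr2 : r = 2)
    (hr : ∀ U : Submodule F ((F × F) × W₁), (∀ y ∈ U, hypAdd Q₁ y = 0) → finrank F U ≤ r)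
    (hgood : ∀ c : F, c ≠ 0 → c ≠ 1 → GoodVal Q₁ c)
    (hn : ∀ c : F, c ≠ 0 → Nat.card X < 5 * Nat.card (levelSet Q₁ c))
    (hn' : ∀ c : F, c ≠ 0 → Nat.card X < Nat.card W₁ * Nat.card {s // hypAdd Q₁ s = c})
    (h9 : Nat.card X * 2 < 9 * Nat.card (sing1 (hypAdd Q₁)))
    (h27 : Nat.card X * 48 < 27 * Nat.card (pairSet Q₁))
    {w : (F × F) × W₁} (hw : w ∈ Aof (hypAdd Q₁) x) (hw1 : hypAdd Q₁ w = 1) :
    (∀ y ∈ Aof (hypAdd Q₁) x, ∃ t : F, y = t • w) ∨ Kof (hypAdd Q₁) x = ⊥ := by
  classical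
  have : Fintype F := Fintype.ofFinite F
  have hF : Fintype.card F = 3 := by rw [← Nat.card_eq_fintype_card, h3]
  have h30 : (3 : F) = 0 := by
    have := FiniteField.cast_card_eq_zero F
    rw [hF] at this
    exact_mod_cast this
  have h20 : (2 : F) ≠ 0 := fun h => one_ne_zero (α := F) (by linear_combination h30 - h)
  have hcases : ∀ a : F, a = 0 ∨ a = 1 ∨ a = -1 := by
    intro a
    by_contra hno
    push Not at hno
    have h4 : ({0, 1, -1, a} : Finset F).card ≤ Fintype.card F := Finset.card_le_univ _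
    have h01 : (1 : F) ≠ -1 := fun h => h20 (by linear_combination h)
    rw [Finset.card_insert_of_notMem (by simp [hno.1.symm]),
      Finset.card_insert_of_notMem (by simp [h01, hno.2.1.symm]), Finset.card_pair hno.2.2.symm,
      hF] at h4
    omega
  by_cases hval : ∀ y ∈ Aof (hypAdd Q₁) x, hypAdd Q₁ y = 0 ∨ hypAdd Q₁ y = 1
  swap
  · push Not at hval
    obtain ⟨y, hy, hy0, hy1⟩ := hval
    rcases class_nonsingular h x hy0 hy (hgood _ hy0 hy1) (hn _ hy0) (hn' _ hy0) with h1 | h1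
    · refine Or.inl fun v hv => ?_
      obtain ⟨s, hs⟩ := h1 w hw
      have hs0 : s ≠ 0 := fun h0 => by
        rw [hs, h0, zero_smul, QuadraticMap.map_zero] at hw1
        exact zero_ne_one hw1
      obtain ⟨t, ht⟩ := h1 v hv
      exact ⟨t * s⁻¹, by rw [hs, smul_smul, mul_assoc, inv_mul_cancel₀ hs0, mul_one]; exact ht⟩
    · exact Or.inr h1
  set A := Aof (hypAdd Q₁) x
  have hsm : ∀ (t : F), ∀ v ∈ A, t • v ∈ A := fun t v hv => by
    rcases hcases t with rfl | rfl | rfl
    · rw [zero_smul]; exact zero_mem _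
    · rwa [one_smul]
    · rw [neg_one_smul]; exact neg_mem hv
  have horth : ∀ u ∈ A, ∀ v ∈ A, hypAdd Q₁ u = 0 → polar (hypAdd Q₁) u v = 0 := by
    intro u hu v hv hu0
    have h1 := hval _ (A.add_mem hu hv)
    have h2 := hval _ (A.add_mem (hsm (-1) u hu) hv)
    rw [qf_add, hu0] at h1
    rw [qf_add, QuadraticMap.map_smul, hu0, polar_smul_left] at h2
    simp only [zero_add, smul_eq_mul, mul_zero, neg_one_mul] at h1 h2
    rcases hcases (polar (hypAdd Q₁) u v) with e | e | e
    · exact e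
    all_goals
      exfalso
      rw [e] at h1 h2
      rcases hval v hv with e' | e' <;> rw [e'] at h1 h2 <;> rcases h1 with k | k <;>
        rcases h2 with l | l <;>
        first
          | exact one_ne_zero (α := F) (by linear_combination k)
          | exact one_ne_zero (α := F) (by linear_combination -k)
          | exact one_ne_zero (α := F) (by linear_combination l)
          | exact one_ne_zero (α := F) (by linear_combination -l)
          | exact h20 (by linear_combination k)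
          | exact h20 (by linear_combination -k)
          | exact h20 (by linear_combination l)
          | exact h20 (by linear_combination -l)
  let U : Submodule F ((F × F) × W₁) :=
    { carrier := {v | v ∈ A ∧ hypAdd Q₁ v = 0}
      add_mem' := fun {a b} ha hb => ⟨A.add_mem ha.1 hb.1, by
        rw [qf_add, ha.2, hb.2, horth a ha.1 b hb.1 ha.2, add_zero, add_zero]⟩
      zero_mem' := ⟨A.zero_mem, QuadraticMap.map_zero _⟩
      smul_mem' := fun t v hv => ⟨hsm t v hv.1, by rw [QuadraticMap.map_smul, hv.2, smul_zero]⟩ }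
  have hdec : ∀ v ∈ A, ∃ t : F, v - t • w ∈ U := by
    intro v hv
    rcases hval v hv with hv0 | hv1
    · exact ⟨0, by rw [zero_smul, sub_zero]; exact ⟨hv, hv0⟩⟩
    · set B := polar (hypAdd Q₁) w v with hB
      have hBne : B ≠ 0 := by
        intro h0
        rcases hval _ (A.add_mem hw hv) with k | k
        · rw [qf_add, hw1, hv1, ← hB, h0] at k
          exact h20 (by linear_combination k)
        · rw [qf_add, hw1, hv1, ← hB, h0] at k
          exact one_ne_zero (α := F) (by linear_combination k)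
      have hB2 : B * B = 1 := by
        rcases hcases B with e | e | e
        · exact absurd e hBne
        · rw [e, one_mul]
        · rw [e, neg_mul_neg, one_mul]
      refine ⟨-B, ⟨A.sub_mem hv (hsm _ w hw), ?_⟩⟩
      rw [neg_smul, sub_neg_eq_add, qf_add, QuadraticMap.map_smul, hv1, hw1, polar_smul_right,
        polar_comm (hypAdd Q₁) v w, ← hB, smul_eq_mul, smul_eq_mul]
      linear_combination 2 * hB2 + h30
  by_cases hU : U = ⊥
  · refine Or.inl fun v hv => ?_
    obtain ⟨t, ht⟩ := hdec v hv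
    rw [hU, Submodule.mem_bot, sub_eq_zero] at ht
    exact ⟨t, ht⟩
  exfalso
  have hUr : finrank F U ≤ r := hr U fun y hy => hy.2
  have hU1 : 1 ≤ finrank F U := Submodule.one_le_finrank_iff.2 hU
  -- the dual is the direct sum
  have hAcard : Nat.card A = 3 * Nat.card F ^ finrank F U := by
    let φ : F × U → A := fun p => ⟨p.1 • w + p.2.1, A.add_mem (hsm _ w hw) p.2.2.1⟩
    have hφ : Function.Bijective φ := by
      refine ⟨fun p p' hp => ?_, fun v => ?_⟩
      · have e : p.1 • w + p.2.1 = p'.1 • w + p'.2.1 := congrArg Subtype.val hp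
        have e' : (p.1 - p'.1) • w = p'.2.1 - p.2.1 := by
          linear_combination (norm := module) e
        have h0 := (U.sub_mem p'.2.2 p.2.2).2
        rw [← e', QuadraticMap.map_smul, hw1, smul_eq_mul, mul_one, mul_self_eq_zero, sub_eq_zero]
          at h0
        refine Prod.ext h0 (Subtype.ext ?_)
        rw [h0] at e
        exact add_left_cancel e
      · obtain ⟨t, ht⟩ := hdec v.1 v.2
        exact ⟨(t, ⟨_, ht⟩), Subtype.ext (add_sub_cancel (t • w) v.1)⟩
    rw [← Nat.card_congr (Equiv.ofBijective φ hφ), Nat.card_prod, h3,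
      Module.natCard_eq_pow_finrank (K := F) (V := U), h3]
  have hk := card_moveSet_mul_le h.bNondeg x
  rw [show Nat.card (Aof (hypAdd Q₁) x) = Nat.card A from rfl, hAcard] at hk
  rcases (show finrank F U = 1 ∨ finrank F U = 2 by omega) with hd | hd
  · rw [hd, h3] at hk
    simp only [Nat.reducePow, Nat.reduceMul] at hk
    obtain ⟨v₀, hv₀, hv₀0⟩ := Submodule.exists_mem_ne_zero_of_ne_bot hU
    have hcov := card_le_of_cover (Q := hypAdd Q₁) (β := (F × F) × W₁) (sing1 (hypAdd Q₁)) x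
      (fun K => {s | s ∈ sing1 (hypAdd Q₁) ∧ s ∈ orthG (polarBilin (hypAdd Q₁)) K}) (b := 2) ?_ ?_
    · omega
    · rintro s ⟨hs0, hs⟩
      obtain ⟨l, hl, e⟩ := EQ_transitive_singular h.bNondeg.qNondeg h.two hv₀0 hv₀.2 hs0 hs
      refine ⟨_, moveK_mem_moveSet (isMove_lift ⟨l, hl⟩) (Kof_mem_moveSet x), ⟨hs0, hs⟩, ?_⟩
      have := mem_orth_moveK (r := l) one_ne_zero hv₀.1
      rwa [inv_one, one_smul, e] at this
    · intro K hK
      obtain ⟨g, c, r', hg, rfl⟩ := hK
      have hpull : ∀ v ∈ orthG (polarBilin (hypAdd Q₁)) (moveK c r' (Kof (hypAdd Q₁) x)),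
          hypAdd Q₁ v = 0 → c • r'.1.symm v ∈ U := by
        intro v hv hv0
        refine ⟨?_, by rw [QuadraticMap.map_smul, ← OQ_map_app r', LinearEquiv.apply_symm_apply,
          hv0, smul_zero]⟩
        intro a ha
        have := hv _ ⟨a, ha, rfl⟩
        simp only [moveMap_apply, polarBilin_apply_apply, polar_smul_right, polar_smul_left] at this ⊢
        rwa [show polar (hypAdd Q₁) a (r'.1.symm v) = polar (hypAdd Q₁) (r'.1 a) v by
          rw [← OQ_polar r', LinearEquiv.apply_symm_apply]]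
      have : Fintype U := Fintype.ofFinite _
      refine le_trans (Nat.card_le_card_of_injective
        (β := {y : U // y ≠ 0}) (fun s => ⟨⟨_, hpull _ s.2.2 s.2.1.2⟩, fun h0 => ?_⟩)
        fun s s' he => ?_) ?_
      · refine s.2.1.1 ?_
        have := congrArg Subtype.val h0
        simpa [hg.1] using this
      · have h1 := congrArg (fun y : {y : U // y ≠ 0} => ((y.1 : U) : (F × F) × W₁)) he
        exact Subtype.ext (r'.1.symm.injective (smul_right_injective _ hg.1 h1))
      · rw [Nat.card_eq_fintype_card, Fintype.card_subtype_compl, Fintype.card_subtype_eq,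
          ← Nat.card_eq_fintype_card, Module.natCard_eq_pow_finrank (K := F) (V := U), hd, h3]
        norm_num
  · have hp := pairSet_le' h x (le_refl 2) hd (fun y hy => hy.2) (fun v hv => hv.1)
      (fun v hv hv0 => ⟨hv, hv0⟩)
    rw [hd, h3] at hk
    rw [h3] at hp
    simp only [Nat.reducePow, Nat.reduceMul, Nat.reduceSub] at hk hp
    omega

/-- Small actions fix a point. -/
theorem exists_fixed_of_small (h : InnerSpace Q₁) [Nonempty X] {r : ℕ}
    (hs : SmallAct Q₁ r (Nat.card X)) : ∃ y : X, ∀ g : EG (hypAdd Q₁), g • y = y := by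
  by_contra hno
  push Not at hno
  have hclass : ∀ y : X, Kof (hypAdd Q₁) y = ⊥ ∨
      (∃ w, ∀ v ∈ Aof (hypAdd Q₁) y, ∃ t : F, v = t • w) ∨
      ∃ U' : Submodule F ((F × F) × W₁), finrank F U' = r ∧ (∀ v ∈ U', hypAdd Q₁ v = 0) ∧
        Aof (hypAdd Q₁) y = U'.toAddSubgroup := fun y => by
    refine class_std h y hs.hr hs.hP hs.hn hs.hn' fun w hw hw0 hbad => ?_
    rcases hs.bad with hg | ⟨h3, hr2, hg, h9, h27⟩
    · exact absurd (hg _ hw0) hbad
    · have hw1 : hypAdd Q₁ w = 1 := by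
        by_contra hne
        exact hbad (hg _ hw0 hne)
      exact class_bad h y h3 hr2 hs.hr hg hs.hn hs.hn' h9 h27 hw hw1
  have hfull : ∀ (y : X) u, u ≠ 0 → hypAdd (hypAdd Q₁) u = 0 → ¬ FullAt (hypAdd Q₁) y u :=
    fun y u hu hu0 => full_absurd h hno hs.hrV hs.H1 hs.H2 hs.H3 y hu hu0
  have hnofull : ∀ y : X, Aof (hypAdd Q₁) y ≠ ⊥ := fun y h0 => by
    refine hfull y _ (isPair_hypAdd (hypAdd Q₁)).ne_zero (hE_singular _) fun a ha => ?_
    rw [rootFix_std]
    refine ⟨by simpa using ha, ?_⟩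
    rw [Aof, orthG_eq_bot_iff _ (polarBilin_sep h.bNondeg) (polarBilin_symm _)] at h0
    rw [h0]
    exact AddSubgroup.mem_top _
  have hdich : ∀ (y : X) u, u ≠ 0 → hypAdd (hypAdd Q₁) u = 0 →
      RegularAt (hypAdd Q₁) y u ∨ ∃ z, LineAt (hypAdd Q₁) y u z := fun y u hu hu0 => by
    obtain ⟨g, hg⟩ := exists_to_std h.bNondeg h.two hu hu0
    obtain ⟨h1, h2, -⟩ := at_vector h.bNondeg (x := y) hg
    rcases hclass (g • y) with k | ⟨w, k⟩ | ⟨U, hUr, hUs, hA⟩
    · exact Or.inl (h1 k)
    · exact Or.inr ((h2 w k).resolve_left (hfull y u hu hu0))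
    · exfalso
      rcases hs.pi with k | ⟨hc, k1, k2, k3⟩
      · exact pi_absurd_small h hs.r2 _ hUr hUs hA k
      · exact pi_absurd h hs.r2 _ hUr hUs hA hnofull hclass hc k1 k2 k3
  have H : NoFull (hypAdd Q₁) X := ⟨h.bNondeg, h.two, by
    rw [Module.finrank_prod, Module.finrank_prod (M' := W₁), Module.finrank_prod, Module.finrank_self]
    have := h.three
    omega, hfull, hdich⟩
  have hreg : AllRegular (hypAdd Q₁) X := fun y u hu hu0 =>
    (hdich y u hu hu0).resolve_right fun ⟨z, hz⟩ => line_absurd H hs.line y hu hu0 hz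
  exact regular_absurd h hs.even hreg hs.small

end Cfsg.Agent.MinIndex
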