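/-
Counts on the standard orthogonal spaces, and the reduction of `SmallAct` to inequalities.
-/
import Mathlib
import Cfsg.Prelude.Def_Classical
import Cfsg.Agent.Classical.OrthBasic
import Cfsg.Agent.Classical.OrthCount
import Cfsg.Agent.Classical.OrthForms
import Cfsg.Agent.Classical.OrthEichler
import Cfsg.Agent.Classical.OrthIndex
import Cfsg.Agent.Classical.OrthFinal
import Cfsg.Agent.MinIndex.OrthGeom
import Cfsg.Agent.MinIndex.OrthMain
import Cfsg.Agent.MinIndex.OrthInst

set_option autoImplicit false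

namespace Cfsg.Agent.MinIndex

open QuadraticMap Cfsg.Agent.Classical Module

universe u w

variable {F : Type u} [Field F] [Finite F]

section General

variable {V : Type w} [AddCommGroup V] [Module F V] [Finite V]

theorem card_sing1_add_one (R : QuadraticForm F V) :
    Nat.card (sing1 R) + 1 = Nat.card {v // R v = 0} := by
  classical
  have : Fintype V := Fintype.ofFinite V
  let e : Option (sing1 R) ≃ {v // R v = 0} :=
    { toFun := fun o => match o with
        | none => ⟨0, QuadraticMap.map_zero R⟩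
        | some z => ⟨z.1, z.2.2⟩
      invFun := fun v => if h : v.1 = 0 then none else some ⟨v.1, h, v.2⟩
      left_inv := fun o => by
        rcases o with _ | ⟨z, hz⟩
        · simp
        · simp [hz.1]
      right_inv := fun v => by
        by_cases h : v.1 = 0
        · simp [h]; exact Subtype.ext h.symm
        · simp [h] }
  rw [← Nat.card_congr e, Finite.card_option]

theorem card_ne_zero_level (R : QuadraticForm F V) {c : F} (hc : c ≠ 0) :
    Nat.card {s | s ≠ 0 ∧ R s = c} = Nat.card {s // R s = c} :=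
  Nat.card_congr (Equiv.subtypeEquivRight fun s =>
    ⟨fun h => h.2, fun h => ⟨fun h0 => hc (by rw [← h, h0, QuadraticMap.map_zero]), h⟩⟩)

theorem card_sq_one_le (F : Type u) [Field F] [Finite F] :
    Nat.card {t : F // t * t = 1} ≤ 2 := by
  classical
  refine (Nat.card_le_card_of_injective (fun t => decide (t.1 = 1)) fun s t h => ?_).trans
    (by simp : Nat.card Bool ≤ 2)
  have hs := mul_self_eq_one_iff.1 s.2
  have ht := mul_self_eq_one_iff.1 t.2
  simp only [decide_eq_decide] at h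
  refine Subtype.ext ?_
  rcases hs with hs | hs <;> rcases ht with ht | ht
  · rw [hs, ht]
  · rw [hs, h.1 hs]
  · rw [ht, h.2 ht]
  · rw [hs, ht]

theorem card_sq_one_two (hF : Nat.card F = 2) : Nat.card {t : F // t * t = 1} ≤ 1 := by
  have : Fintype F := Fintype.ofFinite F
  have h2 : (2 : F) = 0 := by
    have := FiniteField.cast_card_eq_zero F
    rw [← Nat.card_eq_fintype_card, hF] at this
    exact_mod_cast this
  have : Subsingleton {t : F // t * t = 1} := ⟨fun s t => Subtype.ext (by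
    have h1 : (s.1 - t.1) * (s.1 - t.1) = 0 := by
      linear_combination s.2 + t.2 + (1 - s.1 * t.1) * h2
    exact sub_eq_zero.1 (mul_self_eq_zero.1 h1))⟩
  exact Finite.card_le_one_iff_subsingleton.2 this

theorem card_units_eq : Nat.card {t : F // t ≠ 0} = Nat.card F - 1 := by
  classical
  have : Fintype F := Fintype.ofFinite F
  rw [Nat.card_eq_fintype_card, Fintype.card_subtype_compl, Fintype.card_subtype_eq,
    ← Nat.card_eq_fintype_card]

theorem card_scalar_zero (R : QuadraticForm F V) {v : V} (hv : R v = 0) :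
    Nat.card {t : F // t ≠ 0 ∧ t * t * R v = R v} = Nat.card F - 1 := by
  rw [← card_units_eq]
  exact Nat.card_congr (Equiv.subtypeEquivRight fun t => by simp [hv])

theorem card_scalar_one (R : QuadraticForm F V) {v : V} (hv : R v ≠ 0) :
    Nat.card {t : F // t ≠ 0 ∧ t * t * R v = R v} = Nat.card {t : F // t * t = 1} :=
  Nat.card_congr (Equiv.subtypeEquivRight fun t => by
    constructor
    · rintro ⟨-, h⟩
      exact (mul_eq_right₀ hv).1 h
    · intro h
      exact ⟨fun h0 => zero_ne_one (α := F) (by rw [← h, h0, mul_zero]), by rw [h, one_mul]⟩)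

end General

section Shape

variable {W₀ : Type w} [AddCommGroup W₀] [Module F W₀] [Finite W₀] (Q₀ : QuadraticForm F W₀) (j : ℕ)

omit [Finite F] [Finite W₀] in
theorem level_two (c : F) : Nat.card {s // hypAdd (hypExt j Q₀) s = c} =
    Nat.card {x // hypExt (j + 1) Q₀ x = c} :=
  (card_level_congr (hypSplit j) (hypSplit_spec j Q₀) c).symm

omit [Finite F] [Finite W₀] in
theorem level_three (c : F) : Nat.card {s // hypAdd (hypAdd (hypExt j Q₀)) s = c} =
    Nat.card {x // hypExt (j + 2) Q₀ x = c} :=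
  (card_level_congr (hypSplitTwo j) (hypSplitTwo_spec j Q₀) c).symm

/-- The squares times a value. -/
theorem card_levelSet_ge {c : F} (hc : c ≠ 0) :
    Nat.card {s // hypAdd (hypExt j Q₀) s = c} ≤ Nat.card (levelSet (hypExt j Q₀) c) ∧
    (Nat.card F - 1) * Nat.card {s // hypAdd (hypExt j Q₀) s = c} ≤
      2 * Nat.card (levelSet (hypExt j Q₀) c) := by
  classical
  refine ⟨Nat.card_le_card_of_injective (fun s => ⟨s.1, 1, one_ne_zero, by
    rw [s.2, one_mul, one_mul]⟩) fun a b h => Subtype.ext (by simpa using congrArg Subtype.val h), ?_⟩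
  rw [← card_units_eq, ← Nat.card_prod]
  let φ : {t : F // t ≠ 0} × {s // hypAdd (hypExt j Q₀) s = c} → levelSet (hypExt j Q₀) c :=
    fun p => ⟨p.1.1 • p.2.1, p.1.1, p.1.2, by rw [QuadraticMap.map_smul, p.2.2, smul_eq_mul]⟩
  have : Fintype (levelSet (hypExt j Q₀) c) := Fintype.ofFinite _
  calc Nat.card _ = Nat.card (Σ y, {p // φ p = y}) :=
        (Nat.card_congr (Equiv.sigmaFiberEquiv φ)).symm
    _ = ∑ y, Nat.card {p // φ p = y} := Nat.card_sigma
    _ ≤ ∑ _y : levelSet (hypExt j Q₀) c, 2 := by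
        refine Finset.sum_le_sum fun y _ => ?_
        by_cases hy : ∃ p, φ p = y
        swap
        · have : IsEmpty {p // φ p = y} := ⟨fun p => hy ⟨p.1, p.2⟩⟩
          simp
        obtain ⟨p₁, hp₁⟩ := hy
        refine le_trans (Nat.card_le_card_of_injective (β := {t : F // t * t = 1})
          (fun p => ⟨p.1.1.1 * p₁.1.1⁻¹, ?_⟩) fun a b hab => ?_) (card_sq_one_le F)
        · have e := congrArg (fun v : levelSet (hypExt j Q₀) c =>
            hypAdd (hypExt j Q₀) v.1) (p.2.trans hp₁.symm)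
          simp only [φ, QuadraticMap.map_smul, p.1.2.2, p₁.2.2, smul_eq_mul] at e
          have e' := mul_right_cancel₀ hc e
          calc p.1.1.1 * p₁.1.1⁻¹ * (p.1.1.1 * p₁.1.1⁻¹)
              = p.1.1.1 * p.1.1.1 * (p₁.1.1⁻¹ * p₁.1.1⁻¹) := by ring
            _ = p₁.1.1 * p₁.1.1 * (p₁.1.1⁻¹ * p₁.1.1⁻¹) := by rw [e']
            _ = (p₁.1.1 * p₁.1.1⁻¹) * (p₁.1.1 * p₁.1.1⁻¹) := by ring
            _ = 1 := by rw [mul_inv_cancel₀ p₁.1.2, one_mul]
        · have h1 : a.1.1.1 = b.1.1.1 :=
            mul_right_cancel₀ (inv_ne_zero p₁.1.2) (congrArg Subtype.val hab)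
          have h2 : a.1.1.1 • a.1.2.1 = b.1.1.1 • b.1.2.1 :=
            congrArg Subtype.val (a.2.trans b.2.symm)
          rw [h1] at h2
          exact Subtype.ext (Prod.ext (Subtype.ext h1)
            (Subtype.ext (smul_right_injective _ b.1.1.2 h2)))
    _ = 2 * Nat.card (levelSet (hypExt j Q₀) c) := by
        simp [Nat.card_eq_fintype_card, mul_comm]

variable [FiniteDimensional F W₀]

/-- The pairs of orthogonal singular vectors, from below. -/
theorem card_pairSet_ge (h : InnerSpace (hypExt j Q₀)) :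
    Nat.card (sing1 (hypAdd (hypExt j Q₀))) * Nat.card F * Nat.card (sing1 (hypExt j Q₀)) ≤
      Nat.card (pairSet (hypExt j Q₀)) := by
  choose g hg using fun s : sing1 (hypAdd (hypExt j Q₀)) =>
    EQ_transitive_singular h.bNondeg.qNondeg h.two (isPair_hypAdd (hypExt j Q₀)).ne_zero
      (isPair_hypAdd (hypExt j Q₀)).1 s.2.1 s.2.2
  rw [← Nat.card_prod, ← Nat.card_prod]
  refine Nat.card_le_card_of_injective
    (fun p : (sing1 (hypAdd (hypExt j Q₀)) × F) × sing1 (hypExt j Q₀) =>
      (⟨(p.1.1.1, (g p.1.1).1 ((p.1.2, 0), p.2.1)), p.1.1.2.1, p.1.1.2.2, ?_, ?_, ?_⟩ :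
        pairSet (hypExt j Q₀))) ?_
  · rw [OQ_map_app, hypAdd_apply, p.2.2.2]; simp
  · change polar _ p.1.1.1 _ = 0
    conv_lhs => rw [← (hg p.1.1).2]
    rw [OQ_polar]; simp
  · intro α hα
    change (g p.1.1).1 ((p.1.2, 0), p.2.1) = α • p.1.1.1 at hα
    rw [← (hg p.1.1).2, ← map_smul] at hα
    have := congrArg Prod.snd ((g p.1.1).1.injective hα)
    exact p.2.2.1 (by simpa using this)
  · rintro ⟨⟨s, t⟩, z⟩ ⟨⟨s', t'⟩, z'⟩ he
    have h1 : s.1 = s'.1 := congrArg (fun v : pairSet (hypExt j Q₀) => v.1.1) he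
    obtain rfl : s = s' := Subtype.ext h1
    have h2 := (g s).1.injective (congrArg (fun v : pairSet (hypExt j Q₀) => v.1.2) he)
    simp only [Prod.mk.injEq] at h2
    exact Prod.ext (Prod.ext rfl h2.1.1) (Subtype.ext h2.2)

/-- The inequalities that make `SmallAct` true. -/
theorem smallAct_of_bounds (hA : Q₀.Anisotropic) (h : InnerSpace (hypExt j Q₀)) (hj : 1 ≤ j)
    {n q A1 A2 A3 B2 B3 : ℕ} (hq : Nat.card F = q)
    (hA1 : A1 ≤ Nat.card (sing1 (hypExt j Q₀)))
    (hA2 : A2 ≤ Nat.card (sing1 (hypAdd (hypExt j Q₀))))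
    (hA3 : A3 ≤ Nat.card (sing1 (hypAdd (hypAdd (hypExt j Q₀)))))
    (hB2 : ∀ c : F, c ≠ 0 → B2 ≤ Nat.card {s // hypAdd (hypExt j Q₀) s = c})
    (hB3 : ∀ c : F, c ≠ 0 → B3 ≤ Nat.card {s // hypAdd (hypAdd (hypExt j Q₀)) s = c})
    (hpos : 0 < A1)
    (a1 : n * (q - 1) < A3) (a2 : q ^ 2 - 1 ≤ A2)
    (a3 : (q ^ (j + 2) - 1) * (q ^ (j + 2) - q) * (q ^ (j + 2) - q ^ 2) ≤
      (q - 1) * (q * q) * (A2 * q * A1))
    (a4 : n * (q ^ (j + 1) - 4) ≤ 2 * (A2 * q * A1))
    (a5 : n < 5 * B2 ∨ 2 * n < 5 * ((q - 1) * B2))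
    (a6 : n < q ^ (2 * j) * Nat.card W₀ * B2)
    (a7 : n * ((q ^ (j + 1) - 1) * (q ^ (j + 1) - q)) < A2 * q * A1 * q ^ (j + 1) ∨
      4 ≤ q ∧
      n * ((q ^ (j + 1) - 1) * (q ^ (j + 1) - q)) < 2 * (A2 * q * A1 * q ^ (j + 1)) ∧
      n * ((q ^ (j + 1) - 1) * (q ^ (j + 1) - q)) <
        A2 * q * A1 * q ^ (j + 1) + min B2 A2 * ((q ^ (j + 1) - 1) * (q ^ (j + 1) - q)))
    (a8 : n * 2 < B3 ∨ q = 2 ∧ n < B3)
    (a9 : n < 2 * (q ^ (2 * (j + 1)) * Nat.card W₀))
    (bad : (∀ c : F, c ≠ 0 → GoodVal (hypExt j Q₀) c) ∨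
      q = 3 ∧ j = 1 ∧ (∀ c : F, c ≠ 0 → c ≠ 1 → GoodVal (hypExt j Q₀) c) ∧
        n * 2 < 9 * A2 ∧ n * 48 < 27 * (A2 * q * A1))
    (heven : q = 2 → Even (finrank F W₀)) :
    SmallAct (hypExt j Q₀) (j + 1) n := by
  subst hq
  set q := Nat.card F with hq
  have hq2 : 2 ≤ q := Finite.one_lt_card
  have hP : A2 * q * A1 ≤ Nat.card (pairSet (hypExt j Q₀)) :=
    (Nat.mul_le_mul (Nat.mul_le_mul_right q hA2) hA1).trans (card_pairSet_ge Q₀ j h)
  have hA2pos : 0 < A2 := by
    have : 4 ≤ q ^ 2 := Nat.pow_le_pow_left hq2 2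
    omega
  have hWcard : Nat.card ((F × F) × HypSpace F j W₀) = q ^ (2 * (j + 1)) * Nat.card W₀ := by
    rw [Nat.card_prod, Nat.card_prod, Cfsg.Agent.Classical.card_HypSpace, ← hq]; ring
  have hjq : q ≤ q ^ (j + 1) := Nat.le_self_pow (by omega) q
  refine ⟨by omega, ?_, ?_, ?_, ?_, ?_, lt_of_lt_of_le a1 hA3, ?_, ?_, ?_, ?_, ?_, ?_, ?_⟩
  · exact fun U hU => finrank_ts_hypAdd (finrank_ts_hypExt hA j) U hU
  · exact fun U hU => finrank_ts_hypAdd (fun U' hU' => finrank_ts_hypAdd (finrank_ts_hypExt hA j) U' hU') U hU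
  · intro a ha hale
    rw [← hq] at hale
    refine lt_of_lt_of_le ?_ (Nat.mul_le_mul_right a hP)
    rcases Nat.eq_zero_or_pos n with rfl | hn
    · rw [zero_mul]
      have : 0 < A2 * q * A1 * a := Nat.mul_pos (Nat.mul_pos (Nat.mul_pos hA2pos (by omega)) hpos) (by omega)
      exact this
    have h1 : n * (2 * (a - 2)) ≤ 2 * (A2 * q * A1) :=
      (Nat.mul_le_mul_left n (by omega)).trans a4
    have h2 : n * (a - 2) ≤ A2 * q * A1 := by
      rw [mul_left_comm] at h1; omega
    calc n * ((a - 1) * (a - 2)) = n * (a - 2) * (a - 1) := by ring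
      _ ≤ A2 * q * A1 * (a - 1) := Nat.mul_le_mul_right _ h2
      _ < A2 * q * A1 * a := Nat.mul_lt_mul_of_pos_left (by omega)
          (Nat.mul_pos (Nat.mul_pos hA2pos (by omega)) hpos)
  · intro c hc
    obtain ⟨h1, h2⟩ := card_levelSet_ge Q₀ j hc
    rw [← hq] at h2
    have := hB2 c hc
    rcases a5 with a | a
    · omega
    · have := Nat.mul_le_mul_left (q - 1) (hB2 c hc)
      omega
  · intro c hc
    refine lt_of_lt_of_le a6 ?_
    rw [Cfsg.Agent.Classical.card_HypSpace]
    exact Nat.mul_le_mul_left _ (hB2 c hc)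
  · have h1 : n * ((q ^ 2 - 1) * (q ^ 2 - q)) = n * (q - 1) * (q * (q ^ 2 - 1)) := by
      have : q ^ 2 - q = (q - 1) * q := by rw [Nat.sub_mul, one_mul, pow_two]
      rw [this]; ring
    rw [h1]
    refine lt_of_lt_of_le (Nat.mul_lt_mul_of_pos_right a1 ?_) ?_
    · have : 4 ≤ q ^ 2 := Nat.pow_le_pow_left hq2 2
      exact Nat.mul_pos (by omega) (by omega)
    · rw [← mul_assoc]
      exact Nat.mul_le_mul (Nat.mul_le_mul_right q hA3) (a2.trans hA2)
  · intro t ht htj
    have hmono : q ^ t ≤ q ^ (j + 2) := Nat.pow_le_pow_right (by omega) (by omega)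
    have h1 : n * ((q ^ t - 1) * (q ^ t - q) * (q ^ t - q ^ 2)) ≤
        n * ((q - 1) * (q * q) * (A2 * q * A1)) := by
      refine Nat.mul_le_mul_left n (le_trans ?_ a3)
      exact Nat.mul_le_mul (Nat.mul_le_mul (by omega) (by omega)) (by omega)
    refine lt_of_le_of_lt h1 ?_
    calc n * ((q - 1) * (q * q) * (A2 * q * A1)) = n * (q - 1) * ((q * q) * (A2 * q * A1)) := by ring
      _ < A3 * ((q * q) * (A2 * q * A1)) := Nat.mul_lt_mul_of_pos_right a1
          (Nat.mul_pos (Nat.mul_pos (by omega) (by omega))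
            (Nat.mul_pos (Nat.mul_pos hA2pos (by omega)) hpos))
      _ ≤ _ := by
          rw [← mul_assoc]
          exact Nat.mul_le_mul (Nat.mul_le_mul_right _ hA3) hP
  · have hPa := Nat.mul_le_mul_right (q ^ (j + 1)) hP
    rcases a7 with a | ⟨hq4, a, b⟩
    · exact Or.inl (lt_of_lt_of_le a hPa)
    · refine Or.inr ⟨?_, lt_of_lt_of_le a (Nat.mul_le_mul_left 2 hPa), fun v => ?_, ?_⟩
      · by_contra hno
        push Not at hno
        have hsub : ∀ t : F, t = 0 ∨ t = 1 ∨ t = -1 := fun t => by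
          rcases eq_or_ne t 0 with h0 | h0
          · exact Or.inl h0
          · exact Or.inr (mul_self_eq_one_iff.1 (hno t h0))
        classical
        have : Fintype F := Fintype.ofFinite F
        have h4 : (Finset.univ : Finset F).card ≤ ({0, 1, -1} : Finset F).card :=
          Finset.card_le_card fun t _ => by simpa using hsub t
        rw [Finset.card_univ, ← Nat.card_eq_fintype_card, ← hq] at h4
        have := h4.trans (Finset.card_le_three)
        omega
      · refine lt_of_lt_of_le b (Nat.add_le_add hPa (Nat.mul_le_mul_right _ ?_))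
        rcases eq_or_ne v 0 with rfl | hv
        · exact (min_le_right _ _).trans hA2
        · rw [card_ne_zero_level _ hv]
          exact (min_le_left _ _).trans (hB2 v hv)
      · refine lt_of_lt_of_le b (Nat.add_le_add hPa (Nat.mul_le_mul_right _ ?_))
        refine (min_le_right _ _).trans (hA2.trans ?_)
        exact Nat.card_le_card_of_injective _ Subtype.val_injective
  · rcases bad with g | ⟨h3, hj1, g, b1, b2⟩
    · exact Or.inl g
    · refine Or.inr ⟨h3, by omega, g, lt_of_lt_of_le b1 (Nat.mul_le_mul_left 9 hA2),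
        lt_of_lt_of_le b2 (Nat.mul_le_mul_left 27 hP)⟩
  · intro c hc
    rcases a8 with a | ⟨h2, a⟩
    · exact lt_of_le_of_lt (Nat.mul_le_mul_left n (card_sq_one_le F))
        (lt_of_lt_of_le a (hB3 c hc))
    · refine lt_of_le_of_lt (Nat.mul_le_mul_left n (card_sq_one_two (hq.symm.trans h2))) ?_
      rw [mul_one]
      exact lt_of_lt_of_le a (hB3 c hc)
  · rw [hWcard]; exact a9
  · intro h2
    rw [Cfsg.Agent.Classical.finrank_HypSpace]
    exact Nat.even_add.2 (iff_of_true (even_two_mul j) (heven h2))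

end Shape

section Good

variable {W : Type w} [AddCommGroup W] [Module F W] [Finite W] [FiniteDimensional F W]
  {Q : QuadraticForm F W}

omit [Finite W] in
/-- All values are good outside the smallest case over three elements. -/
theorem goodVal_all (hQ : BNondeg Q) (h3 : 3 ≤ finrank F W)
    (hbig : Nat.card F = 3 → 4 ≤ finrank F W) (c : F) : GoodVal Q c := by
  intro a b ⟨ha, hb, hab⟩ h2
  obtain ⟨g, hag, hbg, hg⟩ :=
    exists_common_perp_three hQ.qNondeg h3 ha hb (by rw [hab]; exact one_ne_zero)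
  by_cases hgc : Q g = c
  swap
  · exact ⟨g, hag, hbg, hg, hgc⟩
  by_cases ht : ∃ t : F, t ≠ 0 ∧ t * t ≠ 1
  · obtain ⟨t, ht0, ht1⟩ := ht
    refine ⟨t • g, by rw [polar_smul_right, hag, smul_zero], by rw [polar_smul_right, hbg, smul_zero],
      ?_, ?_⟩
    · rw [QuadraticMap.map_smul, smul_eq_mul]; exact mul_ne_zero (mul_ne_zero ht0 ht0) hg
    · rw [QuadraticMap.map_smul, smul_eq_mul]
      intro h
      exact ht1 ((mul_eq_right₀ hg).1 (h.trans hgc.symm))
  push Not at ht
  have h30 : (3 : F) = 0 := by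
    have := ht 2 h2
    linear_combination this
  have hF : Nat.card F = 3 := by
    classical
    have : Fintype F := Fintype.ofFinite F
    rw [Nat.card_eq_fintype_card]
    refine le_antisymm ?_ ?_
    · calc Fintype.card F = (Finset.univ : Finset F).card := rfl
        _ ≤ ({0, 1, -1} : Finset F).card := Finset.card_le_card fun t _ => by
            rcases eq_or_ne t 0 with h0 | h0
            · simp [h0]
            · rcases mul_self_eq_one_iff.1 (ht t h0) with h1 | h1 <;> simp [h1]
        _ ≤ 3 := Finset.card_le_three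
    · have h01 : (1 : F) ≠ -1 := fun h => h2 (by linear_combination h)
      calc 3 = ({0, 1, -1} : Finset F).card := by
            rw [Finset.card_insert_of_notMem (by simp [one_ne_zero.symm]), Finset.card_pair h01]
        _ ≤ Fintype.card F := Finset.card_le_univ _
  have h4 := hbig hF
  -- a second vector orthogonal to all three
  obtain ⟨g', hg', hg'0⟩ : ∃ g' ∈ perpF Q ![a, b, g], Q g' ≠ 0 := by
    by_contra hno
    push Not at hno
    have hne : perpF Q ![a, b, g] ≠ ⊥ := fun h0 => by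
      have := finrank_le_perpF hQ ![a, b, g]
      rw [h0, finrank_bot] at this
      omega
    obtain ⟨v, hv, hv0⟩ := Submodule.exists_mem_ne_zero_of_ne_bot hne
    obtain ⟨hva, hvb, hvg⟩ := mem_perp_three.1 hv
    have hz : ∀ p ∈ perpF Q ![a, b, g], polar Q v p = 0 := fun p hp => by
      rw [polar, hno _ (Submodule.add_mem _ hv hp), hno v hv, hno p hp, sub_zero, sub_zero]
    have hmem := mem_span_of_perp hQ ![a, b, g] (z := v) fun p hp => by
      rw [polar_comm]; exact hz p hp
    rw [Submodule.mem_span_range_iff_exists_fun] at hmem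
    obtain ⟨k, hk⟩ := hmem
    simp only [Fin.sum_univ_three, Matrix.cons_val_zero, Matrix.cons_val_one, Matrix.cons_val] at hk
    have hbb : polar Q b b = 0 := by rw [polar_self, hb, smul_zero]
    have haa : polar Q a a = 0 := by rw [polar_self, ha, smul_zero]
    have e1 := congrArg (polar Q a) hk
    have e2 := congrArg (polar Q b) hk
    have e3 := congrArg (polar Q g) hk
    simp only [polar_add_right, polar_smul_right, haa, hbb, hab, hag, hbg, hva, hvb, hvg,
      polar_comm Q b a, polar_comm Q g a, polar_comm Q g b, smul_eq_mul, mul_zero, mul_one,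
      zero_add, add_zero] at e1 e2 e3
    rw [polar_self, two_smul] at e3
    have hk2 : k 2 = 0 := by
      have : k 2 * (2 * Q g) = 0 := by linear_combination e3
      exact (mul_eq_zero.1 this).resolve_right (mul_ne_zero h2 hg)
    rw [e1, e2, hk2] at hk
    exact hv0 (by simp at hk; exact hk.symm)
  obtain ⟨hg'a, hg'b, hg'g⟩ := mem_perp_three.1 hg'
  by_cases hg'c : Q g' = c
  swap
  · exact ⟨g', hg'a, hg'b, hg'0, hg'c⟩
  refine ⟨g + g', by rw [polar_add_right, hag, hg'a, add_zero],
    by rw [polar_add_right, hbg, hg'b, add_zero], ?_, ?_⟩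
  · rw [qf_add, hgc, hg'c, hg'g, add_zero, ← two_mul]
    exact mul_ne_zero h2 (by rw [← hgc]; exact hg)
  · rw [qf_add, hgc, hg'c, hg'g, add_zero]
    intro h
    exact hg (by rw [hgc]; linear_combination h)

/-- In the smallest case only the value one is bad. -/
theorem goodVal_sq (c : F) (hc : c ≠ 1) (h3 : Nat.card F = 3) :
    GoodVal (hypExt 1 (QuadraticMap.sq : QuadraticForm F F)) c := by
  intro a b ⟨ha, hb, hab⟩ h2
  have hQ : BNondeg (hypExt 1 (QuadraticMap.sq : QuadraticForm F F)) :=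
    bNondeg_hypExt 1 (goodCore_sq h2).nondeg
  have hdim : 3 ≤ finrank F (HypSpace F 1 F) := by
    rw [Cfsg.Agent.Classical.finrank_HypSpace, finrank_self]
  obtain ⟨g, hag, hbg, hg⟩ :=
    exists_common_perp_three hQ.qNondeg hdim ha hb (by rw [hab]; exact one_ne_zero)
  refine ⟨g, hag, hbg, hg, fun hgc => hc ?_⟩
  set e : HypSpace F 1 F := (Sum.elim (fun _ => 1) (fun _ => 0), 0) with he
  set f : HypSpace F 1 F := (Sum.elim (fun _ => 0) (fun _ => 1), 0) with hf
  obtain ⟨o, hoa, hob⟩ := OQ_transitive_pairs hQ.qNondeg ha hb hab (u' := e) (y' := f)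
    (by simp [he, hypExt_apply]) (by simp [hf, hypExt_apply])
    (by simp [polar, he, hf, hypExt_apply])
  have e1 := OQ_polar o a g
  have e2 := OQ_polar o b g
  rw [hoa, hag] at e1
  rw [hob, hbg] at e2
  have e3 : hypExt 1 (QuadraticMap.sq : QuadraticForm F F) (o.1 g) = c := by rw [OQ_map_app, hgc]
  set p := o.1 g
  simp only [polar, he, hf, hypExt_apply, Prod.fst_add, Prod.snd_add, Pi.add_apply, Sum.elim_inl,
    Sum.elim_inr, Fin.sum_univ_one, QuadraticMap.sq_apply, zero_mul, mul_zero, add_zero, zero_add,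
    one_mul, mul_one] at e1 e2 e3
  ring_nf at e1 e2
  rw [e1, e2] at e3
  have hz : p.2 * p.2 = c := by linear_combination e3
  have hc0 : p.2 ≠ 0 := fun h0 => hg (by rw [hgc, ← hz, h0, mul_zero])
  classical
  have : Fintype F := Fintype.ofFinite F
  have := FiniteField.pow_card_sub_one_eq_one p.2 hc0
  rw [← Nat.card_eq_fintype_card, h3] at this
  rw [← hz]
  linear_combination this

end Good

end Cfsg.Agent.MinIndex
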