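/-
The inequalities for odd-dimensional orthogonal spaces.
-/
import Mathlib
import Cfsg.Prelude.Def_Classical
import Cfsg.Agent.Classical.OrthCount
import Cfsg.Agent.Classical.OrthForms
import Cfsg.Agent.Classical.OrthIndex
import Cfsg.Agent.Classical.OrthFinal
import Cfsg.Agent.MinIndex.OrthCounts

set_option autoImplicit false

namespace Cfsg.Agent.MinIndex

open QuadraticMap Cfsg.Agent.Classical Module

universe u

/-- Dividing a strict bound by a positive factor. -/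
theorem lt_of_mul_pred {n q A X : ℕ} (h : n * (q - 1) < A) (h' : A ≤ (q - 1) * X) : n < X :=
  Nat.lt_of_mul_lt_mul_right (a := q - 1) (lt_of_lt_of_le h (h'.trans (le_of_eq (mul_comm _ _))))

theorem odd_ineqs {q x : ℤ} (hq : 5 ≤ q) (hx : q ≤ x) :
    q ^ 4 * x ^ 2 - 1 ≤ (q - 1) * (2 * (q ^ 3 * x ^ 2)) ∧
    2 * (q ^ 4 * x ^ 2 - 1) ≤ (q - 1) * (5 * ((q - 1) * (q * x * (q * x - 1)))) ∧
    2 * (q ^ 4 * x ^ 2 - 1) ≤ (q - 1) * (q ^ 2 * x * (q ^ 2 * x - 1)) ∧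
    q ^ 4 * x ^ 2 - 1 ≤ (q - 1) * (2 * (q * x * (q * x + 1) * (x + 1))) ∧
    q ^ 4 * x ^ 2 - 1 ≤ (q - 1) * (q * x * (q * x + 1) * (x + 1) + q * x * (q * x - 1)) := by
  have hx5 : 5 ≤ x := le_trans hq hx
  have hx2 : 0 ≤ x ^ 2 := sq_nonneg x
  refine ⟨?_, ?_, ?_, ?_, ?_⟩
  · nlinarith [mul_nonneg (show 0 ≤ q ^ 3 by positivity) hx2,
      mul_nonneg (mul_nonneg (show (0:ℤ) ≤ q - 2 by linarith) (show 0 ≤ q ^ 3 by positivity)) hx2]
  · have h1 : 4 * (q * x) ≤ 5 * (q * x - 1) := by nlinarith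
    have h2 : 16 * q ^ 2 ≤ 25 * (q - 1) ^ 2 := by nlinarith
    have hqx : 0 ≤ q * x := by positivity
    nlinarith [mul_le_mul_of_nonneg_left h1 (mul_nonneg (sq_nonneg (q - 1)) hqx),
      mul_le_mul_of_nonneg_left h2 (mul_nonneg hx2 (sq_nonneg q)),
      mul_nonneg hx2 (pow_nonneg (show (0:ℤ) ≤ q by linarith) 4)]
  · have hY : 125 ≤ q ^ 2 * x := by
      have h25 : 25 ≤ q ^ 2 := by nlinarith
      nlinarith
    have h3 : 2 * (q ^ 2 * x + 1) ≤ (q - 1) * (q ^ 2 * x) := by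
      nlinarith [mul_le_mul_of_nonneg_right (show 4 ≤ q - 1 by linarith)
        (show (0:ℤ) ≤ q ^ 2 * x by linarith)]
    have h4 : 0 ≤ q ^ 2 * x - 1 := by nlinarith
    nlinarith [mul_le_mul_of_nonneg_right h3 h4]
  · have h4 : q ^ 3 * x ^ 2 ≤ q ^ 2 * x ^ 3 := by
      nlinarith [mul_le_mul_of_nonneg_left hx (mul_nonneg (sq_nonneg q) hx2)]
    have h5 : q ≤ 2 * (q - 1) := by linarith
    have h6 : q ^ 2 * x ^ 3 ≤ q * x * (q * x + 1) * (x + 1) := by nlinarith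
    have h7 : 0 ≤ q * x * (q * x + 1) * (x + 1) := by positivity
    nlinarith [mul_le_mul_of_nonneg_left (h4.trans h6) (show (0:ℤ) ≤ q by linarith),
      mul_le_mul_of_nonneg_right h5 h7]
  · have h4 : q ^ 3 * x ^ 2 ≤ q ^ 2 * x ^ 3 := by
      nlinarith [mul_le_mul_of_nonneg_left hx (mul_nonneg (sq_nonneg q) hx2)]
    have h5 : q ^ 3 * x ^ 2 + 2 * (q ^ 2 * x ^ 2) ≤
        q * x * (q * x + 1) * (x + 1) + q * x * (q * x - 1) := by nlinarith
    have h6 : q ^ 4 * x ^ 2 ≤ (q - 1) * (q ^ 3 * x ^ 2 + 2 * (q ^ 2 * x ^ 2)) := by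
      nlinarith [mul_nonneg (mul_nonneg (show (0:ℤ) ≤ q - 2 by linarith) (sq_nonneg q)) hx2]
    nlinarith [mul_le_mul_of_nonneg_left h5 (show (0:ℤ) ≤ q - 1 by linarith)]

theorem odd_ineq_a3 {q x : ℤ} (hq : 3 ≤ q) (hx : q ≤ x) :
    q ^ 2 * x - 1 ≤ (q - 1) * ((q * x + 1) * (x + 1)) := by
  nlinarith [mul_le_mul hx hx (by linarith) (by linarith),
    mul_le_mul_of_nonneg_left hx (show (0:ℤ) ≤ q * x by nlinarith),
    mul_le_mul_of_nonneg_left (show (2:ℤ) ≤ q - 1 by linarith)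
      (show (0:ℤ) ≤ (q * x + 1) * (x + 1) from
        mul_nonneg (add_nonneg (mul_nonneg (by linarith) (by linarith)) zero_le_one) (by linarith))]

theorem odd_ineq_a4 {q x : ℤ} (hq : 3 ≤ q) (hx : q ≤ x) :
    (q ^ 4 * x ^ 2 - 1) * (q * x - 4) ≤
      (q - 1) * (2 * ((q ^ 2 * x ^ 2 - 1) * q * (x ^ 2 - 1))) := by
  have hqx : 9 ≤ q * x := by nlinarith
  have hA : 0 ≤ q ^ 4 * x ^ 2 :=
    mul_nonneg (pow_nonneg (by linarith) 4) (sq_nonneg x)
  have h1 : (q ^ 4 * x ^ 2 - 1) * (q * x - 4) ≤ q ^ 4 * x ^ 2 * (q * x) := by nlinarith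
  have hx9 : 9 ≤ x ^ 2 := by nlinarith
  have h2 : 8 * x ^ 2 ≤ 9 * (x ^ 2 - 1) := by nlinarith
  have hq9 : 9 ≤ q ^ 2 := by nlinarith
  have h3 : 80 * (q ^ 2 * x ^ 2) ≤ 81 * (q ^ 2 * x ^ 2 - 1) := by
    nlinarith [mul_le_mul hq9 hx9 (by norm_num) (sq_nonneg q)]
  have h23 := mul_le_mul h3 h2 (by positivity) (by nlinarith)
  have h4 : q ^ 3 * x ^ 3 * (q * q) ≤ q ^ 3 * x ^ 3 * (q * x) := by
    exact mul_le_mul_of_nonneg_left (mul_le_mul_of_nonneg_left hx (by linarith))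
      (mul_nonneg (pow_nonneg (by linarith) 3) (pow_nonneg (by linarith) 3))
  have h5 : 4 * q ≤ 3 * (2 * (q - 1)) := by linarith
  have hpos : 0 ≤ (q ^ 2 * x ^ 2 - 1) * q * (x ^ 2 - 1) := by
    apply mul_nonneg (mul_nonneg ?_ ?_) ?_ <;> nlinarith
  have h6 := mul_le_mul_of_nonneg_right h5 hpos
  have h23' := mul_le_mul_of_nonneg_left h23 (mul_nonneg (show (0:ℤ) ≤ q by linarith) (show (0:ℤ) ≤ q by linarith))
  have hx4 : 0 ≤ q ^ 4 * x ^ 4 := by positivity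
  nlinarith

theorem odd_ineqs_three {x : ℤ} (hx : 3 ≤ x) :
    9 * x * (9 * x - 1) ≤ 10 * (3 * x * (3 * x - 1)) ∧
    9 * x * (9 * x - 1) ≤ 2 * (3 * x * (3 * x + 1) * (x + 1)) ∧
    9 * x * (9 * x - 1) ≤ 81 * x ^ 2 - 1 ∧
    9 * x * (9 * x - 1) ≤ 2 * (2 * (27 * x ^ 2)) := by
  have h : 3 * (9 * x - 1) ≤ 2 * ((3 * x + 1) * (x + 1)) := by nlinarith
  refine ⟨?_, ?_, ?_, ?_⟩ <;> nlinarith [mul_le_mul_of_nonneg_left h (show (0:ℤ) ≤ 3 * x by linarith)]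

/-- The natural number forms. -/
theorem odd_nat {q x : ℕ} (hq : 3 ≤ q) (hx : q ≤ x) :
    q * x * (q * x - 1) ≤ q ^ 2 * x ^ 2 - 1 ∧
    (q ^ 2 * x - 1) * (q ^ 2 * x - q) * (q ^ 2 * x - q ^ 2) ≤
      (q - 1) * (q * q) * ((q ^ 2 * x ^ 2 - 1) * q * (x ^ 2 - 1)) ∧
    (q ^ 4 * x ^ 2 - 1) * (q * x - 4) ≤
      (q - 1) * (2 * ((q ^ 2 * x ^ 2 - 1) * q * (x ^ 2 - 1))) ∧
    (q ^ 2 * x ^ 2 - 1) * q * (x ^ 2 - 1) * (q * x) =
      q * x * (q * x + 1) * (x + 1) * ((q * x - 1) * (q * x - q)) := by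
  have hx1 : 1 ≤ x := by omega
  have hqx : 9 ≤ q * x := Nat.mul_le_mul hq (le_trans hq hx)
  have hqle : q ≤ q * x := Nat.le_mul_of_pos_right q hx1
  have hx2 : 1 ≤ x ^ 2 := Nat.one_le_pow _ _ hx1
  have hq2 : q ≤ q ^ 2 := Nat.le_self_pow two_ne_zero q
  have hqq : q ^ 2 ≤ q ^ 2 * x := Nat.le_mul_of_pos_right _ hx1
  have hq2x2 : 1 ≤ q ^ 2 * x ^ 2 := Nat.one_le_iff_ne_zero.2 (by positivity)
  have hq4x2 : 1 ≤ q ^ 4 * x ^ 2 := Nat.one_le_iff_ne_zero.2 (by positivity)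
  refine ⟨?_, ?_, ?_, ?_⟩
  · rw [Nat.mul_sub, mul_one, show q * x * (q * x) = q ^ 2 * x ^ 2 by ring]
    exact Nat.sub_le_sub_left (by omega) _
  · have hC := odd_ineq_a3 (q := (q : ℤ)) (x := (x : ℤ)) (by exact_mod_cast hq)
      (by exact_mod_cast hx)
    zify [show 1 ≤ q ^ 2 * x by omega, show q ≤ q ^ 2 * x by omega, hqq, show 1 ≤ q by omega,
      hx2, hq2x2]
    have h1 : (1 : ℤ) ≤ x := by exact_mod_cast hx1
    have h2 : (1 : ℤ) ≤ (q : ℤ) * x := by exact_mod_cast (by omega : 1 ≤ q * x)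
    have h0 : (0 : ℤ) ≤ (q : ℤ) ^ 3 * ((q : ℤ) * x - 1) * ((x : ℤ) - 1) :=
      mul_nonneg (mul_nonneg (by positivity) (by linarith)) (by linarith)
    have := mul_le_mul_of_nonneg_left hC h0
    linear_combination this
  · have := odd_ineq_a4 (q := (q : ℤ)) (x := (x : ℤ)) (by exact_mod_cast hq) (by exact_mod_cast hx)
    zify [show 4 ≤ q * x by omega, show 1 ≤ q by omega, hx2, hq2x2, hq4x2]
    exact this
  · zify [show 1 ≤ q * x by omega, hqle, hx2, hq2x2]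
    ring

/-- The natural number forms from five elements on. -/
theorem odd_nat_five {q x : ℕ} (hq : 5 ≤ q) (hx : q ≤ x) :
    2 * (q ^ 4 * x ^ 2 - 1) ≤ (q - 1) * (5 * ((q - 1) * (q * x * (q * x - 1)))) ∧
    2 * (q ^ 4 * x ^ 2 - 1) ≤ (q - 1) * (q ^ 2 * x * (q ^ 2 * x - 1)) ∧
    q ^ 4 * x ^ 2 - 1 ≤ (q - 1) * (2 * (q * x * (q * x + 1) * (x + 1))) ∧
    q ^ 4 * x ^ 2 - 1 ≤ (q - 1) * (q * x * (q * x + 1) * (x + 1) + q * x * (q * x - 1)) := by
  have hx1 : 1 ≤ x := by omega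
  obtain ⟨-, i2, i3, i4, i5⟩ := odd_ineqs (q := (q : ℤ)) (x := (x : ℤ)) (by exact_mod_cast hq)
    (by exact_mod_cast hx)
  have h1 : 1 ≤ q * x := Nat.one_le_iff_ne_zero.2 (Nat.mul_ne_zero (by omega) (by omega))
  have h2 : 1 ≤ q ^ 2 * x := Nat.one_le_iff_ne_zero.2 (by positivity)
  have h3 : 1 ≤ q ^ 4 * x ^ 2 := Nat.one_le_iff_ne_zero.2 (by positivity)
  refine ⟨?_, ?_, ?_, ?_⟩ <;> zify [show 1 ≤ q by omega, h1, h2, h3] <;> assumption

/-- The natural number forms over three elements. -/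
theorem odd_nat_three {x : ℕ} (hx : 3 ≤ x) :
    9 * x * (9 * x - 1) ≤ 10 * (3 * x * (3 * x - 1)) ∧
    9 * x * (9 * x - 1) ≤ 2 * (3 * x * (3 * x + 1) * (x + 1)) := by
  obtain ⟨i1, i2, -, -⟩ := odd_ineqs_three (x := (x : ℤ)) (by exact_mod_cast hx)
  refine ⟨?_, ?_⟩ <;> zify [show 1 ≤ 9 * x by omega, show 1 ≤ 3 * x by omega] <;> assumption

variable {F : Type u} [Field F] [Finite F]

theorem sq_counts (i : ℕ) :
    Nat.card (sing1 (hypExt i (QuadraticMap.sq : QuadraticForm F F))) + 1 = Nat.card F ^ (2 * i) ∧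
    ∀ c : F, Nat.card F ^ i * (Nat.card F ^ i - 1) ≤
      Nat.card {x // hypExt i (QuadraticMap.sq : QuadraticForm F F) x = c} := by
  refine ⟨by rw [card_sing1_add_one, card_zeros_hypExt_odd], fun c => ?_⟩
  have h := card_level_hypExt (QuadraticMap.sq : QuadraticForm F F) i c
  set L := Nat.card {x // hypExt i (QuadraticMap.sq : QuadraticForm F F) x = c}
  set z := Nat.card {w // (QuadraticMap.sq : QuadraticForm F F) w = c}
  set q := Nat.card F with hq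
  have hq0 : 0 < q := Nat.card_pos
  have e1 : q * (L + q ^ i) = q * (q ^ (2 * i) + q ^ i * z) := by
    rw [mul_add, mul_add, show q * q ^ i = q ^ i * q by ring, h]; ring
  have e2 := Nat.eq_of_mul_eq_mul_left hq0 e1
  rw [Nat.mul_sub, mul_one, ← pow_add, ← two_mul]
  omega

/-- Small actions in odd dimension. -/
theorem smallAct_odd (h2 : (2 : F) ≠ 0) {j : ℕ} (hj : 1 ≤ j) {n q : ℕ} (hq : Nat.card F = q)
    (hq3 : 3 ≤ q) (hn : n * (q - 1) < q ^ (2 * (j + 2)) - 1)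
    (hn3 : q = 3 → 2 * n < q ^ (j + 2) * (q ^ (j + 2) - 1)) (hq5 : q ≠ 3 → 5 ≤ q) :
    SmallAct (hypExt j (QuadraticMap.sq : QuadraticForm F F)) (j + 1) n := by
  have hfr : finrank F F = 1 := finrank_self F
  have hI := innerSpace_hypExt (goodCore_sq h2) hj (by rw [hfr]; omega)
  obtain ⟨x, hx⟩ : ∃ x, x = q ^ j := ⟨_, rfl⟩
  have hxq : q ≤ x := hx ▸ Nat.le_self_pow (by omega) q
  have e1 : q ^ (j + 1) = q * x := by rw [hx]; ring
  have e2 : q ^ (j + 2) = q ^ 2 * x := by rw [hx]; ring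
  have f0 : q ^ (2 * j) = x ^ 2 := by rw [hx]; ring
  have f1 : q ^ (2 * (j + 1)) = q ^ 2 * x ^ 2 := by rw [hx]; ring
  have f2 : q ^ (2 * (j + 2)) = q ^ 4 * x ^ 2 := by rw [hx]; ring
  rw [f2] at hn
  rw [e2] at hn3
  obtain ⟨s1, -⟩ := sq_counts (F := F) j
  obtain ⟨s2, l2⟩ := sq_counts (F := F) (j + 1)
  obtain ⟨s3, l3⟩ := sq_counts (F := F) (j + 2)
  rw [hq] at s1 s2 l2 s3 l3
  rw [f0] at s1; rw [f1] at s2; rw [f2] at s3; rw [e1] at l2; rw [e2] at l3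
  have hS2 : Nat.card (sing1 (hypAdd (hypExt j (QuadraticMap.sq : QuadraticForm F F)))) + 1 =
      q ^ 2 * x ^ 2 := by
    rw [card_sing1_add_one, level_two, ← card_sing1_add_one]; exact s2
  have hS3 : Nat.card (sing1 (hypAdd (hypAdd (hypExt j (QuadraticMap.sq : QuadraticForm F F))))) + 1
      = q ^ 4 * x ^ 2 := by
    rw [card_sing1_add_one, level_three, ← card_sing1_add_one]; exact s3
  have hx1 : 1 ≤ x := by omega
  have hx2 : 9 ≤ x ^ 2 := Nat.pow_le_pow_left (le_trans hq3 hxq) 2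
  have hqx : 9 ≤ q * x := Nat.mul_le_mul hq3 (le_trans hq3 hxq)
  have hq2x : 9 ≤ q ^ 2 * x := le_trans (Nat.pow_le_pow_left hq3 2) (Nat.le_mul_of_pos_right _ hx1)
  have hqx2 : 9 ≤ q ^ 2 * x ^ 2 := le_trans hx2 (Nat.le_mul_of_pos_left _ (by positivity))
  have hq4x : 9 ≤ q ^ 4 * x ^ 2 := le_trans hx2 (Nat.le_mul_of_pos_left _ (by positivity))
  obtain ⟨hsq, ha3, ha4, hM⟩ := odd_nat hq3 hxq
  refine smallAct_of_bounds (QuadraticMap.sq : QuadraticForm F F) j anisotropic_sqQF hI hj hq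
    (A1 := x ^ 2 - 1) (A2 := q ^ 2 * x ^ 2 - 1) (A3 := q ^ 4 * x ^ 2 - 1)
    (B2 := q * x * (q * x - 1)) (B3 := q ^ 2 * x * (q ^ 2 * x - 1))
    (by omega) (by omega) (by omega) (fun c _ => by rw [level_two]; exact l2 c)
    (fun c _ => by rw [level_three]; exact l3 c) (by omega) hn ?_ ?_ ?_ ?_ ?_ ?_ ?_ ?_ ?_ ?_
  · exact Nat.sub_le_sub_right (Nat.le_mul_of_pos_right _ (by positivity)) 1
  · rw [e2]
    exact ha3
  · rw [e1]
    refine Nat.le_of_mul_le_mul_left ?_ (show 0 < q - 1 by omega)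
    refine le_trans (le_of_eq (by ring : (q - 1) * (n * (q * x - 4)) = n * (q - 1) * (q * x - 4))) ?_
    refine le_trans (Nat.mul_le_mul_right _ hn.le) ?_
    exact ha4
  · refine Or.inr ?_
    by_cases h3 : q = 3
    · subst h3
      have h' := (odd_nat_three hxq).1
      have := hn3 rfl
      norm_num at this ⊢
      omega
    · exact lt_of_mul_pred (A := 2 * (q ^ 4 * x ^ 2 - 1)) (by rw [mul_assoc]; omega)
        (odd_nat_five (hq5 h3) hxq).1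
  · have hb : n < 2 * (q ^ 3 * x ^ 2) := by
      refine lt_of_mul_pred hn ?_
      have : 2 ≤ q - 1 := by omega
      calc q ^ 4 * x ^ 2 - 1 ≤ q ^ 4 * x ^ 2 := Nat.sub_le _ _
        _ = q * (q ^ 3 * x ^ 2) := by ring
        _ ≤ ((q - 1) * 2) * (q ^ 3 * x ^ 2) := Nat.mul_le_mul_right _ (by omega)
        _ = (q - 1) * (2 * (q ^ 3 * x ^ 2)) := by ring
    have hB : 2 * q ^ 2 ≤ q * x * (q * x - 1) := by
      calc 2 * q ^ 2 = (q * q) * 2 := by ring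
        _ ≤ _ := Nat.mul_le_mul (Nat.mul_le_mul_left q hxq) (by omega)
    refine lt_of_lt_of_le hb ?_
    rw [f0, hq]
    calc 2 * (q ^ 3 * x ^ 2) = x ^ 2 * q * (2 * q ^ 2) := by ring
      _ ≤ _ := Nat.mul_le_mul_left _ hB
  · rw [e1]
    have hBd : 0 < (q * x - 1) * (q * x - q) := by
      refine Nat.mul_pos (by omega) ?_
      have : q * 2 ≤ q * x := Nat.mul_le_mul_left q (by omega)
      omega
    rw [hM]
    by_cases h3 : q = 3
    · subst h3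
      refine Or.inl (Nat.mul_lt_mul_of_pos_right ?_ hBd)
      have h' := (odd_nat_three hxq).2
      have := hn3 rfl
      norm_num at this ⊢
      omega
    · obtain ⟨-, -, i4, i5⟩ := odd_nat_five (hq5 h3) hxq
      refine Or.inr ⟨by have := hq5 h3; omega, ?_, ?_⟩
      · exact lt_of_lt_of_eq (Nat.mul_lt_mul_of_pos_right (lt_of_mul_pred hn i4) hBd)
          (mul_assoc _ _ _)
      · rw [min_eq_left hsq, ← add_mul]
        exact Nat.mul_lt_mul_of_pos_right (lt_of_mul_pred hn i5) hBd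
  · refine Or.inl ?_
    by_cases h3 : q = 3
    · have := hn3 h3
      omega
    · exact lt_of_mul_pred (A := 2 * (q ^ 4 * x ^ 2 - 1)) (by rw [mul_right_comm]; omega)
        (odd_nat_five (hq5 h3) hxq).2.1
  · rw [f1, hq]
    refine lt_of_mul_pred hn ?_
    calc q ^ 4 * x ^ 2 - 1 ≤ q ^ 4 * x ^ 2 := Nat.sub_le _ _
      _ = q * (q ^ 2 * x ^ 2 * q) := by ring
      _ ≤ ((q - 1) * 2) * (q ^ 2 * x ^ 2 * q) := Nat.mul_le_mul_right _ (by omega)
      _ = (q - 1) * (2 * (q ^ 2 * x ^ 2 * q)) := by ring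
  · by_cases h31 : q = 3 ∧ j = 1
    · obtain ⟨h3, hj1⟩ := h31
      subst h3 hj1
      have hx3 : x = 3 := by rw [hx]; norm_num
      subst hx3
      refine Or.inr ⟨rfl, rfl, fun c _ hc1 => goodVal_sq c hc1 hq, ?_, ?_⟩ <;>
        · have := hn3 rfl
          norm_num at this ⊢
          omega
    · refine Or.inl fun c _ => goodVal_all hI.nondeg hI.three (fun h3 => ?_) c
      rw [Cfsg.Agent.Classical.finrank_HypSpace, hfr]
      by_contra hlt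
      exact h31 ⟨hq.symm.trans h3, by omega⟩
  · intro h
    omega

end Cfsg.Agent.MinIndex
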