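/-
The inequalities for even-dimensional orthogonal spaces.
-/
import Mathlib
import Cfsg.Prelude.Def_Classical
import Cfsg.Agent.Classical.OrthCount
import Cfsg.Agent.Classical.OrthForms
import Cfsg.Agent.Classical.OrthIndex
import Cfsg.Agent.Classical.OrthFinal
import Cfsg.Agent.MinIndex.OrthCounts
import Cfsg.Agent.MinIndex.OrthNumOdd

set_option autoImplicit false

namespace Cfsg.Agent.MinIndex

open QuadraticMap Cfsg.Agent.Classical Module

universe u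

theorem plus_a3 {q y : ℤ} (hq : 2 ≤ q) (hy : q ≤ y) :
    q ^ 3 * y - 1 ≤ (q - 1) * ((q * y + 1) * (y + 1)) := by
  have h1 : 0 ≤ q * (q - 1) * y - 1 := by
    nlinarith [mul_le_mul (show (2:ℤ) ≤ q * (q - 1) by nlinarith) (show (2:ℤ) ≤ y by linarith)
      (by norm_num) (by nlinarith)]
  nlinarith [mul_nonneg (show (0:ℤ) ≤ y - q by linarith) h1]

theorem plus_a4 {q y : ℤ} (hq : 2 ≤ q) (hy : q ≤ y) :
    (q ^ 3 * y - 1) * (q ^ 2 * y + 1) ≤
      2 * (q - 1) * q * ((q ^ 2 * y ^ 2 - 1) * (y + 1)) := by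
  have hy2 : 2 ≤ y := le_trans hq hy
  have hqy : 4 ≤ q * y := by nlinarith
  have h15 : 15 * (q ^ 2 * y ^ 2) ≤ 16 * (q ^ 2 * y ^ 2 - 1) := by nlinarith
  have h1 : (q ^ 2 * y ^ 2 - 1) * (q + 1) ≤ (q ^ 2 * y ^ 2 - 1) * (y + 1) :=
    mul_le_mul_of_nonneg_left (by linarith) (by nlinarith)
  have hk : 0 ≤ 2 * (q - 1) * q := by nlinarith
  have h1' := mul_le_mul_of_nonneg_left h1 hk
  have hq3 : 0 ≤ q ^ 3 - q := by nlinarith
  have h15' := mul_le_mul_of_nonneg_left h15 hq3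
  have hY : q ^ 3 * y * 8 ≤ q ^ 5 * y ^ 2 := by
    have h8 : (8:ℤ) ≤ q ^ 2 * y := by nlinarith
    have := mul_le_mul_of_nonneg_left h8 (show 0 ≤ q ^ 3 * y from mul_nonneg (pow_nonneg (by linarith) 3) (by linarith))
    nlinarith
  have hq32 : 3 * q ^ 3 ≤ 4 * (q ^ 3 - q) := by nlinarith
  have hq32' := mul_le_mul_of_nonneg_right hq32 (show 0 ≤ q ^ 2 * y ^ 2 by positivity)
  have hb : 0 ≤ q ^ 2 * y := mul_nonneg (sq_nonneg q) (by linarith)
  nlinarith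

theorem plus_four {q y : ℤ} (hq : 4 ≤ q) (hy : q ≤ y) :
    2 * ((q ^ 3 * y - 1) * (q ^ 2 * y + 1)) ≤ (q - 1) * (5 * ((q - 1) * (q * y * (q ^ 2 * y - 1)))) ∧
    2 * ((q ^ 3 * y - 1) * (q ^ 2 * y + 1)) ≤ (q - 1) * (q ^ 2 * y * (q ^ 3 * y - 1)) ∧
    (q ^ 3 * y - 1) * (q ^ 2 * y + 1) ≤ (q - 1) * (2 * (q ^ 2 * y * (q * y + 1) * (y + 1))) ∧
    (q ^ 3 * y - 1) * (q ^ 2 * y + 1) ≤
      (q - 1) * (q ^ 2 * y * (q * y + 1) * (y + 1) + q * y * (q ^ 2 * y - 1)) ∧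
    (q ^ 3 * y - 1) * (q ^ 2 * y + 1) ≤ (q - 1) * (2 * (q ^ 4 * y ^ 2)) := by
  have hy4 : 4 ≤ y := le_trans hq hy
  have h16 : 16 ≤ q ^ 2 := by nlinarith
  have hY : 64 ≤ q ^ 2 * y := by nlinarith
  have hqy : 0 ≤ q * y := by nlinarith
  have hA : (q ^ 3 * y - 1) * (q ^ 2 * y + 1) ≤ q ^ 5 * y ^ 2 + q ^ 3 * y := by nlinarith
  have hsmall : 64 * (q ^ 3 * y) ≤ q ^ 5 * y ^ 2 := by
    nlinarith [mul_le_mul_of_nonneg_left hY (show 0 ≤ q ^ 3 * y by positivity)]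
  refine ⟨?_, ?_, ?_, ?_, ?_⟩
  · have h1 : 63 * (q ^ 2 * y) ≤ 64 * (q ^ 2 * y - 1) := by linarith
    have h2 : 9 * q ^ 2 ≤ 16 * (q - 1) ^ 2 := by nlinarith
    nlinarith [mul_le_mul_of_nonneg_left h1 (mul_nonneg (sq_nonneg (q - 1)) hqy),
      mul_le_mul_of_nonneg_left h2 (show 0 ≤ q ^ 3 * y ^ 2 by positivity)]
  · have h3 : 2 * (q ^ 2 * y + 1) ≤ (q - 1) * (q ^ 2 * y) := by
      nlinarith [mul_le_mul_of_nonneg_right (show 3 ≤ q - 1 by linarith)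
        (show (0:ℤ) ≤ q ^ 2 * y by linarith)]
    nlinarith [mul_le_mul_of_nonneg_right h3 (show 0 ≤ q ^ 3 * y - 1 by nlinarith)]
  · have h4 : q ^ 4 * y ^ 2 ≤ q ^ 3 * y ^ 3 := by
      nlinarith [mul_le_mul_of_nonneg_left hy (show 0 ≤ q ^ 3 * y ^ 2 by positivity)]
    have h6 : q ^ 3 * y ^ 3 ≤ q ^ 2 * y * (q * y + 1) * (y + 1) := by
      nlinarith [show 0 ≤ q ^ 3 * y ^ 2 by positivity, show 0 ≤ q ^ 2 * y ^ 2 by positivity, hY]
    nlinarith [mul_le_mul_of_nonneg_left (h4.trans h6) (show (0:ℤ) ≤ q - 1 by linarith),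
      mul_le_mul_of_nonneg_right (show 3 * q ≤ 4 * (q - 1) by linarith)
        (show 0 ≤ q ^ 4 * y ^ 2 by positivity)]
  · have h4 : q ^ 4 * y ^ 2 ≤ q ^ 3 * y ^ 3 := by
      nlinarith [mul_le_mul_of_nonneg_left hy (show 0 ≤ q ^ 3 * y ^ 2 by positivity)]
    have h5 : q ^ 4 * y ^ 2 + 2 * (q ^ 3 * y ^ 2) ≤
        q ^ 2 * y * (q * y + 1) * (y + 1) + q * y * (q ^ 2 * y - 1) := by
      nlinarith [show q * y ≤ q ^ 2 * y by nlinarith, show 0 ≤ q ^ 2 * y ^ 2 by positivity]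
    have h6 : q ^ 5 * y ^ 2 + q ^ 4 * y ^ 2 - 2 * (q ^ 3 * y ^ 2) ≤
        (q - 1) * (q ^ 4 * y ^ 2 + 2 * (q ^ 3 * y ^ 2)) := by
      nlinarith
    have h7 : q ^ 3 * y ≤ q ^ 4 * y ^ 2 - 2 * (q ^ 3 * y ^ 2) := by
      have : 1 ≤ (q - 2) * y := by nlinarith
      nlinarith [mul_le_mul_of_nonneg_left this (show 0 ≤ q ^ 3 * y by positivity)]
    nlinarith [mul_le_mul_of_nonneg_left h5 (show (0:ℤ) ≤ q - 1 by linarith)]
  · nlinarith [mul_le_mul_of_nonneg_right (show 3 * q ≤ 4 * (q - 1) by linarith)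
      (show 0 ≤ q ^ 4 * y ^ 2 by positivity)]

theorem minus_all {q x : ℤ} (hq : 2 ≤ q) (hx : q ≤ x) :
    q ^ 2 * x - 1 ≤ (q - 1) * ((q ^ 2 * x + 1) * (q * x + 1)) ∧
    (q ^ 3 * x + 1) * (q ^ 2 * x - 1) ≤
      2 * (q - 1) * q * ((q ^ 2 * x + 1) * ((q * x + 1) * (x - 1))) ∧
    (q ^ 3 * x + 1) * (q ^ 2 * x - 1) ≤ (q - 1) * (q * x * (q ^ 2 * x + 1) * (q * x + 1)) ∧
    (q ^ 3 * x + 1) * (q ^ 2 * x - 1) ≤ (q - 1) * (2 * (q ^ 4 * x ^ 2)) := by
  have hx2 : 2 ≤ x := le_trans hq hx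
  have hqx : 4 ≤ q * x := by nlinarith
  have hY : 8 ≤ q ^ 2 * x := by nlinarith
  have hqq : q * x ≤ q ^ 2 * x := by nlinarith
  have hA : (q ^ 3 * x + 1) * (q ^ 2 * x - 1) ≤ q ^ 5 * x ^ 2 := by nlinarith
  have h2q : q ≤ 2 * (q - 1) := by linarith
  refine ⟨?_, ?_, ?_, ?_⟩
  · have h0 : 1 * 1 ≤ (q - 1) * (q * x + 1) :=
      mul_le_mul (by linarith) (by linarith) zero_le_one (by linarith)
    nlinarith [mul_le_mul_of_nonneg_left h0 (show (0:ℤ) ≤ q ^ 2 * x + 1 by linarith)]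
  · have h1 : q * (q * x - 1) ≤ 2 * (q - 1) * ((q * x + 1) * (x - 1)) := by
      have ha : q * x * (q - 1) ≤ (q * x + 1) * (x - 1) := by
        nlinarith [mul_le_mul_of_nonneg_left (show q - 1 ≤ x - 1 by linarith)
          (show (0:ℤ) ≤ q * x by linarith)]
      nlinarith [mul_le_mul_of_nonneg_left ha (show (0:ℤ) ≤ 2 * (q - 1) by linarith),
        mul_le_mul_of_nonneg_right (show q ≤ 2 * ((q - 1) * (q - 1)) by nlinarith)
          (show (0:ℤ) ≤ q * x by linarith)]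
    have h2 : (q ^ 3 * x + 1) * (q ^ 2 * x - 1) ≤ q * (q ^ 2 * x + 1) * (q * (q * x - 1) + q) := by
      nlinarith
    have hK : 0 ≤ q * (q ^ 2 * x + 1) := by positivity
    have hqs : q * (q * x - 1) + q ≤ 2 * (q - 1) * ((q * x + 1) * (x - 1)) := by
      have ha : q * x * (q - 1) + (q - 1) ≤ (q * x + 1) * (x - 1) := by
        nlinarith [mul_le_mul_of_nonneg_left (show q - 1 ≤ x - 1 by linarith)
          (show (0:ℤ) ≤ q * x + 1 by linarith)]
      nlinarith [mul_le_mul_of_nonneg_left ha (show (0:ℤ) ≤ 2 * (q - 1) by linarith),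
        mul_le_mul_of_nonneg_right (show q ≤ 2 * ((q - 1) * (q - 1)) by nlinarith)
          (show (0:ℤ) ≤ q * x by linarith)]
    nlinarith [mul_le_mul_of_nonneg_left hqs hK]
  · have h3 : q ^ 5 * x ^ 2 ≤ (q - 1) * (q ^ 4 * x ^ 3) := by
      have : q ≤ (q - 1) * x := by nlinarith
      nlinarith [mul_le_mul_of_nonneg_left this (show 0 ≤ q ^ 4 * x ^ 2 by positivity)]
    have h4 : q ^ 4 * x ^ 3 ≤ q * x * (q ^ 2 * x + 1) * (q * x + 1) := by
      nlinarith [show 0 ≤ q ^ 3 * x ^ 2 by positivity, show 0 ≤ q ^ 2 * x ^ 2 by positivity]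
    nlinarith [mul_le_mul_of_nonneg_left h4 (show (0:ℤ) ≤ q - 1 by linarith)]
  · nlinarith [mul_le_mul_of_nonneg_right h2q (show 0 ≤ q ^ 4 * x ^ 2 by positivity)]

theorem minus_three {q x : ℤ} (hq : 3 ≤ q) (hx : q ≤ x) :
    2 * ((q ^ 3 * x + 1) * (q ^ 2 * x - 1)) ≤ (q - 1) * (5 * ((q - 1) * (q * x * (q ^ 2 * x + 1)))) ∧
    2 * ((q ^ 3 * x + 1) * (q ^ 2 * x - 1)) ≤ (q - 1) * (q ^ 2 * x * (q ^ 3 * x + 1)) := by
  have hx3 : 3 ≤ x := le_trans hq hx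
  have hqx : 0 ≤ q * x := by nlinarith
  have hY : 0 ≤ q ^ 2 * x := by nlinarith
  have hA : (q ^ 3 * x + 1) * (q ^ 2 * x - 1) ≤ q ^ 5 * x ^ 2 := by nlinarith
  refine ⟨?_, ?_⟩
  · have h2 : 4 * q ^ 2 ≤ 9 * (q - 1) ^ 2 := by nlinarith
    nlinarith [mul_le_mul_of_nonneg_left h2 (show 0 ≤ q ^ 3 * x ^ 2 by positivity),
      mul_nonneg (sq_nonneg (q - 1)) hqx, show 0 ≤ q ^ 5 * x ^ 2 by positivity]
  · have h3 : 2 * (q ^ 2 * x - 1) ≤ (q - 1) * (q ^ 2 * x) := by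
      nlinarith [mul_le_mul_of_nonneg_right (show 2 ≤ q - 1 by linarith) hY]
    nlinarith [mul_le_mul_of_nonneg_right h3 (show 0 ≤ q ^ 3 * x + 1 by positivity)]

/-- The natural number forms, plus type. -/
theorem plus_nat {q y : ℕ} (hq : 2 ≤ q) (hy : q ≤ y) :
    q * y * (q ^ 2 * y - 1) ≤ (q ^ 2 * y - 1) * (q * y + 1) ∧
    (q ^ 3 * y - 1) * (q ^ 3 * y - q) * (q ^ 3 * y - q ^ 2) ≤
      (q - 1) * (q * q) * ((q ^ 2 * y - 1) * (q * y + 1) * q * ((q * y - 1) * (y + 1))) ∧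
    (q ^ 3 * y - 1) * (q ^ 2 * y + 1) * (q ^ 2 * y - 4) ≤
      (q - 1) * (2 * ((q ^ 2 * y - 1) * (q * y + 1) * q * ((q * y - 1) * (y + 1)))) ∧
    (q ^ 2 * y - 1) * (q * y + 1) * q * ((q * y - 1) * (y + 1)) * (q ^ 2 * y) =
      q ^ 2 * y * (q * y + 1) * (y + 1) * ((q ^ 2 * y - 1) * (q ^ 2 * y - q)) := by
  have hy2 : 2 ≤ y := le_trans hq hy
  have hqy : 4 ≤ q * y := Nat.mul_le_mul hq hy2
  have hY : q * y ≤ q ^ 2 * y := Nat.mul_le_mul_right y (Nat.le_self_pow two_ne_zero q)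
  have hqY : q ≤ q * y := Nat.le_mul_of_pos_right q (by omega)
  have hq3 : q ^ 2 * y ≤ q ^ 3 * y := Nat.mul_le_mul_right y (Nat.pow_le_pow_right (by omega) (by omega))
  have hqq : q ^ 2 ≤ q ^ 3 * y :=
    le_trans (Nat.le_mul_of_pos_right _ (by omega : 0 < y)) hq3
  have e1 : (2 : ℤ) ≤ q := by exact_mod_cast hq
  have e2 : (q : ℤ) ≤ y := by exact_mod_cast hy
  refine ⟨?_, ?_, ?_, ?_⟩
  · rw [mul_comm]
    exact Nat.mul_le_mul_left _ (by omega)
  · have hC := plus_a3 e1 e2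
    zify [show 1 ≤ q ^ 3 * y by omega, show q ≤ q ^ 3 * y by omega, hqq, show 1 ≤ q by omega,
      show 1 ≤ q ^ 2 * y by omega, show 1 ≤ q * y by omega]
    have h1 : (1 : ℤ) ≤ (q : ℤ) * y := by exact_mod_cast (by omega : 1 ≤ q * y)
    have h2 : (1 : ℤ) ≤ (q : ℤ) ^ 2 * y := by exact_mod_cast (by omega : 1 ≤ q ^ 2 * y)
    have h0 : (0 : ℤ) ≤ (q : ℤ) ^ 3 * ((q : ℤ) ^ 2 * y - 1) * ((q : ℤ) * y - 1) :=
      mul_nonneg (mul_nonneg (by positivity) (by linarith)) (by linarith)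
    have := mul_le_mul_of_nonneg_left hC h0
    linear_combination this
  · have hC := plus_a4 e1 e2
    zify [show 1 ≤ q ^ 3 * y by omega, show 4 ≤ q ^ 2 * y by omega, show 1 ≤ q by omega,
      show 1 ≤ q ^ 2 * y by omega, show 1 ≤ q * y by omega]
    have h2 : (4 : ℤ) ≤ (q : ℤ) ^ 2 * y := by exact_mod_cast (by omega : 4 ≤ q ^ 2 * y)
    have hA : (0 : ℤ) ≤ ((q : ℤ) ^ 3 * y - 1) * ((q : ℤ) ^ 2 * y + 1) :=
      mul_nonneg (by
        have : (1 : ℤ) ≤ (q : ℤ) ^ 3 * y := by exact_mod_cast (by omega : 1 ≤ q ^ 3 * y)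
        linarith) (by positivity)
    calc ((q : ℤ) ^ 3 * y - 1) * ((q : ℤ) ^ 2 * y + 1) * ((q : ℤ) ^ 2 * y - 4)
        ≤ ((q : ℤ) ^ 3 * y - 1) * ((q : ℤ) ^ 2 * y + 1) * ((q : ℤ) ^ 2 * y - 1) :=
          mul_le_mul_of_nonneg_left (by linarith) hA
      _ ≤ 2 * ((q : ℤ) - 1) * q * (((q : ℤ) ^ 2 * (y : ℤ) ^ 2 - 1) * ((y : ℤ) + 1)) *
            ((q : ℤ) ^ 2 * y - 1) := mul_le_mul_of_nonneg_right hC (by linarith)
      _ = _ := by ring
  · zify [show 1 ≤ q ^ 2 * y by omega, show q ≤ q ^ 2 * y by omega, show 1 ≤ q * y by omega]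
    ring

/-- The natural number forms, plus type, from four elements on. -/
theorem plus_nat_four {q y : ℕ} (hq : 4 ≤ q) (hy : q ≤ y) :
    2 * ((q ^ 3 * y - 1) * (q ^ 2 * y + 1)) ≤ (q - 1) * (5 * ((q - 1) * (q * y * (q ^ 2 * y - 1)))) ∧
    2 * ((q ^ 3 * y - 1) * (q ^ 2 * y + 1)) ≤ (q - 1) * (q ^ 2 * y * (q ^ 3 * y - 1)) ∧
    (q ^ 3 * y - 1) * (q ^ 2 * y + 1) ≤ (q - 1) * (2 * (q ^ 2 * y * (q * y + 1) * (y + 1))) ∧
    (q ^ 3 * y - 1) * (q ^ 2 * y + 1) ≤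
      (q - 1) * (q ^ 2 * y * (q * y + 1) * (y + 1) + q * y * (q ^ 2 * y - 1)) ∧
    (q ^ 3 * y - 1) * (q ^ 2 * y + 1) ≤ (q - 1) * (2 * (q ^ 4 * y ^ 2)) := by
  have hy0 : 0 < y := by omega
  have h1 : 1 ≤ q ^ 2 * y := Nat.one_le_iff_ne_zero.2 (by positivity)
  have h2 : 1 ≤ q ^ 3 * y := Nat.one_le_iff_ne_zero.2 (by positivity)
  obtain ⟨i1, i2, i3, i4, i5⟩ := plus_four (q := (q : ℤ)) (y := (y : ℤ)) (by exact_mod_cast hq)
    (by exact_mod_cast hy)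
  refine ⟨?_, ?_, ?_, ?_, ?_⟩ <;> zify [show 1 ≤ q by omega, h1, h2] <;> assumption

/-- The natural number forms, plus type, over two elements. -/
theorem plus_nat_two {y : ℕ} (hy : 2 ≤ y) :
    4 * y * (8 * y - 1) ≤ (8 * y - 1) * (4 * y + 1) ∧
    4 * y * (8 * y - 1) ≤ 5 * (2 * y * (4 * y - 1)) ∧
    4 * y * (8 * y - 1) ≤ 4 * y * (2 * y + 1) * (y + 1) ∧
    4 * y * (8 * y - 1) ≤ 2 * (16 * y ^ 2) := by
  have e : (2 : ℤ) ≤ y := by exact_mod_cast hy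
  refine ⟨?_, ?_, ?_, ?_⟩
  · rw [mul_comm]
    exact Nat.mul_le_mul_left _ (by omega)
  · calc 4 * y * (8 * y - 1) = 2 * y * (2 * (8 * y - 1)) := by ring
      _ ≤ 2 * y * (5 * (4 * y - 1)) := Nat.mul_le_mul_left _ (by omega)
      _ = _ := by ring
  · rw [mul_assoc (4 * y) (2 * y + 1)]
    refine Nat.mul_le_mul_left _ ?_
    zify [show 1 ≤ 8 * y by omega]
    nlinarith
  · calc 4 * y * (8 * y - 1) ≤ 4 * y * (8 * y) := Nat.mul_le_mul_left _ (Nat.sub_le _ _)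
      _ = _ := by ring

/-- The natural number forms, minus type. -/
theorem minus_nat {q x : ℕ} (hq : 2 ≤ q) (hx : q ≤ x) :
    (q ^ 2 * x - 1) * (q ^ 2 * x - q) * (q ^ 2 * x - q ^ 2) ≤
      (q - 1) * (q * q) * ((q ^ 2 * x + 1) * (q * x - 1) * q * ((q * x + 1) * (x - 1))) ∧
    (q ^ 3 * x + 1) * (q ^ 2 * x - 1) * (q * x - 4) ≤
      (q - 1) * (2 * ((q ^ 2 * x + 1) * (q * x - 1) * q * ((q * x + 1) * (x - 1)))) ∧
    (q ^ 2 * x + 1) * (q * x - 1) * q * ((q * x + 1) * (x - 1)) * (q * x) =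
      q * x * (q ^ 2 * x + 1) * (q * x + 1) * ((q * x - 1) * (q * x - q)) ∧
    (q ^ 3 * x + 1) * (q ^ 2 * x - 1) ≤ (q - 1) * (q * x * (q ^ 2 * x + 1) * (q * x + 1)) ∧
    (q ^ 3 * x + 1) * (q ^ 2 * x - 1) ≤ (q - 1) * (2 * (q ^ 4 * x ^ 2)) := by
  have hx2 : 2 ≤ x := le_trans hq hx
  have hqx : 4 ≤ q * x := Nat.mul_le_mul hq hx2
  have hqX : q ≤ q * x := Nat.le_mul_of_pos_right q (by omega)
  have hY : q * x ≤ q ^ 2 * x := Nat.mul_le_mul_right x (Nat.le_self_pow two_ne_zero q)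
  have hqq : q ^ 2 ≤ q ^ 2 * x := Nat.le_mul_of_pos_right _ (by omega)
  obtain ⟨i1, i2, i3, i4⟩ := minus_all (q := (q : ℤ)) (x := (x : ℤ)) (by exact_mod_cast hq)
    (by exact_mod_cast hx)
  have h1 : (4 : ℤ) ≤ (q : ℤ) * x := by exact_mod_cast hqx
  have hxz : (2 : ℤ) ≤ x := by exact_mod_cast hx2
  refine ⟨?_, ?_, ?_, ?_, ?_⟩
  · zify [show 1 ≤ q ^ 2 * x by omega, show q ≤ q ^ 2 * x by omega, hqq, show 1 ≤ q by omega,
      show 1 ≤ q * x by omega, show 1 ≤ x by omega]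
    have h0 : (0 : ℤ) ≤ (q : ℤ) ^ 3 * ((q : ℤ) * x - 1) * ((x : ℤ) - 1) :=
      mul_nonneg (mul_nonneg (by positivity) (by linarith)) (by linarith)
    linear_combination mul_le_mul_of_nonneg_left i1 h0
  · zify [show 1 ≤ q ^ 2 * x by omega, show 4 ≤ q * x by omega, show 1 ≤ q by omega,
      show 1 ≤ q * x by omega, show 1 ≤ x by omega]
    have hA : (0 : ℤ) ≤ ((q : ℤ) ^ 3 * x + 1) * ((q : ℤ) ^ 2 * x - 1) :=
      mul_nonneg (by positivity) (by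
        have : (1 : ℤ) ≤ (q : ℤ) ^ 2 * x := by exact_mod_cast (by omega : 1 ≤ q ^ 2 * x)
        linarith)
    calc ((q : ℤ) ^ 3 * x + 1) * ((q : ℤ) ^ 2 * x - 1) * ((q : ℤ) * x - 4)
        ≤ ((q : ℤ) ^ 3 * x + 1) * ((q : ℤ) ^ 2 * x - 1) * ((q : ℤ) * x - 1) :=
          mul_le_mul_of_nonneg_left (by linarith) hA
      _ ≤ 2 * ((q : ℤ) - 1) * q * (((q : ℤ) ^ 2 * x + 1) * (((q : ℤ) * x + 1) * ((x : ℤ) - 1))) *
            ((q : ℤ) * x - 1) := mul_le_mul_of_nonneg_right i2 (by linarith)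
      _ = _ := by ring
  · zify [show 1 ≤ q * x by omega, hqX, show 1 ≤ x by omega]
    ring
  all_goals zify [show 1 ≤ q ^ 2 * x by omega, show 1 ≤ q by omega]; assumption

/-- The natural number forms, minus type, from three elements on. -/
theorem minus_nat_three {q x : ℕ} (hq : 3 ≤ q) (hx : q ≤ x) :
    2 * ((q ^ 3 * x + 1) * (q ^ 2 * x - 1)) ≤ (q - 1) * (5 * ((q - 1) * (q * x * (q ^ 2 * x + 1)))) ∧
    2 * ((q ^ 3 * x + 1) * (q ^ 2 * x - 1)) ≤ (q - 1) * (q ^ 2 * x * (q ^ 3 * x + 1)) := by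
  have hx0 : 0 < x := by omega
  have h1 : 1 ≤ q ^ 2 * x := Nat.one_le_iff_ne_zero.2 (by positivity)
  obtain ⟨i1, i2⟩ := minus_three (q := (q : ℤ)) (x := (x : ℤ)) (by exact_mod_cast hq)
    (by exact_mod_cast hx)
  refine ⟨?_, ?_⟩ <;> zify [show 1 ≤ q by omega, h1] <;> assumption

variable {F : Type u} [Field F] [Finite F]

theorem plus_counts (i : ℕ) :
    Nat.card (sing1 (hypExt (i + 1) (0 : QuadraticForm F (Fin 0 → F)))) =
      (Nat.card F ^ (i + 1) - 1) * (Nat.card F ^ i + 1) ∧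
    ∀ c : F, c ≠ 0 → Nat.card F ^ i * (Nat.card F ^ (i + 1) - 1) =
      Nat.card {x // hypExt (i + 1) (0 : QuadraticForm F (Fin 0 → F)) x = c} := by
  have hq0 : 0 < Nat.card F := Nat.card_pos
  refine ⟨?_, fun c hc => ?_⟩
  · have h1 := card_sing1_add_one (hypExt (i + 1) (0 : QuadraticForm F (Fin 0 → F)))
    have h2 := card_zeros_hypExt_plus (F := F) i
    rw [← h1] at h2
    have e : (Nat.card F ^ (i + 1) - 1) * (Nat.card F ^ i + 1) + (Nat.card F ^ i + 1) =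
        Nat.card F ^ (i + 1) * (Nat.card F ^ i + 1) := by
      rw [← add_one_mul, Nat.sub_add_cancel (Nat.one_le_pow _ _ hq0)]
    have e' : Nat.card F ^ (i + 1) * (Nat.card F ^ i + 1) =
        Nat.card F ^ (2 * i + 1) + Nat.card F ^ (i + 1) := by ring
    rw [e'] at e
    omega
  · have hz : Nat.card {w // (0 : QuadraticForm F (Fin 0 → F)) w = c} = 0 := by
      have : IsEmpty {w // (0 : QuadraticForm F (Fin 0 → F)) w = c} :=
        ⟨fun ⟨w, hw⟩ => hc (by rw [← hw]; rfl)⟩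
      exact Nat.card_of_isEmpty
    have h := card_level_hypExt (0 : QuadraticForm F (Fin 0 → F)) (i + 1) c
    rw [hz, mul_zero, add_zero, show Nat.card (Fin 0 → F) = 1 from Nat.card_unique, mul_one,
      mul_one] at h
    set L := Nat.card {x // hypExt (i + 1) (0 : QuadraticForm F (Fin 0 → F)) x = c}
    have e1 : Nat.card F * (L + Nat.card F ^ i) = Nat.card F * Nat.card F ^ (2 * i + 1) := by
      rw [mul_add, ← pow_succ' _ i, h]; ring
    have e2 := Nat.eq_of_mul_eq_mul_left hq0 e1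
    rw [Nat.mul_sub, mul_one, ← pow_add, show i + (i + 1) = 2 * i + 1 by ring]
    omega

theorem minus_counts {a b : F} (hA : (binQF a b).Anisotropic) (i : ℕ) :
    Nat.card (sing1 (hypExt i (binQF a b))) =
      (Nat.card F ^ (i + 1) + 1) * (Nat.card F ^ i - 1) ∧
    ∀ c : F, c ≠ 0 → Nat.card F ^ i * (Nat.card F ^ (i + 1) + 1) =
      Nat.card {x // hypExt i (binQF a b) x = c} := by
  have hq0 : 0 < Nat.card F := Nat.card_pos
  refine ⟨?_, fun c hc => ?_⟩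
  · have h1 := card_sing1_add_one (hypExt i (binQF a b))
    have h2 := card_zeros_hypExt_minus i hA
    rw [← h1] at h2
    have e : (Nat.card F ^ (i + 1) + 1) * (Nat.card F ^ i - 1) + (Nat.card F ^ (i + 1) + 1) =
        (Nat.card F ^ (i + 1) + 1) * Nat.card F ^ i := by
      rw [← mul_add_one, Nat.sub_add_cancel (Nat.one_le_pow _ _ hq0)]
    have e' : (Nat.card F ^ (i + 1) + 1) * Nat.card F ^ i =
        Nat.card F ^ (2 * i + 1) + Nat.card F ^ i := by ring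
    rw [e'] at e
    omega
  · have h := card_level_hypExt (binQF a b) i c
    rw [card_binQF_eq hA hc, card_binQF_one hA, show Nat.card (Fin 2 → F) = Nat.card F ^ 2 by
      simp [Nat.card_fun]] at h
    set q := Nat.card F
    set L := Nat.card {x // hypExt i (binQF a b) x = c}
    have e1 : q * (L + q ^ (i + 1)) = q * (q ^ i * (q ^ (i + 1) + 1) + q ^ (i + 1)) := by
      rw [mul_add, show q * q ^ (i + 1) = q ^ i * q ^ 2 by ring, h]; ring
    exact (Nat.add_right_cancel (Nat.eq_of_mul_eq_mul_left hq0 e1)).symm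

set_option maxHeartbeats 800000 in
/-- Small actions, plus type. -/
theorem smallAct_plus {i : ℕ} (hi : 1 ≤ i) {n q : ℕ} (hq : Nat.card F = q)
    (hn : n * (q - 1) < (q ^ (i + 3) - 1) * (q ^ (i + 2) + 1))
    (hn2 : q = 2 → n < q ^ (i + 2) * (q ^ (i + 3) - 1)) (hq4 : q ≠ 2 → 4 ≤ q) :
    SmallAct (hypExt (i + 1) (0 : QuadraticForm F (Fin 0 → F))) (i + 1 + 1) n := by
  have hq2 : 2 ≤ q := hq ▸ Finite.one_lt_card
  have hfr : finrank F (Fin 0 → F) = 0 := finrank_fin_fun F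
  have hI := innerSpace_hypExt (F := F) goodCore_zero (j := i + 1) (by omega) (by rw [hfr]; omega)
  obtain ⟨y, hy⟩ : ∃ y, y = q ^ i := ⟨_, rfl⟩
  have hyq : q ≤ y := hy ▸ Nat.le_self_pow (by omega) q
  have e1 : q ^ (i + 1) = q * y := by rw [hy]; ring
  have e2 : q ^ (i + 2) = q ^ 2 * y := by rw [hy]; ring
  have e3 : q ^ (i + 3) = q ^ 3 * y := by rw [hy]; ring
  have f0 : q ^ (2 * (i + 1)) = q ^ 2 * y ^ 2 := by rw [hy]; ring
  have f1 : q ^ (2 * (i + 1 + 1)) = q ^ 4 * y ^ 2 := by rw [hy]; ring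
  rw [e3, e2] at hn hn2
  obtain ⟨s1, -⟩ := plus_counts (F := F) i
  obtain ⟨s2, l2⟩ := plus_counts (F := F) (i + 1)
  obtain ⟨s3, l3⟩ := plus_counts (F := F) (i + 2)
  rw [hq] at s1 s2 l2 s3 l3
  rw [← hy, e1] at s1
  rw [e1, show i + 1 + 1 = i + 2 from rfl, e2] at s2 l2
  rw [e2, show i + 2 + 1 = i + 3 from rfl, e3] at s3 l3
  have hS2 : Nat.card (sing1 (hypAdd (hypExt (i + 1) (0 : QuadraticForm F (Fin 0 → F))))) =
      (q ^ 2 * y - 1) * (q * y + 1) := by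
    have h1 := card_sing1_add_one (hypExt (i + 2) (0 : QuadraticForm F (Fin 0 → F)))
    have h2 := card_sing1_add_one (hypAdd (hypExt (i + 1) (0 : QuadraticForm F (Fin 0 → F))))
    rw [level_two, show i + 1 + 1 = i + 2 from rfl, ← h1] at h2
    rw [← s2]; omega
  have hS3 : Nat.card (sing1 (hypAdd (hypAdd (hypExt (i + 1)
      (0 : QuadraticForm F (Fin 0 → F)))))) = (q ^ 3 * y - 1) * (q ^ 2 * y + 1) := by
    have h1 := card_sing1_add_one (hypExt (i + 3) (0 : QuadraticForm F (Fin 0 → F)))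
    have h2 := card_sing1_add_one
      (hypAdd (hypAdd (hypExt (i + 1) (0 : QuadraticForm F (Fin 0 → F)))))
    rw [level_three, show i + 1 + 2 = i + 3 from rfl, ← h1] at h2
    rw [← s3]; omega
  obtain ⟨hB, ha3, ha4, hM⟩ := plus_nat hq2 hyq
  have hW0 : Nat.card (Fin 0 → F) = 1 := Nat.card_unique
  have hy0 : 0 < y := by omega
  have hqy : 4 ≤ q * y := Nat.mul_le_mul hq2 (le_trans hq2 hyq)
  have hq2y : q * y ≤ q ^ 2 * y := Nat.mul_le_mul_right y (Nat.le_self_pow two_ne_zero q)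
  have h9 : n < 2 * (q ^ 4 * y ^ 2) := by
    by_cases h : q = 2
    · subst h
      have t1 := hn2 rfl
      have t2 := (plus_nat_two (hyq)).2.2.2
      norm_num at t1 t2 ⊢
      omega
    · exact lt_of_mul_pred hn (plus_nat_four (hq4 h) hyq).2.2.2.2
  refine smallAct_of_bounds (0 : QuadraticForm F (Fin 0 → F)) (i + 1) anisotropic_zero_fin0 hI
    (by omega) hq (A1 := (q * y - 1) * (y + 1)) (A2 := (q ^ 2 * y - 1) * (q * y + 1))
    (A3 := (q ^ 3 * y - 1) * (q ^ 2 * y + 1)) (B2 := q * y * (q ^ 2 * y - 1))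
    (B3 := q ^ 2 * y * (q ^ 3 * y - 1)) s1.ge hS2.ge hS3.ge
    (fun c hc => by rw [level_two, ← l2 c hc]) (fun c hc => by rw [level_three, ← l3 c hc])
    (Nat.mul_pos (by omega) (by omega)) hn ?_ ?_ ?_ ?_ ?_ ?_ ?_ ?_ ?_ ?_
  · refine le_trans (Nat.sub_le_sub_right (Nat.le_mul_of_pos_right (q ^ 2) hy0) 1)
      (Nat.le_mul_of_pos_right _ (by omega))
  · rw [show i + 1 + 2 = i + 3 from rfl, e3]
    exact ha3
  · rw [show i + 1 + 1 = i + 2 from rfl, e2]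
    refine Nat.le_of_mul_le_mul_left ?_ (show 0 < q - 1 by omega)
    refine le_trans (le_of_eq (by ring : (q - 1) * (n * (q ^ 2 * y - 4)) =
      n * (q - 1) * (q ^ 2 * y - 4))) ?_
    exact le_trans (Nat.mul_le_mul_right _ hn.le) ha4
  · by_cases h : q = 2
    · subst h
      refine Or.inl ?_
      have t1 := hn2 rfl
      have t2 := (plus_nat_two (hyq)).2.1
      norm_num at t1 t2 ⊢
      omega
    · exact Or.inr (lt_of_mul_pred (A := 2 * ((q ^ 3 * y - 1) * (q ^ 2 * y + 1)))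
        (by rw [mul_assoc]; omega) (plus_nat_four (hq4 h) hyq).1)
  · rw [f0, hW0, mul_one]
    refine lt_of_lt_of_le h9 ?_
    calc 2 * (q ^ 4 * y ^ 2) = q ^ 2 * y ^ 2 * (q * (2 * q)) := by ring
      _ ≤ _ := Nat.mul_le_mul_left _ (Nat.mul_le_mul (Nat.le_mul_of_pos_right q hy0) (by
          have h2 : 2 * q ≤ q * y := by rw [mul_comm]; exact Nat.mul_le_mul_left q (by omega)
          have h4 : q * y * 2 ≤ q ^ 2 * y := by
            calc q * y * 2 ≤ q * y * q := Nat.mul_le_mul_left _ hq2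
              _ = _ := by ring
          omega))
  · rw [show i + 1 + 1 = i + 2 from rfl, e2, hM]
    have hBd : 0 < (q ^ 2 * y - 1) * (q ^ 2 * y - q) := by
      have : q * 2 ≤ q * y := Nat.mul_le_mul_left q (by omega)
      exact Nat.mul_pos (by omega) (by omega)
    by_cases h : q = 2
    · subst h
      refine Or.inl (Nat.mul_lt_mul_of_pos_right ?_ hBd)
      have t1 := hn2 rfl
      have t2 := (plus_nat_two (hyq)).2.2.1
      norm_num at t1 t2 ⊢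
      omega
    · obtain ⟨-, -, i3, i4, -⟩ := plus_nat_four (hq4 h) hyq
      refine Or.inr ⟨hq4 h, ?_, ?_⟩
      · exact lt_of_lt_of_eq (Nat.mul_lt_mul_of_pos_right (lt_of_mul_pred hn i3) hBd)
          (mul_assoc _ _ _)
      · rw [min_eq_left hB, ← add_mul]
        exact Nat.mul_lt_mul_of_pos_right (lt_of_mul_pred hn i4) hBd
  · by_cases h : q = 2
    · exact Or.inr ⟨h, hn2 h⟩
    · exact Or.inl (lt_of_mul_pred (A := 2 * ((q ^ 3 * y - 1) * (q ^ 2 * y + 1)))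
        (by rw [mul_right_comm]; omega) (plus_nat_four (hq4 h) hyq).2.1)
  · rw [f1, hW0, mul_one]; exact h9
  · refine Or.inl fun c _ => goodVal_all hI.nondeg hI.three (fun _ => ?_) c
    rw [Cfsg.Agent.Classical.finrank_HypSpace, hfr]; omega
  · intro _
    rw [hfr]; exact Even.zero

set_option maxHeartbeats 800000 in
/-- Small actions, minus type. -/
theorem smallAct_minus {a b : F} (hA : (binQF a b).Anisotropic) {j : ℕ} (hj : 1 ≤ j) {n q : ℕ}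
    (hq : Nat.card F = q) (hn : n * (q - 1) < (q ^ (j + 3) + 1) * (q ^ (j + 2) - 1)) :
    SmallAct (hypExt j (binQF a b)) (j + 1) n := by
  have hq2 : 2 ≤ q := hq ▸ Finite.one_lt_card
  have hfr : finrank F (Fin 2 → F) = 2 := finrank_fin_fun F
  have hI := innerSpace_hypExt (F := F) (goodCore_binQF hA) (j := j) hj (by rw [hfr]; omega)
  obtain ⟨x, hx⟩ : ∃ x, x = q ^ j := ⟨_, rfl⟩
  have hxq : q ≤ x := hx ▸ Nat.le_self_pow (by omega) q
  have e1 : q ^ (j + 1) = q * x := by rw [hx]; ring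
  have e2 : q ^ (j + 2) = q ^ 2 * x := by rw [hx]; ring
  have e3 : q ^ (j + 3) = q ^ 3 * x := by rw [hx]; ring
  have f0 : q ^ (2 * j) = x ^ 2 := by rw [hx]; ring
  have f1 : q ^ (2 * (j + 1)) = q ^ 2 * x ^ 2 := by rw [hx]; ring
  rw [e3, e2] at hn
  obtain ⟨s1, -⟩ := minus_counts hA j
  obtain ⟨s2, l2⟩ := minus_counts hA (j + 1)
  obtain ⟨s3, l3⟩ := minus_counts hA (j + 2)
  rw [hq] at s1 s2 l2 s3 l3
  rw [e1, ← hx] at s1
  rw [show j + 1 + 1 = j + 2 from rfl, e2, e1] at s2 l2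
  rw [show j + 2 + 1 = j + 3 from rfl, e3, e2] at s3 l3
  have hS2 : Nat.card (sing1 (hypAdd (hypExt j (binQF a b)))) =
      (q ^ 2 * x + 1) * (q * x - 1) := by
    have h1 := card_sing1_add_one (hypExt (j + 1) (binQF a b))
    have h2 := card_sing1_add_one (hypAdd (hypExt j (binQF a b)))
    rw [level_two, ← h1] at h2
    rw [← s2]; omega
  have hS3 : Nat.card (sing1 (hypAdd (hypAdd (hypExt j (binQF a b))))) =
      (q ^ 3 * x + 1) * (q ^ 2 * x - 1) := by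
    have h1 := card_sing1_add_one (hypExt (j + 2) (binQF a b))
    have h2 := card_sing1_add_one (hypAdd (hypAdd (hypExt j (binQF a b))))
    rw [level_three, ← h1] at h2
    rw [← s3]; omega
  obtain ⟨ha3, ha4, hM, i7, i9⟩ := minus_nat hq2 hxq
  have hW0 : Nat.card (Fin 2 → F) = q ^ 2 := by simp [Nat.card_fun, hq]
  have hx0 : 0 < x := by omega
  have hqx : 4 ≤ q * x := Nat.mul_le_mul hq2 (le_trans hq2 hxq)
  have h9 : n < 2 * (q ^ 4 * x ^ 2) := lt_of_mul_pred hn i9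
  refine smallAct_of_bounds (binQF a b) j hA hI hj hq (A1 := (q * x + 1) * (x - 1))
    (A2 := (q ^ 2 * x + 1) * (q * x - 1)) (A3 := (q ^ 3 * x + 1) * (q ^ 2 * x - 1))
    (B2 := q * x * (q ^ 2 * x + 1)) (B3 := q ^ 2 * x * (q ^ 3 * x + 1)) s1.ge hS2.ge hS3.ge
    (fun c hc => by rw [level_two, ← l2 c hc]) (fun c hc => by rw [level_three, ← l3 c hc])
    (Nat.mul_pos (by omega) (by omega)) hn ?_ ?_ ?_ ?_ ?_ ?_ ?_ ?_ ?_ ?_
  · refine le_trans ?_ (Nat.le_mul_of_pos_right _ (by omega))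
    have := Nat.le_mul_of_pos_right (q ^ 2) hx0
    omega
  · rw [e2]; exact ha3
  · rw [e1]
    refine Nat.le_of_mul_le_mul_left ?_ (show 0 < q - 1 by omega)
    refine le_trans (le_of_eq (by ring : (q - 1) * (n * (q * x - 4)) =
      n * (q - 1) * (q * x - 4))) ?_
    exact le_trans (Nat.mul_le_mul_right _ hn.le) ha4
  · by_cases h : q = 2
    · subst h
      refine Or.inl ?_
      norm_num at hn ⊢
      refine lt_of_lt_of_le hn ?_
      calc (8 * x + 1) * (4 * x - 1) ≤ (8 * x + 1) * (4 * x) :=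
            Nat.mul_le_mul_left _ (Nat.sub_le _ _)
        _ = 4 * x * (8 * x + 1) := mul_comm _ _
        _ ≤ 5 * (2 * x * (4 * x + 1)) := by
            calc 4 * x * (8 * x + 1) = 2 * x * (2 * (8 * x + 1)) := by ring
              _ ≤ 2 * x * (5 * (4 * x + 1)) := Nat.mul_le_mul_left _ (by omega)
              _ = _ := by ring
    · exact Or.inr (lt_of_mul_pred (A := 2 * ((q ^ 3 * x + 1) * (q ^ 2 * x - 1)))
        (by rw [mul_assoc]; omega) (minus_nat_three (by omega) hxq).1)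
  · rw [f0, hW0]
    refine lt_of_lt_of_le h9 ?_
    calc 2 * (q ^ 4 * x ^ 2) = x ^ 2 * q ^ 2 * (q * (2 * q)) := by ring
      _ ≤ _ := Nat.mul_le_mul_left _ (Nat.mul_le_mul (Nat.le_mul_of_pos_right q hx0) (by
          have h1 : q * 2 ≤ q * x := Nat.mul_le_mul_left q (by omega)
          have h2 : q * x ≤ q ^ 2 * x := Nat.mul_le_mul_right x (Nat.le_self_pow two_ne_zero q)
          omega))
  · rw [e1, hM]
    refine Or.inl (Nat.mul_lt_mul_of_pos_right (lt_of_mul_pred hn i7) ?_)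
    have : q * 2 ≤ q * x := Nat.mul_le_mul_left q (by omega)
    exact Nat.mul_pos (by omega) (by omega)
  · by_cases h : q = 2
    · subst h
      refine Or.inr ⟨rfl, ?_⟩
      norm_num at hn ⊢
      exact lt_of_lt_of_le hn (le_trans (Nat.mul_le_mul_left _ (Nat.sub_le _ _))
        (le_of_eq (mul_comm _ _)))
    · exact Or.inl (lt_of_mul_pred (A := 2 * ((q ^ 3 * x + 1) * (q ^ 2 * x - 1)))
        (by rw [mul_right_comm]; omega) (minus_nat_three (by omega) hxq).2)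
  · rw [f1, hW0]
    calc n < 2 * (q ^ 4 * x ^ 2) := h9
      _ = _ := by ring
  · refine Or.inl fun c _ => goodVal_all hI.nondeg hI.three (fun _ => ?_) c
    rw [Cfsg.Agent.Classical.finrank_HypSpace, hfr]; omega
  · intro _
    rw [hfr]; exact even_two

end Cfsg.Agent.MinIndex
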