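/-
The minimal index in even dimension.
-/
import Mathlib
import Cfsg.Prelude.Def_Classical
import Cfsg.Agent.Classical.OrthForms
import Cfsg.Agent.Classical.OrthIndex
import Cfsg.Agent.Classical.OrthFinal
import Cfsg.Agent.MinIndex.OrthInst
import Cfsg.Agent.MinIndex.OrthCounts
import Cfsg.Agent.MinIndex.OrthNumEven

set_option autoImplicit false

namespace Cfsg.Agent.MinIndex

open QuadraticMap Cfsg.Agent.Classical Module

universe u

variable {F : Type u} [Field F] [Finite F]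

/-- The split form of the plus space. -/
noncomputable def plusSplit (i : ℕ) :
    (Fin (i + 3) ⊕ Fin (i + 3) → F) ≃ₗ[F]
      (F × F) × ((F × F) × HypSpace F (i + 1) (Fin 0 → F)) :=
  (plusEquiv (i + 3)).trans (hypSplitTwo (i + 1))

omit [Finite F] in
theorem plusSplit_spec (i : ℕ) (v : Fin (i + 3) ⊕ Fin (i + 3) → F) :
    hypAdd (hypAdd (hypExt (i + 1) (0 : QuadraticForm F (Fin 0 → F)))) (plusSplit i v) =
      plusQF (i + 3) F v := by
  rw [plusSplit, LinearEquiv.trans_apply, hypSplitTwo_spec, plusEquiv_spec]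

theorem innerSpace_plus {i : ℕ} (hi : 1 ≤ i) :
    InnerSpace (hypExt (i + 1) (0 : QuadraticForm F (Fin 0 → F))) :=
  innerSpace_hypExt goodCore_zero (by omega) (by rw [finrank_fin_fun]; omega)

theorem gen_plus (i : ℕ) :
    EQ (hypExt (i + 1) (0 : QuadraticForm F (Fin 0 → F))) ⊔
      RQ (hypExt (i + 1) (0 : QuadraticForm F (Fin 0 → F))) = ⊤ :=
  sup_eq_top_hypExt _ goodCore_zero.nondeg.qNondeg goodCore_zero.gen

/-- The bound, plus type. -/
theorem plus_index_bound {i : ℕ} (hi : 1 ≤ i) {q T : ℕ} (hq : Nat.card F = q)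
    (hq4 : q ≠ 2 → 4 ≤ q)
    (hT : ∀ n, n < T → n * (q - 1) < (q ^ (i + 3) - 1) * (q ^ (i + 2) + 1) ∧
      (q = 2 → n < q ^ (i + 2) * (q ^ (i + 3) - 1))) :
    ∀ H : Subgroup (Cfsg.POmega F (Cfsg.quadFormPlus (i + 3) F)), H ≠ ⊤ → T ≤ H.index :=
  index_bound (innerSpace_plus hi) (gen_plus i) (plusQF_apply (i + 3)) (plusSplit i)
    (plusSplit_spec i) (r := i + 1 + 1)
    fun n hn => smallAct_plus hi hq (hT n hn).1 (hT n hn).2 hq4

/-- The singular points, plus type. -/
theorem plus_index_singular {i : ℕ} (hi : 1 ≤ i) {q : ℕ} (hq : Nat.card F = q) :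
    ∃ H : Subgroup (Cfsg.POmega F (Cfsg.quadFormPlus (i + 3) F)),
      H.index * (q - 1) = (q ^ (i + 3) - 1) * (q ^ (i + 2) + 1) := by
  set R := hypAdd (hypAdd (hypExt (i + 1) (0 : QuadraticForm F (Fin 0 → F)))) with hR
  have hv0 : R (hE F ((F × F) × HypSpace F (i + 1) (Fin 0 → F))) = 0 := hE_singular _
  obtain ⟨H, hH⟩ := exists_index_line (innerSpace_plus hi) (gen_plus i) (plusQF_apply (i + 3))
    (plusSplit i) (plusSplit_spec i)
    (isPair_hypAdd (hypAdd (hypExt (i + 1) (0 : QuadraticForm F (Fin 0 → F))))).ne_zero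
  refine ⟨H, ?_⟩
  rw [card_scalar_zero _ hv0, hq, hv0] at hH
  rw [hH]
  obtain ⟨s3, -⟩ := plus_counts (F := F) (i + 2)
  rw [hq, show i + 2 + 1 = i + 3 from rfl] at s3
  have h1 := card_sing1_add_one R
  have h2 := card_sing1_add_one (hypExt (i + 3) (0 : QuadraticForm F (Fin 0 → F)))
  rw [hR, level_three, show i + 1 + 2 = i + 3 from rfl, ← h2, s3] at h1
  exact Nat.succ_injective h1

/-- The non-singular points, plus type over two elements. -/
theorem plus_index_two (hq : Nat.card F = 2) {i : ℕ} (hi : 1 ≤ i) :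
    ∃ H : Subgroup (Cfsg.POmega F (Cfsg.quadFormPlus (i + 3) F)),
      H.index = 2 ^ (i + 2) * (2 ^ (i + 3) - 1) := by
  set R := hypAdd (hypAdd (hypExt (i + 1) (0 : QuadraticForm F (Fin 0 → F)))) with hR
  set v : (F × F) × ((F × F) × HypSpace F (i + 1) (Fin 0 → F)) := ((1, 1), 0) with hv'
  have hv : R v = 1 := by simp [hR, hv']
  have hvne : R v ≠ 0 := by rw [hv]; exact one_ne_zero
  obtain ⟨H, hH⟩ := exists_index_line (innerSpace_plus hi) (gen_plus i) (plusQF_apply (i + 3))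
    (plusSplit i) (plusSplit_spec i) (v := v)
    (fun h0 => hvne (by rw [h0, QuadraticMap.map_zero]))
  refine ⟨H, ?_⟩
  have hone : Nat.card {t : F // t * t = 1} = 1 := by
    refine le_antisymm (card_sq_one_two hq) ?_
    have : Nonempty {t : F // t * t = 1} := ⟨⟨1, one_mul 1⟩⟩
    exact Nat.card_pos
  rw [card_scalar_one _ hvne, hone, mul_one, hv] at hH
  rw [hH]
  obtain ⟨-, l3⟩ := plus_counts (F := F) (i + 2)
  have h1 := card_ne_zero_level R (c := (1 : F)) one_ne_zero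
  have h2 := l3 1 one_ne_zero
  rw [hq, show i + 2 + 1 = i + 3 from rfl] at h2
  rw [h2]
  rw [hR, level_three, show i + 1 + 2 = i + 3 from rfl] at h1
  exact h1

/-- The split form of the minus space. -/
noncomputable def minusSplit (j : ℕ) :
    ((Fin (j + 2) ⊕ Fin (j + 2)) ⊕ Fin 2 → F) ≃ₗ[F]
      (F × F) × ((F × F) × HypSpace F j (Fin 2 → F)) :=
  (minusEquiv (j + 2)).trans (hypSplitTwo j)

omit [Finite F] in
theorem minusSplit_spec (j : ℕ) (a b : F) (v : (Fin (j + 2) ⊕ Fin (j + 2)) ⊕ Fin 2 → F) :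
    hypAdd (hypAdd (hypExt j (binQF a b))) (minusSplit j v) = minusQF (j + 2) a b v := by
  rw [minusSplit, LinearEquiv.trans_apply, hypSplitTwo_spec, minusEquiv_spec]

theorem innerSpace_minus {a b : F} (hA : (binQF a b).Anisotropic) {j : ℕ} (hj : 1 ≤ j) :
    InnerSpace (hypExt j (binQF a b)) :=
  innerSpace_hypExt (goodCore_binQF hA) hj (by rw [finrank_fin_fun]; omega)

theorem gen_minus {a b : F} (hA : (binQF a b).Anisotropic) (j : ℕ) :
    EQ (hypExt j (binQF a b)) ⊔ RQ (hypExt j (binQF a b)) = ⊤ :=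
  sup_eq_top_hypExt _ (goodCore_binQF hA).nondeg.qNondeg (goodCore_binQF hA).gen

/-- The bound, minus type. -/
theorem minus_index_bound {a b : F} (hA : (binQF a b).Anisotropic) {j : ℕ} (hj : 1 ≤ j)
    {q T : ℕ} (hq : Nat.card F = q)
    (hT : ∀ n, n < T → n * (q - 1) < (q ^ (j + 3) + 1) * (q ^ (j + 2) - 1)) :
    ∀ H : Subgroup (Cfsg.POmega F (Cfsg.quadFormMinus (j + 2) F a b)), H ≠ ⊤ → T ≤ H.index :=
  index_bound (innerSpace_minus hA hj) (gen_minus hA j) (minusQF_apply (j + 2) a b) (minusSplit j)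
    (minusSplit_spec j a b) (r := j + 1) fun n hn => smallAct_minus hA hj hq (hT n hn)

/-- The singular points, minus type. -/
theorem minus_index_singular {a b : F} (hA : (binQF a b).Anisotropic) {j : ℕ} (hj : 1 ≤ j)
    {q : ℕ} (hq : Nat.card F = q) :
    ∃ H : Subgroup (Cfsg.POmega F (Cfsg.quadFormMinus (j + 2) F a b)),
      H.index * (q - 1) = (q ^ (j + 3) + 1) * (q ^ (j + 2) - 1) := by
  set R := hypAdd (hypAdd (hypExt j (binQF a b))) with hR
  have hv0 : R (hE F ((F × F) × HypSpace F j (Fin 2 → F))) = 0 := hE_singular _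
  obtain ⟨H, hH⟩ := exists_index_line (innerSpace_minus hA hj) (gen_minus hA j)
    (minusQF_apply (j + 2) a b) (minusSplit j) (minusSplit_spec j a b)
    (isPair_hypAdd (hypAdd (hypExt j (binQF a b)))).ne_zero
  refine ⟨H, ?_⟩
  rw [card_scalar_zero _ hv0, hq, hv0] at hH
  rw [hH]
  obtain ⟨s3, -⟩ := minus_counts hA (j + 2)
  rw [hq, show j + 2 + 1 = j + 3 from rfl] at s3
  have h1 := card_sing1_add_one R
  have h2 := card_sing1_add_one (hypExt (j + 2) (binQF a b))
  rw [hR, level_three, ← h2, s3] at h1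
  exact Nat.succ_injective h1

end Cfsg.Agent.MinIndex
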