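/-
The minimal index in odd dimension.
-/
import Mathlib
import Cfsg.Prelude.Def_Classical
import Cfsg.Agent.Classical.OrthForms
import Cfsg.Agent.Classical.OrthIndex
import Cfsg.Agent.Classical.OrthFinal
import Cfsg.Agent.MinIndex.OrthInst
import Cfsg.Agent.MinIndex.OrthCounts
import Cfsg.Agent.MinIndex.OrthNumOdd

set_option autoImplicit false

namespace Cfsg.Agent.MinIndex

open QuadraticMap Cfsg.Agent.Classical Module

universe u

variable {F : Type u} [Field F] [Finite F]

/-- The split form of the odd space. -/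
noncomputable def oddSplit (j : ℕ) :
    (Unit ⊕ (Fin (j + 2) ⊕ Fin (j + 2)) → F) ≃ₗ[F] (F × F) × ((F × F) × HypSpace F j F) :=
  (oddEquiv (j + 2)).trans (hypSplitTwo j)

omit [Finite F] in
theorem oddSplit_spec (j : ℕ) (v : Unit ⊕ (Fin (j + 2) ⊕ Fin (j + 2)) → F) :
    hypAdd (hypAdd (hypExt j (QuadraticMap.sq : QuadraticForm F F))) (oddSplit j v) =
      oddQF (j + 2) F v := by
  rw [oddSplit, LinearEquiv.trans_apply, hypSplitTwo_spec, oddEquiv_spec]

/-- The general bound in odd dimension. -/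
theorem odd_index_bound (h2 : (2 : F) ≠ 0) {j : ℕ} (hj : 1 ≤ j) {q T : ℕ} (hq : Nat.card F = q)
    (hq3 : 3 ≤ q) (hq5 : q ≠ 3 → 5 ≤ q)
    (hT : ∀ n, n < T → n * (q - 1) < q ^ (2 * (j + 2)) - 1 ∧
      (q = 3 → 2 * n < q ^ (j + 2) * (q ^ (j + 2) - 1))) :
    ∀ H : Subgroup (Cfsg.POmega F (Cfsg.quadFormOdd (j + 2) F)), H ≠ ⊤ → T ≤ H.index := by
  have : FiniteDimensional F F := inferInstance
  exact index_bound (innerSpace_hypExt (goodCore_sq h2) hj (by rw [finrank_self]; omega))
    (sup_eq_top_hypExt _ (goodCore_sq h2).nondeg.qNondeg (goodCore_sq h2).gen)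
    (oddQF_apply (j + 2)) (oddSplit j) (oddSplit_spec j) (r := j + 1)
    fun n hn => smallAct_odd h2 hj hq hq3 (hT n hn).1 (hT n hn).2 hq5

/-- The singular points in odd dimension. -/
theorem odd_index_singular (h2 : (2 : F) ≠ 0) {j : ℕ} (hj : 1 ≤ j) {q : ℕ} (hq : Nat.card F = q) :
    ∃ H : Subgroup (Cfsg.POmega F (Cfsg.quadFormOdd (j + 2) F)),
      H.index * (q - 1) = q ^ (2 * (j + 2)) - 1 := by
  set v := hE F ((F × F) × HypSpace F j F) with hvdef
  have hv0 : hypAdd (hypAdd (hypExt j (QuadraticMap.sq : QuadraticForm F F))) v = 0 :=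
    hE_singular _
  obtain ⟨H, hH⟩ := exists_index_line
    (innerSpace_hypExt (goodCore_sq h2) hj (by rw [finrank_self]; omega))
    (sup_eq_top_hypExt _ (goodCore_sq h2).nondeg.qNondeg (goodCore_sq h2).gen)
    (oddQF_apply (j + 2)) (oddSplit j) (oddSplit_spec j) (v := v) (isPair_hypAdd (hypAdd (hypExt j (QuadraticMap.sq : QuadraticForm F F)))).ne_zero
  refine ⟨H, ?_⟩
  rw [card_scalar_zero _ hv0, hq, hv0] at hH
  rw [hH]
  have h1 := card_sing1_add_one (hypAdd (hypAdd (hypExt j (QuadraticMap.sq : QuadraticForm F F))))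
  rw [level_three, card_zeros_hypExt_odd, hq] at h1
  have h3 : Nat.card {s // s ≠ 0 ∧
      hypAdd (hypAdd (hypExt j (QuadraticMap.sq : QuadraticForm F F))) s = 0} + 1 =
      q ^ (2 * (j + 2)) := h1
  omega

/-- The non-singular points of non-square value, over three elements. -/
theorem odd_index_three (hq : Nat.card F = 3) {j : ℕ} (hj : 1 ≤ j) :
    ∃ H : Subgroup (Cfsg.POmega F (Cfsg.quadFormOdd (j + 2) F)),
      H.index * 2 = 3 ^ (j + 2) * (3 ^ (j + 2) - 1) := by
  classical
  have : Fintype F := Fintype.ofFinite F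
  have hF : Fintype.card F = 3 := by rw [← Nat.card_eq_fintype_card, hq]
  have h30 : (3 : F) = 0 := by
    have := FiniteField.cast_card_eq_zero F
    rw [hF] at this
    exact_mod_cast this
  have h2 : (2 : F) ≠ 0 := fun h => one_ne_zero (α := F) (by linear_combination h30 - h)
  have hz : Nat.card {w // (QuadraticMap.sq : QuadraticForm F F) w = -1} = 0 := by
    have : IsEmpty {w // (QuadraticMap.sq : QuadraticForm F F) w = -1} := ⟨fun ⟨w, hw⟩ => by
      rw [QuadraticMap.sq_apply] at hw
      have hw0 : w ≠ 0 := fun h0 => by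
        rw [h0, mul_zero] at hw
        exact one_ne_zero (α := F) (by linear_combination hw)
      have h1 := FiniteField.pow_card_sub_one_eq_one w hw0
      rw [hF] at h1
      exact h2 (by linear_combination hw - h1)⟩
    exact Nat.card_of_isEmpty
  set v : (F × F) × ((F × F) × HypSpace F j F) := ((1, -1), 0) with hvdef
  have hv : hypAdd (hypAdd (hypExt j (QuadraticMap.sq : QuadraticForm F F))) v = -1 := by
    simp [hvdef]
  have hvne : hypAdd (hypAdd (hypExt j (QuadraticMap.sq : QuadraticForm F F))) v ≠ 0 := by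
    rw [hv]; exact neg_ne_zero.2 one_ne_zero
  obtain ⟨H, hH⟩ := exists_index_line
    (innerSpace_hypExt (goodCore_sq h2) hj (by rw [finrank_self]; omega))
    (sup_eq_top_hypExt _ (goodCore_sq h2).nondeg.qNondeg (goodCore_sq h2).gen)
    (oddQF_apply (j + 2)) (oddSplit j) (oddSplit_spec j) (v := v)
    (fun h0 => hvne (by rw [h0, QuadraticMap.map_zero]))
  refine ⟨H, ?_⟩
  have htwo : Nat.card {t : F // t * t = 1} = 2 := by
    refine le_antisymm (card_sq_one_le F) ?_
    have h1 : (1 : F) ≠ -1 := fun h => h2 (by linear_combination h)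
    refine (le_of_eq (by simp : 2 = Nat.card Bool)).trans (Nat.card_le_card_of_injective
      (fun b => if b then ⟨1, one_mul 1⟩ else ⟨-1, by ring⟩) fun a b hab => ?_)
    cases a <;> cases b <;> simp_all
  rw [card_scalar_one _ hvne, htwo] at hH
  rw [hH]
  have h1 := card_ne_zero_level (hypAdd (hypAdd (hypExt j (QuadraticMap.sq : QuadraticForm F F))))
    (c := -1) (neg_ne_zero.2 one_ne_zero)
  rw [level_three] at h1
  rw [hv]
  refine h1.trans ?_
  have h := card_level_hypExt (QuadraticMap.sq : QuadraticForm F F) (j + 2) (-1)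
  rw [hz, hq, mul_zero, add_zero] at h
  rw [Nat.mul_sub, mul_one, ← pow_add, ← two_mul]
  omega

end Cfsg.Agent.MinIndex
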